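import Cfsg.Agent.Fus.AltFus3

/-!
# The `p`-fusion system of alternating groups, `p` odd: automorphisms of the base
-/

set_option autoImplicit false
set_option linter.unusedSectionVars false

namespace Cfsg.Agent.Fus.WrP

open Equiv Equiv.Perm Cfsg.Agent.Fus

variable {p : ℕ} {A R : Type*} [Fintype A] [DecidableEq A] [Fintype R] [DecidableEq R] [Fact p.Prime]

/-- the alternating group as a subgroup -/
local notation "Alt" => alternatingGroup ((A × ZMod p) ⊕ R)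

/-- the subgroup generated by the `p`-elements of `N(base)` -/
def PB (p : ℕ) [Fact p.Prime] (A R : Type*) [Fintype A] [DecidableEq A] [Fintype R] [DecidableEq R] :
    Subgroup (Perm ((A × ZMod p) ⊕ R)) :=
  Subgroup.closure {g | g ∈ alternatingGroup ((A × ZMod p) ⊕ R) ∧
    g ∈ Subgroup.normalizer ((base p A R : Subgroup _) : Set (Perm ((A × ZMod p) ⊕ R))) ∧ ∃ k : ℕ, g ^ p ^ k = 1}

theorem wa_mem_normalizer_base (s : Perm A) (l : A → (ZMod p)ˣ) (f : A → ZMod p) :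
    (wa s l f : Perm ((A × ZMod p) ⊕ R)) ∈
      Subgroup.normalizer ((base p A R : Subgroup _) : Set (Perm ((A × ZMod p) ⊕ R))) := by
  apply mem_normalizer_of_conj
  intro x hx
  obtain ⟨h, rfl⟩ := mem_base.mp hx
  rw [wa_conj_base]
  exact mem_base.mpr ⟨_, rfl⟩

theorem mem_PB (hp2 : p ≠ 2) {s : Perm A} {l : A → (ZMod p)ˣ} {f : A → ZMod p} {k : ℕ}
    (h : (wa s l f : Perm ((A × ZMod p) ⊕ R)) ^ p ^ k = 1) : (wa s l f : Perm ((A × ZMod p) ⊕ R)) ∈ PB p A R :=
  Subgroup.subset_closure ⟨sign_eq_one_of_pow hp2 h, wa_mem_normalizer_base _ _ _, k, h⟩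

theorem base_mem_PB (hp2 : p ≠ 2) (f : A → ZMod p) : (wa 1 1 f : Perm ((A × ZMod p) ⊕ R)) ∈ PB p A R :=
  mem_PB hp2 (k := 1) (by rw [pow_one]; exact wa_base_pow_p f)

theorem blk_pow (s : Perm A) (k : ℕ) : (wa s 1 0 : Perm ((A × ZMod p) ⊕ R)) ^ k = wa (s ^ k) 1 0 :=
  (map_pow (blk p A R) s k).symm

theorem blk_mem_PB (hp2 : p ≠ 2) {s : Perm A} (hs : s ^ p = 1) :
    (wa s 1 0 : Perm ((A × ZMod p) ⊕ R)) ∈ PB p A R :=
  mem_PB hp2 (k := 1) (by rw [pow_one, blk_pow, hs, wa_one])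

theorem exists_order_p_map (hA : p ≤ Fintype.card A) {c c' : A} (hcc' : c ≠ c') :
    ∃ s : Perm A, s ^ p = 1 ∧ s c = c' := by
  have hp := (Fact.out : p.Prime)
  have hd : p ∣ Nat.card (Perm A) := by
    rw [Nat.card_eq_fintype_card, Fintype.card_perm]
    exact (hp.dvd_factorial).mpr hA
  obtain ⟨x, ho⟩ := exists_prime_orderOf_dvd_card' p hd
  have hx1 : x ≠ 1 := by
    intro h
    rw [h, orderOf_one] at ho
    exact hp.one_lt.ne ho
  obtain ⟨b, hb⟩ : ∃ b, x b ≠ b := by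
    by_contra hcon
    push Not at hcon
    exact hx1 (Equiv.ext hcon)
  have h1 : swap b c b = c := swap_apply_left _ _
  have h2 : swap b c (x b) ≠ c := by
    intro h
    exact hb ((swap b c).injective (h.trans h1.symm))
  set σ := swap (swap b c (x b)) c' * swap b c with hσ
  have h3 : σ b = c := by
    rw [hσ, Perm.mul_apply, h1, swap_apply_of_ne_of_ne (Ne.symm h2) hcc']
  have h4 : σ (x b) = c' := by
    rw [hσ, Perm.mul_apply, swap_apply_left]
  refine ⟨σ * x * σ⁻¹, ?_, ?_⟩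
  · rw [conj_pow, ← ho, pow_orderOf_eq_one, mul_one, mul_inv_cancel]
  · have h5 : σ⁻¹ c = b := by rw [Perm.inv_eq_iff_eq]; exact h3.symm
    rw [Perm.mul_apply, Perm.mul_apply, h5, h4]

theorem wa_diag_mul (l l' : A → (ZMod p)ˣ) :
    (wa 1 l 0 * wa 1 l' 0 : Perm ((A × ZMod p) ⊕ R)) = wa 1 (l * l') 0 := by
  rw [wa_mul]
  congr 1
  · funext b; simp

/-- diagonal homomorphism -/
def dg (p : ℕ) [Fact p.Prime] (A R : Type*) [Fintype A] [DecidableEq A] [Fintype R] [DecidableEq R] :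
    (A → (ZMod p)ˣ) →* Perm ((A × ZMod p) ⊕ R) where
  toFun l := wa 1 l 0
  map_one' := wa_one
  map_mul' s s' := (wa_diag_mul s s').symm

theorem wa_conj_blk (l : A → (ZMod p)ˣ) (s : Perm A) :
    (wa 1 l 0 * wa s 1 0 * (wa 1 l 0)⁻¹ : Perm ((A × ZMod p) ⊕ R)) = wa s (fun b => l (s b) * (l b)⁻¹) 0 := by
  rw [mul_inv_eq_iff_eq_mul, wa_mul, wa_mul]
  congr 1
  · funext b
    show l (s b) * 1 = l (s b) * (l b)⁻¹ * l b
    rw [mul_one, inv_mul_cancel_right]
  · funext b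
    show (l (s b) : ZMod p) * 0 + 0 = _ * 0 + 0
    ring

theorem wa_comm_blk (l : A → (ZMod p)ˣ) (s : Perm A) :
    (wa 1 l 0 * wa s 1 0 * (wa 1 l 0)⁻¹ * wa s⁻¹ 1 0 : Perm ((A × ZMod p) ⊕ R)) =
      wa 1 (fun b => l b * (l (s⁻¹ b))⁻¹) 0 := by
  rw [wa_conj_blk, wa_mul, mul_inv_cancel]
  congr 1
  · funext b
    show l (s (s⁻¹ b)) * (l (s⁻¹ b))⁻¹ * 1 = _
    have h1 : s (s⁻¹ b) = b := s.apply_symm_apply b
    rw [h1, mul_one]
  · funext b
    show _ * (0 : ZMod p) + 0 = 0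
    ring

theorem diag_two_mem_PB (hp2 : p ≠ 2) (hA : p ≤ Fintype.card A) {c c' : A} (hcc' : c ≠ c') (ν : (ZMod p)ˣ) :
    (wa 1 (Pi.mulSingle c ν * Pi.mulSingle c' ν⁻¹) 0 : Perm ((A × ZMod p) ⊕ R)) ∈ PB p A R := by
  obtain ⟨s, hs, hsc⟩ := exists_order_p_map hA hcc'
  have h1 := wa_comm_blk (R := R) (Pi.mulSingle c ν) s
  have h2 : (fun b => (Pi.mulSingle c ν : A → (ZMod p)ˣ) b * ((Pi.mulSingle c ν : A → (ZMod p)ˣ) (s⁻¹ b))⁻¹) =
      Pi.mulSingle c ν * Pi.mulSingle c' ν⁻¹ := by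
    funext b
    have h2 : (Pi.mulSingle c ν : A → (ZMod p)ˣ) (s⁻¹ b) = (Pi.mulSingle c' ν : A → (ZMod p)ˣ) b := by
      by_cases hb : b = c'
      · have : s⁻¹ b = c := by rw [Perm.inv_eq_iff_eq, hsc, hb]
        rw [this, hb, Pi.mulSingle_eq_same, Pi.mulSingle_eq_same]
      · have : s⁻¹ b ≠ c := by
          intro h
          rw [Perm.inv_eq_iff_eq, hsc] at h
          exact hb h
        rw [Pi.mulSingle_eq_of_ne this, Pi.mulSingle_eq_of_ne hb]
    rw [h2, Pi.mulSingle_inv]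
    rfl
  rw [h2] at h1
  rw [← h1]
  refine Subgroup.mul_mem _ ?_ (blk_mem_PB hp2 (by rw [inv_pow, hs, inv_one]))
  have h4 : (wa 1 (Pi.mulSingle c ν) 0 * wa s 1 0 * (wa 1 (Pi.mulSingle c ν) 0)⁻¹ : Perm ((A × ZMod p) ⊕ R)) ^ p ^ 1
      = 1 := by
    rw [pow_one, conj_pow, blk_pow, hs, wa_one, mul_one, mul_inv_cancel]
  rw [wa_conj_blk] at h4 ⊢
  exact mem_PB hp2 h4

theorem diag_mem_PB (hp2 : p ≠ 2) (hA : p ≤ Fintype.card A) {l : A → (ZMod p)ˣ} (hl : ∏ b, l b = 1) :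
    (wa 1 l 0 : Perm ((A × ZMod p) ⊕ R)) ∈ PB p A R := by
  have hne : Nonempty A := Fintype.card_pos_iff.mp ((Fact.out : p.Prime).pos.trans_le hA)
  obtain ⟨c₀⟩ := hne
  have h1 : l = ∏ c, (Pi.mulSingle c (l c) * Pi.mulSingle c₀ (l c)⁻¹ : A → (ZMod p)ˣ) := by
    rw [Finset.prod_mul_distrib, Finset.univ_prod_mulSingle]
    have h2 : ∏ c, (Pi.mulSingle c₀ (l c)⁻¹ : A → (ZMod p)ˣ) = 1 := by
      have h3 := map_prod (MonoidHom.mulSingle (fun _ : A => (ZMod p)ˣ) c₀) (fun c => (l c)⁻¹) Finset.univ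
      simp only [MonoidHom.mulSingle_apply] at h3
      rw [← h3, Finset.prod_inv_distrib, hl, inv_one, Pi.mulSingle_one]
    rw [h2, mul_one]
  have h2 : l ∈ (PB p A R).comap (dg p A R) := by
    rw [h1]
    refine Subgroup.prod_mem _ fun c _ => ?_
    by_cases hc : c = c₀
    · rw [hc, ← Pi.mulSingle_mul, mul_inv_cancel, Pi.mulSingle_one]
      exact Subgroup.one_mem _
    · exact diag_two_mem_PB hp2 hA hc _
  exact h2

theorem alt_le_closure (hp2 : p ≠ 2) (hA : p ≤ Fintype.card A) :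
    alternatingGroup A ≤ Subgroup.closure {x : Perm A | x ^ p = 1} := by
  have hp := (Fact.out : p.Prime)
  have hp3 : 3 ≤ p := by
    have := hp.two_le
    omega
  by_cases h3 : p = 3
  · rw [← closure_three_cycles_eq_alternating]
    apply Subgroup.closure_mono
    intro x hx
    show x ^ p = 1
    rw [h3, ← hx.orderOf, pow_orderOf_eq_one]
  · have h5 : 5 ≤ p := by
      by_contra h
      have : p = 4 := by omega
      rw [this] at hp
      exact absurd hp (by norm_num)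
    have hs : IsSimpleGroup (alternatingGroup A) :=
      alternatingGroup.isSimpleGroup (by rw [Nat.card_eq_fintype_card]; omega)
    set K := Subgroup.closure {x : Perm A | x ^ p = 1} with hK
    have hKn : K.Normal := by
      refine ⟨fun y hy g => ?_⟩
      have h1 : K ≤ K.comap (MulAut.conj g).toMonoidHom := by
        rw [hK, Subgroup.closure_le]
        intro x hx
        refine Subgroup.subset_closure ?_
        show (g * x * g⁻¹) ^ p = 1
        rw [conj_pow, show x ^ p = 1 from hx, mul_one, mul_inv_cancel]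
      exact h1 hy
    have hKn' : (K.subgroupOf (alternatingGroup A)).Normal := hKn.subgroupOf _
    rcases hKn'.eq_bot_or_eq_top with h | h
    · exfalso
      obtain ⟨c, c', hcc'⟩ : ∃ c c' : A, c ≠ c' := Fintype.one_lt_card_iff.mp (by omega)
      obtain ⟨s, hsp, hs⟩ := exists_order_p_map hA hcc'
      have h1 : (⟨s, sign_eq_one_of_pow hp2 (k := 1) (by rw [pow_one]; exact hsp)⟩ : alternatingGroup A) ∈
          K.subgroupOf (alternatingGroup A) := Subgroup.subset_closure hsp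
      rw [h, Subgroup.mem_bot] at h1
      have h2 : s = 1 := congrArg Subtype.val h1
      rw [h2] at hs
      exact hcc' hs
    · rw [Subgroup.subgroupOf_eq_top] at h
      exact h

/-- **Claim A** -/
theorem mem_PB_of_prod (hp2 : p ≠ 2) (hA : p ≤ Fintype.card A) {s : Perm A} {l : A → (ZMod p)ˣ} {f : A → ZMod p}
    (hl : ∏ b, l b = 1) (hg : (wa s l f : Perm ((A × ZMod p) ⊕ R)) ∈ Alt) :
    (wa s l f : Perm ((A × ZMod p) ⊕ R)) ∈ PB p A R := by
  have hle : PB p A R ≤ Alt := by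
    rw [PB, Subgroup.closure_le]
    exact fun x hx => hx.1
  have h1 := base_mem_PB (R := R) hp2 (f ∘ s.symm)
  have h2 : (wa 1 (l ∘ s.symm) 0 : Perm ((A × ZMod p) ⊕ R)) ∈ PB p A R := by
    apply diag_mem_PB hp2 hA
    rw [← hl]
    exact Equiv.prod_comp s.symm l
  have h3 : Perm.sign s = 1 := by
    have h4 : Perm.sign (wa s l f : Perm ((A × ZMod p) ⊕ R)) = 1 := hg
    have h5 : Perm.sign (wa 1 1 (f ∘ s.symm) : Perm ((A × ZMod p) ⊕ R)) = 1 := hle h1
    have h6 : Perm.sign (wa 1 (l ∘ s.symm) 0 : Perm ((A × ZMod p) ⊕ R)) = 1 := hle h2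
    rw [wa_split, map_mul, map_mul, h5, h6, one_mul, one_mul, sign_blk] at h4
    rcases Int.units_eq_one_or (Perm.sign s) with h7 | h7
    · exact h7
    · rw [h7, ((Fact.out : p.Prime).odd_of_ne_two hp2).neg_one_pow] at h4
      exact absurd h4 (by decide)
  rw [wa_split]
  refine Subgroup.mul_mem _ (Subgroup.mul_mem _ h1 h2) ?_
  have h4 : Subgroup.closure {x : Perm A | x ^ p = 1} ≤ (PB p A R).comap (blk p A R) := by
    rw [Subgroup.closure_le]
    intro x hx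
    exact blk_mem_PB hp2 hx
  exact h4 (alt_le_closure hp2 hA h3)

end Cfsg.Agent.Fus.WrP
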