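import Cfsg.Agent.Fus.AltFus4

/-!
# The `p`-fusion system of alternating groups, `p` odd: automorphisms of homocyclic pieces
-/

set_option autoImplicit false
set_option linter.unusedSectionVars false

namespace Cfsg.Agent.Fus.WrP

open Equiv Equiv.Perm Cfsg.Agent.Fus

variable {p : ℕ} {A R : Type*} [Fintype A] [DecidableEq A] [Fintype R] [DecidableEq R] [Fact p.Prime]

theorem mem_normalizer_W {P : Subgroup (Perm A)} {π : Perm A} {l : A → (ZMod p)ˣ}
    (hπ : π ∈ Subgroup.normalizer (P : Set (Perm A))) (hl : ∀ s ∈ P, ∀ b, l (s b) = l b) :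
    (wa π l 0 : Perm ((A × ZMod p) ⊕ R)) ∈
      Subgroup.normalizer ((W (p := p) R P : Subgroup _) : Set (Perm ((A × ZMod p) ⊕ R))) := by
  apply mem_normalizer_of_conj
  rintro _ ⟨s, hs, f, rfl⟩
  have h1 : (wa π l 0 * wa s 1 f * (wa π l 0)⁻¹ : Perm ((A × ZMod p) ⊕ R)) =
      wa (π * s * π⁻¹) 1 (fun b => (l (π⁻¹ b) : ZMod p) * f (π⁻¹ b)) := by
    rw [mul_inv_eq_iff_eq_mul, wa_mul, wa_mul, inv_mul_cancel_right]
    congr 1
    · funext b
      show l (s b) * 1 = 1 * l b
      rw [hl s hs, mul_one, one_mul]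
    · funext b
      have h2 : π⁻¹ (π b) = b := π.symm_apply_apply b
      show (l (s b) : ZMod p) * f b + 0 = ((1 : (ZMod p)ˣ) : ZMod p) * 0 + l (π⁻¹ (π b)) * f (π⁻¹ (π b))
      rw [h2, hl s hs, mul_zero, zero_add, add_zero]
  rw [h1]
  exact ⟨_, (Subgroup.mem_normalizer_iff.mp hπ s).mp hs, _, rfl⟩

/-! ### transvections on `ZMod p × ZMod p` -/

/-- lower transvection -/
def tE (t : ZMod p) : Perm (ZMod p × ZMod p) where
  toFun x := (x.1, x.2 + t * x.1)
  invFun x := (x.1, x.2 - t * x.1)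
  left_inv x := by simp
  right_inv x := by simp

/-- upper transvection -/
def tF (t : ZMod p) : Perm (ZMod p × ZMod p) where
  toFun x := (x.1 + t * x.2, x.2)
  invFun x := (x.1 - t * x.2, x.2)
  left_inv x := by simp
  right_inv x := by simp

/-- diagonal -/
def tD (u : (ZMod p)ˣ) : Perm (ZMod p × ZMod p) where
  toFun x := ((u⁻¹ : (ZMod p)ˣ) * x.1, u * x.2)
  invFun x := (u * x.1, (u⁻¹ : (ZMod p)ˣ) * x.2)
  left_inv x := by
    refine Prod.ext ?_ ?_
    · show (u : ZMod p) * ((u⁻¹ : (ZMod p)ˣ) * x.1) = x.1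
      rw [← mul_assoc, Units.mul_inv, one_mul]
    · show ((u⁻¹ : (ZMod p)ˣ) : ZMod p) * (u * x.2) = x.2
      rw [← mul_assoc, Units.inv_mul, one_mul]
  right_inv x := by
    refine Prod.ext ?_ ?_
    · show ((u⁻¹ : (ZMod p)ˣ) : ZMod p) * (u * x.1) = x.1
      rw [← mul_assoc, Units.inv_mul, one_mul]
    · show (u : ZMod p) * ((u⁻¹ : (ZMod p)ˣ) * x.2) = x.2
      rw [← mul_assoc, Units.mul_inv, one_mul]

theorem tE_apply (t : ZMod p) (x : ZMod p × ZMod p) : tE t x = (x.1, x.2 + t * x.1) := rfl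
theorem tF_apply (t : ZMod p) (x : ZMod p × ZMod p) : tF t x = (x.1 + t * x.2, x.2) := rfl
theorem tD_apply (u : (ZMod p)ˣ) (x : ZMod p × ZMod p) : tD u x = ((u⁻¹ : (ZMod p)ˣ) * x.1, u * x.2) := rfl

theorem tE_pow (t : ZMod p) (k : ℕ) : tE t ^ k = tE ((k : ZMod p) * t) := by
  induction k with
  | zero =>
    ext x <;> simp [tE_apply]
  | succ k ih =>
    rw [pow_succ, ih]
    ext x
    · simp [tE_apply]
    · simp only [Perm.mul_apply, tE_apply]; push_cast; ring

theorem tF_pow (t : ZMod p) (k : ℕ) : tF t ^ k = tF ((k : ZMod p) * t) := by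
  induction k with
  | zero =>
    ext x <;> simp [tF_apply]
  | succ k ih =>
    rw [pow_succ, ih]
    ext x
    · simp only [Perm.mul_apply, tF_apply]; push_cast; ring
    · simp [tF_apply]

theorem tE_pow_p (t : ZMod p) : tE t ^ p = 1 := by
  rw [tE_pow]
  ext x <;> simp [tE_apply]

theorem tF_pow_p (t : ZMod p) : tF t ^ p = 1 := by
  rw [tF_pow]
  ext x <;> simp [tF_apply]

theorem tD_eq (u : (ZMod p)ˣ) : tD u = tF ((u⁻¹ : (ZMod p)ˣ) : ZMod p) * tE (-(u : ZMod p)) *
    tF ((u⁻¹ : (ZMod p)ˣ) : ZMod p) * tF (-1) * tE 1 * tF (-1) := by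
  have hu : (u : ZMod p) * ((u⁻¹ : (ZMod p)ˣ) : ZMod p) = 1 := Units.mul_inv u
  ext x
  · simp only [Perm.mul_apply, tF_apply, tE_apply, tD_apply]
    linear_combination (((u⁻¹ : (ZMod p)ˣ) : ZMod p) * x.1 - x.2) * hu
  · simp only [Perm.mul_apply, tF_apply, tE_apply, tD_apply]
    linear_combination (x.1) * hu

/-! ### the action on pieces -/

variable {A' R' : Type*} [Fintype A'] [DecidableEq A'] [Fintype R'] [DecidableEq R']

/-- points -/
abbrev Pt (p : ℕ) (A' R' R : Type*) := (((A' × ZMod p) ⊕ R') × ZMod p) ⊕ R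

/-- action on the pieces in `O` -/
def liftFun (O : Finset A') (M : ZMod p × ZMod p → ZMod p × ZMod p) : Pt p A' R' R → Pt p A' R' R
  | Sum.inl (Sum.inl (a, w), v) =>
      if a ∈ O then Sum.inl (Sum.inl (a, (M (w, v)).1), (M (w, v)).2) else Sum.inl (Sum.inl (a, w), v)
  | Sum.inl (Sum.inr r, v) => Sum.inl (Sum.inr r, v)
  | Sum.inr x => Sum.inr x

theorem liftFun_comp (O : Finset A') (M N : ZMod p × ZMod p → ZMod p × ZMod p) (x : Pt p A' R' R) :
    liftFun O M (liftFun O N x) = liftFun O (fun y => M (N y)) x := by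
  rcases x with ⟨⟨a, w⟩ | r, v⟩ | x
  · by_cases ha : a ∈ O
    · simp [liftFun, ha]
    · simp [liftFun, ha]
  · rfl
  · rfl

theorem liftFun_id (O : Finset A') (x : Pt p A' R' R) : liftFun O (fun y => y) x = x := by
  rcases x with ⟨⟨a, w⟩ | r, v⟩ | x
  · by_cases ha : a ∈ O
    · simp [liftFun, ha]
    · simp [liftFun, ha]
  · rfl
  · rfl

/-- action on the pieces in `O` -/
def lft (O : Finset A') : Perm (ZMod p × ZMod p) →* Perm (Pt p A' R' R) where
  toFun M :=
    { toFun := liftFun O M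
      invFun := liftFun O M.symm
      left_inv := fun x => by
        rw [liftFun_comp]; simp only [Equiv.symm_apply_apply]; exact liftFun_id O x
      right_inv := fun x => by
        rw [liftFun_comp]; simp only [Equiv.apply_symm_apply]; exact liftFun_id O x }
  map_one' := Equiv.ext fun x => liftFun_id O x
  map_mul' M N := Equiv.ext fun x => (liftFun_comp O M N x).symm

theorem lft_mem {O : Finset A'} {a : A'} (ha : a ∈ O) (M : Perm (ZMod p × ZMod p)) (w v : ZMod p) :
    (lft O M : Perm (Pt p A' R' R)) (Sum.inl (Sum.inl (a, w), v)) =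
      Sum.inl (Sum.inl (a, (M (w, v)).1), (M (w, v)).2) := by
  show (liftFun O M (Sum.inl (Sum.inl (a, w), v)) : Pt p A' R' R) = _
  simp [liftFun, ha]

theorem lft_notMem {O : Finset A'} {a : A'} (ha : a ∉ O) (M : Perm (ZMod p × ZMod p)) (w v : ZMod p) :
    (lft O M : Perm (Pt p A' R' R)) (Sum.inl (Sum.inl (a, w), v)) = Sum.inl (Sum.inl (a, w), v) := by
  show (liftFun O M (Sum.inl (Sum.inl (a, w), v)) : Pt p A' R' R) = _
  simp [liftFun, ha]

theorem lft_inr {O : Finset A'} (M : Perm (ZMod p × ZMod p)) (r : R') (v : ZMod p) :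
    (lft O M : Perm (Pt p A' R' R)) (Sum.inl (Sum.inr r, v)) = Sum.inl (Sum.inr r, v) := rfl

theorem lft_inr' {O : Finset A'} (M : Perm (ZMod p × ZMod p)) (x : R) :
    (lft O M : Perm (Pt p A' R' R)) (Sum.inr x) = Sum.inr x := rfl

/-- translations -/
def R2 (O : Finset A') : Subgroup (Perm (Pt p A' R' R)) where
  carrier := {g | ∃ (t : A' → ZMod p) (f : (A' × ZMod p) ⊕ R' → ZMod p), (∀ a ∉ O, t a = 0) ∧
    (∀ a ∈ O, ∀ w, f (Sum.inl (a, w)) = f (Sum.inl (a, 0))) ∧ g = wa (wa 1 1 t) 1 f}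
  mul_mem' := by
    rintro _ _ ⟨t, f, ht, hf, rfl⟩ ⟨t', f', ht', hf', rfl⟩
    refine ⟨t + t', fun b => f' b + f ((wa 1 1 t' : Perm ((A' × ZMod p) ⊕ R')) b), ?_, ?_, ?_⟩
    · intro a ha
      rw [Pi.add_apply, ht a ha, ht' a ha, add_zero]
    · intro a ha w
      show f' (Sum.inl (a, w)) + f (Sum.inl (a, _)) = f' (Sum.inl (a, 0)) + f (Sum.inl (a, _))
      rw [hf' a ha w, hf a ha _, hf a ha (_ + _)]
    · rw [wa_mul, wa_base_mul]
      congr 1
      · funext b
        exact mul_one _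
      · funext b
        show ((1 : (ZMod p)ˣ) : ZMod p) * f' b + _ = _
        rw [Units.val_one, one_mul]
  one_mem' := ⟨0, 0, fun _ _ => rfl, fun _ _ _ => rfl, by rw [wa_one, wa_one]⟩
  inv_mem' := by
    rintro _ ⟨t, f, ht, hf, rfl⟩
    refine ⟨-t, fun b => - f ((wa 1 1 (-t) : Perm ((A' × ZMod p) ⊕ R')) b), ?_, ?_, ?_⟩
    · intro a ha
      rw [Pi.neg_apply, ht a ha, neg_zero]
    · intro a ha w
      show - f (Sum.inl (a, _)) = - f (Sum.inl (a, _))
      rw [hf a ha _, hf a ha (_ + _)]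
    · rw [wa_inv, wa_base_inv]
      congr 1
      funext b
      show -(((1 : (ZMod p)ˣ)⁻¹ : (ZMod p)ˣ) : ZMod p) * f _ = _
      rw [inv_one, Units.val_one, neg_one_mul]

theorem mem_R2 {O : Finset A'} {g : Perm (Pt p A' R' R)} : g ∈ R2 O ↔
    ∃ (t : A' → ZMod p) (f : (A' × ZMod p) ⊕ R' → ZMod p), (∀ a ∉ O, t a = 0) ∧
    (∀ a ∈ O, ∀ w, f (Sum.inl (a, w)) = f (Sum.inl (a, 0))) ∧ g = wa (wa 1 1 t) 1 f := Iff.rfl

theorem wa2_apply (t : A' → ZMod p) (f : (A' × ZMod p) ⊕ R' → ZMod p) (a : A') (w v : ZMod p) :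
    (wa (wa 1 1 t) 1 f : Perm (Pt p A' R' R)) (Sum.inl (Sum.inl (a, w), v)) =
      Sum.inl (Sum.inl (a, w + t a), v + f (Sum.inl (a, w))) := by
  rw [wa_inl, wa_inl]; simp

theorem lft_mem_normalizer (O : Finset A') {M : Perm (ZMod p × ZMod p)} (hM : ∀ x y, M (x + y) = M x + M y) :
    (lft O M : Perm (Pt p A' R' R)) ∈ Subgroup.normalizer ((R2 O : Subgroup (Perm (Pt p A' R' R))) : Set (Perm (Pt p A' R' R))) := by
  apply mem_normalizer_of_conj
  rintro _ ⟨t, f, ht, hf, rfl⟩
  refine ⟨fun a => if a ∈ O then (M (t a, f (Sum.inl (a, 0)))).1 else 0,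
    fun b => match b with
      | Sum.inl (a, w) => if a ∈ O then (M (t a, f (Sum.inl (a, 0)))).2 else f (Sum.inl (a, w))
      | Sum.inr r => f (Sum.inr r), ?_, ?_, ?_⟩
  · intro a ha
    simp [ha]
  · intro a ha w
    simp [ha]
  · rw [mul_inv_eq_iff_eq_mul]
    apply ext_inl
    · intro b v
      rcases b with ⟨a, w⟩ | r
      · by_cases ha : a ∈ O
        · rw [Perm.mul_apply, Perm.mul_apply, lft_mem ha, wa2_apply, wa2_apply, lft_mem ha]
          simp only [ha, if_true]
          have h1 : M (w + t a, v + f (Sum.inl (a, w))) = M (w, v) + M (t a, f (Sum.inl (a, 0))) := by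
            rw [← hM, Prod.mk_add_mk, hf a ha w]
          rw [h1]
          rfl
        · rw [Perm.mul_apply, Perm.mul_apply, lft_notMem ha, wa2_apply, wa2_apply, lft_notMem ha]
          simp [ha, ht a ha]
      · rfl
    · intro x; rfl

theorem R2_le_W {P' : Subgroup (Perm A')} (O : Finset A') :
    (R2 O : Subgroup (Perm (Pt p A' R' R))) ≤ W R (W R' P') := by
  rintro _ ⟨t, f, -, -, rfl⟩
  exact ⟨_, ⟨1, P'.one_mem, t, rfl⟩, f, rfl⟩

/-- the translation group is self-centralizing -/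
theorem R2_centric (hss : Subsingleton R) (O : Finset A') {c : Perm (Pt p A' R' R)}
    (hc : ∀ x ∈ (R2 O : Subgroup (Perm (Pt p A' R' R))), x * c = c * x) : c ∈ R2 O := by
  have : Fact (1 < p) := ⟨(Fact.out : p.Prime).one_lt⟩
  have h0 : ∀ (t : A' → ZMod p) (f : (A' × ZMod p) ⊕ R' → ZMod p), (∀ a ∉ O, t a = 0) →
      (∀ a ∈ O, ∀ w, f (Sum.inl (a, w)) = f (Sum.inl (a, 0))) → ∀ x : Pt p A' R' R,
      wa (wa 1 1 t) 1 f (c x) = c (wa (wa 1 1 t) 1 f x) := by
    intro t f ht hf x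
    have := hc (wa (wa 1 1 t) 1 f) ⟨t, f, ht, hf, rfl⟩
    rw [← Perm.mul_apply, this, Perm.mul_apply]
  have hinr : ∀ x : R, c (Sum.inr x) = Sum.inr x := by
    intro x
    rcases hcx : c (Sum.inr x) with ⟨b, v⟩ | y
    · exfalso
      have h1 := h0 0 1 (fun _ _ => rfl) (fun _ _ _ => rfl) (Sum.inr x)
      rw [hcx, wa_inr, hcx, wa_inl] at h1
      simp at h1
    · rw [Subsingleton.elim y x]
  -- base points of pieces
  have hO : ∀ a ∈ O, ∃ t u : ZMod p, c (Sum.inl (Sum.inl (a, 0), 0)) = Sum.inl (Sum.inl (a, t), u) := by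
    intro a ha
    have h1 := h0 0 (fun b => match b with
      | Sum.inl (a', _) => if a' = a then 1 else 0
      | Sum.inr _ => 0) (fun _ _ => rfl) (fun _ _ _ => rfl) (Sum.inl (Sum.inl (a, 0), 0))
    rcases hcx : c (Sum.inl (Sum.inl (a, 0), 0)) with ⟨⟨a', w⟩ | r, v⟩ | y
    · by_cases haa : a' = a
      · subst haa; exact ⟨w, v, rfl⟩
      · exfalso
        have h2 : (wa (wa 1 1 0) 1 (fun b => match b with
          | Sum.inl (a', _) => if a' = a then 1 else 0
          | Sum.inr _ => 0) : Perm (Pt p A' R' R)) (c (Sum.inl (Sum.inl (a, 0), 0))) =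
            c (Sum.inl (Sum.inl (a, 0), 0)) := by
          rw [hcx, wa_inl, wa_inl]
          simp [haa]
        rw [h2] at h1
        have h3 := c.injective h1
        rw [wa_inl, wa_inl] at h3
        simp at h3
    · exfalso
      have h2 : (wa (wa 1 1 0) 1 (fun b => match b with
          | Sum.inl (a', _) => if a' = a then 1 else 0
          | Sum.inr _ => 0) : Perm (Pt p A' R' R)) (c (Sum.inl (Sum.inl (a, 0), 0))) =
            c (Sum.inl (Sum.inl (a, 0), 0)) := by
        rw [hcx, wa_inl]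
        simp
      rw [h2] at h1
      have h3 := c.injective h1
      rw [wa_inl, wa_inl] at h3
      simp at h3
    · exfalso
      have h1 := hinr y
      exact Sum.inl_ne_inr (c.injective (hcx.trans h1.symm))
  -- other blocks
  have hN : ∀ b : (A' × ZMod p) ⊕ R', (∀ a w, b = Sum.inl (a, w) → a ∉ O) →
      ∃ u : ZMod p, c (Sum.inl (b, 0)) = Sum.inl (b, u) := by
    intro b hb
    have hfb : ∀ a ∈ O, ∀ w, (Pi.single b 1 : (A' × ZMod p) ⊕ R' → ZMod p) (Sum.inl (a, w)) =
        (Pi.single b 1 : (A' × ZMod p) ⊕ R' → ZMod p) (Sum.inl (a, 0)) := by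
      intro a ha w
      rw [Pi.single_eq_of_ne, Pi.single_eq_of_ne]
      · intro h; exact hb _ _ h.symm ha
      · intro h; exact hb _ _ h.symm ha
    have h1 := h0 0 (Pi.single b 1) (fun _ _ => rfl) hfb (Sum.inl (b, 0))
    rcases hcx : c (Sum.inl (b, 0)) with ⟨b', v⟩ | y
    · by_cases hbb : b' = b
      · subst hbb; exact ⟨v, rfl⟩
      · exfalso
        have h2 : (wa (wa 1 1 0) 1 (Pi.single b 1) : Perm (Pt p A' R' R)) (c (Sum.inl (b, 0))) =
            c (Sum.inl (b, 0)) := by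
          rw [hcx, wa_inl, wa_one, Pi.single_eq_of_ne hbb]
          simp
        rw [h2] at h1
        have h3 := c.injective h1
        rw [wa_inl, wa_one, Pi.single_eq_same] at h3
        simp at h3
    · exfalso
      have h1 := hinr y
      exact Sum.inl_ne_inr (c.injective (hcx.trans h1.symm))
  choose! t u hu using hO
  choose! s hs using hN
  refine ⟨fun a => if a ∈ O then t a else 0, fun b => match b with
      | Sum.inl (a, w) => if a ∈ O then u a else s (Sum.inl (a, w))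
      | Sum.inr r => s (Sum.inr r), ?_, ?_, ext_inl ?_ ?_⟩
  · intro a ha; simp [ha]
  · intro a ha w; simp [ha]
  · intro b v
    rcases b with ⟨a, w⟩ | r
    · by_cases ha : a ∈ O
      · have h1 := h0 (Pi.single a w) (fun b => match b with
          | Sum.inl (a', _) => if a' = a then v else 0
          | Sum.inr _ => 0) (fun a' ha' => by rw [Pi.single_eq_of_ne]; rintro rfl; exact ha' ha)
            (fun _ _ _ => rfl) (Sum.inl (Sum.inl (a, 0), 0))
        rw [hu a ha, wa_inl, wa_inl, wa_inl, wa_inl] at h1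
        simp only [Perm.coe_one, id_eq, Pi.one_apply, Units.val_one, one_mul, Pi.single_eq_same, zero_add,
          if_true] at h1
        rw [← h1, wa_inl, wa_inl]
        simp only [Perm.coe_one, id_eq, Pi.one_apply, Units.val_one, one_mul, ha, if_true]
        rw [add_comm w, add_comm v]
      · have h1 := h0 0 (Pi.single (Sum.inl (a, w)) v) (fun _ _ => rfl) (fun a' ha' w' => by
          rw [Pi.single_eq_of_ne, Pi.single_eq_of_ne]
          · intro h
            rw [Sum.inl.injEq, Prod.mk.injEq] at h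
            exact ha (h.1 ▸ ha')
          · intro h
            rw [Sum.inl.injEq, Prod.mk.injEq] at h
            exact ha (h.1 ▸ ha')) (Sum.inl (Sum.inl (a, w), 0))
        rw [hs (Sum.inl (a, w)) (fun a' w' h => by
          rw [Sum.inl.injEq, Prod.mk.injEq] at h
          exact h.1 ▸ ha), wa_one, wa_inl, wa_inl, Pi.single_eq_same] at h1
        simp only [Perm.coe_one, id_eq, Pi.one_apply, Units.val_one, one_mul, zero_add] at h1
        rw [← h1, wa_inl, wa_inl]
        simp only [Perm.coe_one, id_eq, Pi.one_apply, Units.val_one, one_mul, ha, if_false, add_zero]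
        rw [add_comm v]
    · have h1 := h0 0 (Pi.single (Sum.inr r) v) (fun _ _ => rfl) (fun a' ha' w' => by
        rw [Pi.single_eq_of_ne, Pi.single_eq_of_ne]
        · intro h; exact Sum.inl_ne_inr h
        · intro h; exact Sum.inl_ne_inr h) (Sum.inl (Sum.inr r, 0))
      rw [hs (Sum.inr r) (fun a' w' h => absurd h.symm Sum.inl_ne_inr), wa_one, wa_inl, wa_inl,
        Pi.single_eq_same] at h1
      simp only [Perm.coe_one, id_eq, Pi.one_apply, Units.val_one, one_mul, zero_add] at h1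
      rw [← h1, wa_inl]
      simp only [Pi.one_apply, Units.val_one, one_mul, wa_inr]
      rw [add_comm v]
  · intro x; rw [hinr]; rfl

end Cfsg.Agent.Fus.WrP
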