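import Cfsg.Agent.Fus.AltFus5

/-!
# The `p`-fusion system of alternating groups: simplicity
-/

set_option autoImplicit false
set_option linter.unusedSectionVars false

namespace Cfsg.Agent.Fus.WrP

open Equiv Equiv.Perm Cfsg.Agent.Fus

variable {p : ℕ} {A R : Type*} [Fintype A] [DecidableEq A] [Fintype R] [DecidableEq R] [Fact p.Prime]
variable {A' R' : Type*} [Fintype A'] [DecidableEq A'] [Fintype R'] [DecidableEq R']

theorem tE_add (t : ZMod p) (x y : ZMod p × ZMod p) : tE t (x + y) = tE t x + tE t y := by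
  refine Prod.ext ?_ ?_
  · rfl
  · show x.2 + y.2 + t * (x.1 + y.1) = (x.2 + t * x.1) + (y.2 + t * y.1)
    ring

theorem tF_add (t : ZMod p) (x y : ZMod p × ZMod p) : tF t (x + y) = tF t x + tF t y := by
  refine Prod.ext ?_ ?_
  · show x.1 + y.1 + t * (x.2 + y.2) = (x.1 + t * x.2) + (y.1 + t * y.2)
    ring
  · rfl

/-- the diagonal element is of affine form -/
theorem lft_tD (O : Finset A') (u : (ZMod p)ˣ) :
    (lft O (tD u) : Perm (Pt p A' R' R)) = wa (wa 1 (fun a => if a ∈ O then u⁻¹ else 1) 0)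
      (fun b => match b with
        | Sum.inl (a, _) => if a ∈ O then u else 1
        | Sum.inr _ => 1) 0 := by
  apply ext_inl
  · intro b v
    rcases b with ⟨a, w⟩ | r
    · by_cases ha : a ∈ O
      · rw [lft_mem ha, wa_inl, wa_inl]
        simp only [ha, if_true, tD_apply, Pi.zero_apply, add_zero]
        rfl
      · rw [lft_notMem ha, wa_inl, wa_inl]
        simp [ha]
    · rw [lft_inr, wa_inl]
      simp
  · intro x; rfl

theorem lft_tD_mem_normalizer {P' : Subgroup (Perm A')} (O : Finset A') (hO : ∀ s ∈ P', ∀ a, s a ∈ O ↔ a ∈ O)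
    (u : (ZMod p)ˣ) : (lft O (tD u) : Perm (Pt p A' R' R)) ∈
      Subgroup.normalizer ((W R (W (p := p) R' P') : Subgroup (Perm (Pt p A' R' R))) : Set (Perm (Pt p A' R' R))) := by
  rw [lft_tD]
  apply mem_normalizer_W
  · apply mem_normalizer_W
    · exact Subgroup.one_mem _
    · intro s hs a
      simp only [hO s hs a]
  · rintro _ ⟨s, hs, f, rfl⟩ b
    rcases b with ⟨a, w⟩ | r
    · rw [wa_inl]
      simp only [hO s hs a]
    · rfl

theorem lft_mem_closure (hp2 : p ≠ 2) (O : Finset A') {M : Perm (ZMod p × ZMod p)} (hM : ∀ x y, M (x + y) = M x + M y)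
    (hMp : M ^ p = 1) : (lft O M : Perm (Pt p A' R' R)) ∈ Subgroup.closure {g : Perm (Pt p A' R' R) |
      g ∈ alternatingGroup (Pt p A' R' R) ∧
      g ∈ Subgroup.normalizer ((R2 O : Subgroup (Perm (Pt p A' R' R))) : Set (Perm (Pt p A' R' R))) ∧
      ∃ k : ℕ, g ^ p ^ k = 1} := by
  have h1 : (lft O M : Perm (Pt p A' R' R)) ^ p ^ 1 = 1 := by
    rw [pow_one, ← map_pow, hMp, map_one]
  exact Subgroup.subset_closure ⟨sign_eq_one_of_pow hp2 h1, lft_mem_normalizer O hM, 1, h1⟩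

theorem lft_tD_mem_closure (hp2 : p ≠ 2) (O : Finset A') (u : (ZMod p)ˣ) :
    (lft O (tD u) : Perm (Pt p A' R' R)) ∈ Subgroup.closure {g : Perm (Pt p A' R' R) |
      g ∈ alternatingGroup (Pt p A' R' R) ∧
      g ∈ Subgroup.normalizer ((R2 O : Subgroup (Perm (Pt p A' R' R))) : Set (Perm (Pt p A' R' R))) ∧
      ∃ k : ℕ, g ^ p ^ k = 1} := by
  rw [tD_eq, map_mul, map_mul, map_mul, map_mul, map_mul]
  have hE : ∀ t : ZMod p, _ := fun t => lft_mem_closure (R' := R') (R := R) hp2 O (tE_add t) (tE_pow_p t)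
  have hF : ∀ t : ZMod p, _ := fun t => lft_mem_closure (R' := R') (R := R) hp2 O (tF_add t) (tF_pow_p t)
  exact Subgroup.mul_mem _ (Subgroup.mul_mem _ (Subgroup.mul_mem _ (Subgroup.mul_mem _ (Subgroup.mul_mem _
    (hF _) (hE _)) (hF _)) (hF _)) (hE _)) (hF _)

/-- an invariant set of prime power size -/
theorem exists_orbit {P' : Subgroup (Perm A')} (hP' : IsPGroup p P') [Nonempty A'] :
    ∃ (O : Finset A') (k : ℕ), (∀ s ∈ P', ∀ a, s a ∈ O ↔ a ∈ O) ∧ O.card = p ^ k := by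
  classical
  obtain ⟨a₀⟩ := ‹Nonempty A'›
  obtain ⟨k, hk⟩ := hP'.card_orbit a₀
  refine ⟨Finset.univ.filter (fun a => a ∈ MulAction.orbit P' a₀), k, ?_, ?_⟩
  · intro s hs a
    simp only [Finset.mem_filter, Finset.mem_univ, true_and]
    constructor
    · intro h
      have h1 := MulAction.mem_orbit_of_mem_orbit (⟨s, hs⟩⁻¹ : P') h
      have h2 : (⟨s, hs⟩⁻¹ : P') • (s a) = a := s.symm_apply_apply a
      rwa [h2] at h1
    · intro h
      exact MulAction.mem_orbit_of_mem_orbit (⟨s, hs⟩ : P') h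
  · rw [← hk, Nat.card_eq_fintype_card, Fintype.card_subtype]

theorem prod_lam (O : Finset A') {k : ℕ} (hk : O.card = p ^ k) (u : (ZMod p)ˣ) :
    ∏ b : (A' × ZMod p) ⊕ R', (match b with
        | Sum.inl (a, _) => if a ∈ O then u else 1
        | Sum.inr _ => 1 : (ZMod p)ˣ) = u := by
  rw [Fintype.prod_sum_type, Fintype.prod_prod_type]
  simp only [Finset.prod_const, Finset.card_univ, ZMod.card, one_pow, mul_one]
  have h1 : ∀ a : A', (if a ∈ O then u else 1) ^ p = if a ∈ O then u else 1 := by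
    intro a
    by_cases ha : a ∈ O
    · simp only [ha, if_true]
      ext
      rw [Units.val_pow_eq_pow_val, ZMod.pow_card]
    · simp only [ha, if_false, one_pow]
  rw [Finset.prod_congr rfl fun a _ => h1 a, Finset.prod_ite, Finset.prod_const_one, mul_one, Finset.prod_const,
    Finset.filter_mem_eq_inter, Finset.univ_inter, hk]
  ext
  rw [Units.val_pow_eq_pow_val, ZMod.pow_card_pow]

/-- **Alperin's condition for the alternating group, `p` odd** -/
theorem hb_odd (hp2 : p ≠ 2) [Nonempty A'] (hss : Subsingleton R) {P' : Subgroup (Perm A')} (hP' : IsPGroup p P')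
    {U : Subgroup (Perm (Pt p A' R' R))} (hU : U = W R (W (p := p) R' P'))
    {g : Perm (Pt p A' R' R)} (hg : g ∈ alternatingGroup (Pt p A' R' R))
    (hgU : g ∈ Subgroup.normalizer (U : Set (Perm (Pt p A' R' R)))) :
    g ∈ Subgroup.closure {g : Perm (Pt p A' R' R) | g ∈ alternatingGroup (Pt p A' R' R) ∧
      g ∈ Subgroup.normalizer (U : Set (Perm (Pt p A' R' R))) ∧
      ∃ R₀ : Subgroup (Perm (Pt p A' R' R)), R₀ ≤ U ∧
        (∀ c ∈ alternatingGroup (Pt p A' R' R), (∀ x ∈ R₀, x * c = c * x) → c ∈ R₀) ∧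
        g ∈ Subgroup.closure {g : Perm (Pt p A' R' R) | g ∈ alternatingGroup (Pt p A' R' R) ∧
          g ∈ Subgroup.normalizer (R₀ : Set (Perm (Pt p A' R' R))) ∧ ∃ k : ℕ, g ^ p ^ k = 1}} := by
  obtain ⟨O, k, hO, hk⟩ := exists_orbit hP'
  have hAcard : p ≤ Fintype.card ((A' × ZMod p) ⊕ R') := by
    rw [card_base]
    have h1 : 1 ≤ Fintype.card A' := Fintype.card_pos
    nlinarith
  obtain ⟨π, l, f, hπ⟩ := exists_wa_of_normalizer hss (by rw [← hU]; exact hgU)
  -- the element `h` from the second subgroup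
  set u : (ZMod p)ˣ := ∏ b, l b with hu
  have hh1 := lft_tD_mem_closure (R' := R') (R := R) hp2 O u
  have hh2 := lft_tD_mem_normalizer (R' := R') (R := R) O hO u
  rw [← hU] at hh2
  have hhA : (lft O (tD u) : Perm (Pt p A' R' R)) ∈ alternatingGroup (Pt p A' R' R) := by
    refine (Subgroup.closure_le _).mpr ?_ hh1
    exact fun x hx => hx.1
  set h : Perm (Pt p A' R' R) := lft O (tD u) with hh
  have hmem1 : h ∈ Subgroup.closure {g : Perm (Pt p A' R' R) | g ∈ alternatingGroup (Pt p A' R' R) ∧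
      g ∈ Subgroup.normalizer (U : Set (Perm (Pt p A' R' R))) ∧
      ∃ R₀ : Subgroup (Perm (Pt p A' R' R)), R₀ ≤ U ∧
        (∀ c ∈ alternatingGroup (Pt p A' R' R), (∀ x ∈ R₀, x * c = c * x) → c ∈ R₀) ∧
        g ∈ Subgroup.closure {g : Perm (Pt p A' R' R) | g ∈ alternatingGroup (Pt p A' R' R) ∧
          g ∈ Subgroup.normalizer (R₀ : Set (Perm (Pt p A' R' R))) ∧ ∃ k : ℕ, g ^ p ^ k = 1}} := by
    refine Subgroup.subset_closure ⟨hhA, hh2, R2 O, ?_, ?_, hh1⟩
    · rw [hU]; exact R2_le_W O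
    · exact fun c _ hc => R2_centric hss O hc
  have hmem2 : h⁻¹ * g ∈ Subgroup.closure {g : Perm (Pt p A' R' R) | g ∈ alternatingGroup (Pt p A' R' R) ∧
      g ∈ Subgroup.normalizer (U : Set (Perm (Pt p A' R' R))) ∧
      ∃ R₀ : Subgroup (Perm (Pt p A' R' R)), R₀ ≤ U ∧
        (∀ c ∈ alternatingGroup (Pt p A' R' R), (∀ x ∈ R₀, x * c = c * x) → c ∈ R₀) ∧
        g ∈ Subgroup.closure {g : Perm (Pt p A' R' R) | g ∈ alternatingGroup (Pt p A' R' R) ∧
          g ∈ Subgroup.normalizer (R₀ : Set (Perm (Pt p A' R' R))) ∧ ∃ k : ℕ, g ^ p ^ k = 1}} := by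
    have h1 : h⁻¹ * g ∈ alternatingGroup (Pt p A' R' R) := Subgroup.mul_mem _ (Subgroup.inv_mem _ hhA) hg
    refine Subgroup.subset_closure ⟨h1, Subgroup.mul_mem _ (Subgroup.inv_mem _ hh2) hgU,
      base p ((A' × ZMod p) ⊕ R') R, ?_, fun c _ hc => base_centric hss hc, ?_⟩
    · rw [hU]
      intro x hx
      obtain ⟨f, rfl⟩ := mem_base.mp hx
      exact ⟨1, Subgroup.one_mem _, f, rfl⟩
    · rw [hπ, hh, lft_tD, wa_inv, wa_mul] at h1 ⊢
      refine mem_PB_of_prod hp2 hAcard ?_ h1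
      rw [Finset.prod_mul_distrib, ← hu, Finset.prod_inv_distrib]
      have h2 := Equiv.prod_comp ((wa 1 (fun a => if a ∈ O then u⁻¹ else 1) 0 :
        Perm ((A' × ZMod p) ⊕ R'))⁻¹ * π) (fun b : (A' × ZMod p) ⊕ R' => (match b with
        | Sum.inl (a, _) => if a ∈ O then u else 1
        | Sum.inr _ => 1 : (ZMod p)ˣ))
      rw [prod_lam O hk u] at h2
      have h3 : (∏ x : (A' × ZMod p) ⊕ R', (match (wa 1 (fun a => if a ∈ O then u⁻¹ else 1) 0 :
          Perm ((A' × ZMod p) ⊕ R'))⁻¹ (π x) with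
        | Sum.inl (a, _) => if a ∈ O then u else 1
        | Sum.inr _ => 1 : (ZMod p)ˣ)) = u := h2
      rw [h3, inv_mul_cancel]
  have h3 : g = h * (h⁻¹ * g) := by group
  rw [h3]
  exact Subgroup.mul_mem _ hmem1 hmem2

/-- for `p = 2` -/
theorem hb_two {A : Type} [Fintype A] [DecidableEq A] {P : Subgroup (Perm A)}
    {U : Subgroup (Perm ((A × ZMod 2) ⊕ R))}
    (hU : U = W R P ⊓ alternatingGroup ((A × ZMod 2) ⊕ R)) (hUp : IsPGroup 2 U) (hP : SylIn 2 P ⊤)
    (hA : 3 ≤ Fintype.card A)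
    (hR : Fintype.card R < 2) {g : Perm ((A × ZMod 2) ⊕ R)} (hg : g ∈ alternatingGroup ((A × ZMod 2) ⊕ R))
    (hgU : g ∈ Subgroup.normalizer (U : Set (Perm ((A × ZMod 2) ⊕ R)))) :
    g ∈ Subgroup.closure {g : Perm ((A × ZMod 2) ⊕ R) | g ∈ alternatingGroup ((A × ZMod 2) ⊕ R) ∧
      g ∈ Subgroup.normalizer (U : Set (Perm ((A × ZMod 2) ⊕ R))) ∧
      ∃ R₀ : Subgroup (Perm ((A × ZMod 2) ⊕ R)), R₀ ≤ U ∧
        (∀ c ∈ alternatingGroup ((A × ZMod 2) ⊕ R), (∀ x ∈ R₀, x * c = c * x) → c ∈ R₀) ∧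
        g ∈ Subgroup.closure {g : Perm ((A × ZMod 2) ⊕ R) | g ∈ alternatingGroup ((A × ZMod 2) ⊕ R) ∧
          g ∈ Subgroup.normalizer (R₀ : Set (Perm ((A × ZMod 2) ⊕ R))) ∧ ∃ k : ℕ, g ^ 2 ^ k = 1}} := by
  have h1 := normalizer_U_two hU hP hA hR hg hgU
  refine Subgroup.subset_closure ⟨hg, hgU, U, le_rfl, ?_, ?_⟩
  · intro c hc hcom
    refine normalizer_U_two hU hP hA hR hc ?_
    apply mem_normalizer_of_conj
    intro x hx
    rw [← hcom x hx, mul_inv_cancel_right]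
    exact hx
  · obtain ⟨k, hk⟩ := hUp ⟨g, h1⟩
    exact Subgroup.subset_closure ⟨hg, hgU, k, congrArg Subtype.val hk⟩

end Cfsg.Agent.Fus.WrP
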