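import Cfsg.Agent.Fus.CPN1
import Cfsg.Agent.Fus.TInv
import Cfsg.Agent.Fus.ExtZ
import Cfsg.Agent.Fus.LocalSat2
import Cfsg.Prelude.Def_TwoFusion
set_option autoImplicit false

/-!
# Direct factors that are strongly closed (helper85)
-/

namespace Cfsg.Agent.Fus

open Cfsg Cfsg.FusionSystem Cfsg.Agent.H85

variable {Ω : Type*} [Group Ω] {S S₁ S₂ : Subgroup Ω} {F : FusionSystem S} {R R' : FusionSystem S₁} {p : ℕ}

open Classical in
/-- projection to the first factor -/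
noncomputable def prj (S₁ S₂ : Subgroup Ω) : Ω → Ω :=
  fun s => if h : ∃ a ∈ S₁, ∃ b ∈ S₂, a * b = s then h.choose else 1

theorem prj_mul (hi : S₁ ⊓ S₂ = ⊥) {a b : Ω} (ha : a ∈ S₁) (hb : b ∈ S₂) :
    prj S₁ S₂ (a * b) = a := by
  have h : ∃ a' ∈ S₁, ∃ b' ∈ S₂, a' * b' = a * b := ⟨a, ha, b, hb, rfl⟩
  have e : prj S₁ S₂ (a * b) = h.choose := dif_pos h
  rw [e]
  have h1 := h.choose_spec.1
  have h2 := h.choose_spec.2.choose_spec.1
  have h3 := h.choose_spec.2.choose_spec.2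
  generalize h.choose_spec.2.choose = b' at h2 h3
  generalize h.choose = a' at h1 h3
  have e1 : a⁻¹ * a' = b * b'⁻¹ := by
    rw [inv_mul_eq_iff_eq_mul, ← mul_assoc, ← h3, mul_inv_cancel_right]
  have h4 : a⁻¹ * a' ∈ S₁ ⊓ S₂ := ⟨S₁.mul_mem (S₁.inv_mem ha) h1, by
    rw [e1]; exact S₂.mul_mem hb (S₂.inv_mem h2)⟩
  rw [hi, Subgroup.mem_bot, inv_mul_eq_one] at h4
  exact h4.symm

/-- data -/
structure DPair (F : FusionSystem S) (S₁ S₂ : Subgroup Ω) (p : ℕ) : Prop where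
  hS : IsPGroup p S
  hF : F.IsSaturated p
  comm : Comm S₁ S₂
  inf : S₁ ⊓ S₂ = ⊥
  sup : S₁ ⊔ S₂ = S
  sc1 : F.StronglyClosed S₁
  sc2 : F.StronglyClosed S₂

namespace DPair

theorem symm (h : DPair F S₁ S₂ p) : DPair F S₂ S₁ p :=
  ⟨h.hS, h.hF, h.comm.symm, by rw [inf_comm]; exact h.inf, by rw [sup_comm]; exact h.sup, h.sc2, h.sc1⟩

theorem exists_dec (h : DPair F S₁ S₂ p) {s : Ω} (hs : s ∈ S) : ∃ a ∈ S₁, ∃ b ∈ S₂, a * b = s := by
  rw [← h.sup] at hs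
  exact h.comm.mem_sup.1 hs

/-- the projection as a homomorphism -/
noncomputable def θ (h : DPair F S₁ S₂ p) : S →* Ω where
  toFun s := prj S₁ S₂ s
  map_one' := by
    have := prj_mul h.inf S₁.one_mem S₂.one_mem
    rwa [mul_one] at this
  map_mul' s t := by
    obtain ⟨a, ha, b, hb, hab⟩ := h.exists_dec s.2
    obtain ⟨c, hc, d, hd, hcd⟩ := h.exists_dec t.2
    have e : ((s * t : S) : Ω) = (a * c) * (b * d) := by
      rw [Subgroup.coe_mul, ← hab, ← hcd]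
      have := h.comm c hc b hb
      calc a * b * (c * d) = a * (b * c) * d := by group
        _ = a * (c * b) * d := by rw [this]
        _ = _ := by group
    rw [e, ← hab, ← hcd, prj_mul h.inf (S₁.mul_mem ha hc) (S₂.mul_mem hb hd), prj_mul h.inf ha hb,
      prj_mul h.inf hc hd]

theorem ext_θ (h : DPair F S₁ S₂ p) {a b : Ω} (ha : a ∈ S₁) (hb : b ∈ S₂) : ext h.θ (a * b) = a := by
  rw [ext_apply _ (S.mul_mem (h.sc1.1 ha) (h.sc2.1 hb))]
  exact prj_mul h.inf ha hb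

theorem ext_θ1 (h : DPair F S₁ S₂ p) {a : Ω} (ha : a ∈ S₁) : ext h.θ a = a := by
  have := h.ext_θ ha S₂.one_mem
  rwa [mul_one] at this

theorem range_θ (h : DPair F S₁ S₂ p) : h.θ.range = S₁ := by
  ext y
  rw [mem_range_iff]
  constructor
  · rintro ⟨x, hx, rfl⟩
    obtain ⟨a, ha, b, hb, rfl⟩ := h.exists_dec hx
    rw [h.ext_θ ha hb]; exact ha
  · intro hy
    exact ⟨y, h.sc1.1 hy, h.ext_θ1 hy⟩

theorem ker_θ (h : DPair F S₁ S₂ p) : ∀ x ∈ S, ext h.θ x = 1 ↔ x ∈ S₂ := by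
  intro x hx
  obtain ⟨a, ha, b, hb, rfl⟩ := h.exists_dec hx
  rw [h.ext_θ ha hb]
  constructor
  · rintro rfl; rw [one_mul]; exact hb
  · intro hab
    have h1 : a ∈ S₁ ⊓ S₂ := ⟨ha, by
      have := S₂.mul_mem hab (S₂.inv_mem hb)
      rwa [mul_inv_cancel_right] at this⟩
    rwa [h.inf, Subgroup.mem_bot] at h1

theorem pre_θ (h : DPair F S₁ S₂ p) {P : Subgroup Ω} (hP : P ≤ S₁) : preimageAlong h.θ P = P ⊔ S₂ := by
  have hc : Comm P S₂ := fun a ha b hb => h.comm a (hP ha) b hb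
  ext x
  rw [mem_preimageAlong, hc.mem_sup]
  constructor
  · rintro ⟨hx, hxP⟩
    obtain ⟨a, ha, b, hb, rfl⟩ := h.exists_dec hx
    rw [h.ext_θ ha hb] at hxP
    exact ⟨a, hxP, b, hb, rfl⟩
  · rintro ⟨a, ha, b, hb, rfl⟩
    refine ⟨S.mul_mem (h.sc1.1 (hP ha)) (h.sc2.1 hb), ?_⟩
    rw [h.ext_θ (hP ha) hb]; exact ha

variable [Finite S] [Fact p.Prime]

/-- maps on subgroups of `S₁` extend over `S₂` -/
theorem extend (h : DPair F S₁ S₂ p) {P : Subgroup Ω} (hP : P ≤ S₁) {f : Ω → Ω} (hf : IsMap F P f) :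
    ∃ g, IsMap F (P ⊔ S₂) g ∧ ∀ x ∈ P, g x = f x := by
  obtain ⟨g, hg, hgf⟩ := exists_extend_stronglyClosed h.hS h.hF h.sc2 hf
  refine ⟨g, hg, fun x hx => ?_⟩
  have h1 : g x * (f x)⁻¹ ∈ S₁ ⊓ S₂ := ⟨S₁.mul_mem (sc_map_mem h.sc1 hg (le_sup_left (a := P) hx) (hP hx))
    (S₁.inv_mem (sc_map_mem h.sc1 hf hx (hP hx))), hgf x hx⟩
  rwa [h.inf, Subgroup.mem_bot, mul_inv_eq_one] at h1

theorem isFac_full (h : DPair F S₁ S₂ p) (hR : ∀ P : Subgroup Ω, P ≤ S₁ → R.Hom P = F.Hom P) :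
    IsFac F S₂ h.θ R where
  sc := h.sc2
  ker := h.ker_θ
  range := h.range_θ
  isMap_iff P f := by
    unfold FacMap
    rw [h.range_θ]
    constructor
    · intro hf
      have hP := hf.le
      have hfF := (hom_eq_iff.1 (hR P hP) f).1 hf
      refine ⟨hP, ?_⟩
      rw [h.pre_θ hP]
      obtain ⟨g, hg, hgf⟩ := h.extend hP hfF
      refine ⟨g, hg, fun x hx => ?_⟩
      have hc : Comm P S₂ := fun a ha b hb => h.comm a (hP ha) b hb
      obtain ⟨a, ha, b, hb, rfl⟩ := hc.mem_sup.1 hx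
      rw [h.ext_θ (hP ha) hb, hg.map_mul (le_sup_left (a := P) ha) (le_sup_right (a := P) hb), hgf a ha,
        h.ext_θ (hf.mem ha) (sc_map_mem h.sc2 hg (le_sup_right (a := P) hb) hb)]
    · rintro ⟨hP, g, hg, hi⟩
      rw [h.pre_θ hP] at hg hi
      refine (hom_eq_iff.1 (hR P hP) f).2 ((hg.mono le_sup_left).congr fun x hx => ?_)
      have h1 := hi x (le_sup_left (a := P) hx)
      rw [h.ext_θ1 (hP hx), h.ext_θ1 (sc_map_mem h.sc1 hg (le_sup_left (a := P) hx) (hP hx))] at h1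
      exact h1.symm

theorem sat_full (h : DPair F S₁ S₂ p) (hR : ∀ P : Subgroup Ω, P ≤ S₁ → R.Hom P = F.Hom P) : R.IsSaturated p :=
  (h.isFac_full hR).isSaturated h.hS h.hF

theorem le_cen (h : DPair F S₁ S₂ p) : S₁ ≤ centralizerIn S S₂ := fun x hx =>
  mem_centralizerIn.2 ⟨h.sc1.1 hx, fun y hy => (h.comm x hx y hy).symm⟩

theorem isMap_fix_iff (h : DPair F S₁ S₂ p) (hR' : ∀ P : Subgroup Ω, P ≤ S₁ → R'.Hom P = F.centralizerHom S₂ P)
    {P : Subgroup Ω} {f : Ω → Ω} : IsMap R' P f ↔ P ≤ S₁ ∧ ∃ g, IsMap F (P ⊔ S₂) g ∧ (∀ x ∈ P, g x = f x) ∧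
      ∀ x ∈ S₂, g x = x := by
  constructor
  · intro hf
    have hP := hf.le
    refine ⟨hP, ?_⟩
    have h1 := hf.hom_mem
    rw [hR' P hP] at h1
    obtain ⟨-, -, g, hg, hgf, κ, hκ, hgκ⟩ := mem_centralizerHom_iff.1 h1
    refine ⟨g, hg, fun x hx => ?_, fun x hx => ?_⟩
    · rw [hgf x hx, ofHom_apply _ hx]; rfl
    · rw [hgκ x hx, Subgroup.mem_bot.1 hκ, ofAut_one hx]
  · rintro ⟨hP, g, hg, hgf, hg2⟩
    have hgP := hg.mono (le_sup_left : P ≤ P ⊔ S₂)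
    have h1 : hgP.hom ∈ R'.Hom P := by
      rw [hR' P hP]
      refine mem_centralizerHom_iff.2 ⟨?_, fun x hx => ?_, g, hg, fun x hx => ?_, 1, Subgroup.one_mem _, fun c hc => ?_⟩
      · rw [kNorm_bot]; exact hP.trans h.le_cen
      · rw [kNorm_bot, ofHom_apply _ hx]
        exact h.le_cen (sc_map_mem h.sc1 hgP hx (hP hx))
      · rw [ofHom_apply _ hx]; rfl
      · rw [hg2 c hc, ofAut_one hc]
    refine (isMap_of_mem h1).congr fun x hx => ?_
    rw [ofHom_apply _ hx, ← hgf x hx]; rfl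

theorem sat_fix (h : DPair F S₁ S₂ p) (hR' : ∀ P : Subgroup Ω, P ≤ S₁ → R'.Hom P = F.centralizerHom S₂ P) :
    R'.IsSaturated p := by
  obtain ⟨C, hC⟩ := exists_isCentralizerSystem F h.sc2.1
  have hCS : centralizerIn S S₂ ≤ S := centralizerIn_le S₂
  have hfc : F.IsFullyCentralized S₂ := sat_fullyCentralized h.hS h.hF (isFullyNormalized_of_sc h.sc2)
  have hCs := centralizerSystem_saturated h.hS h.hF hfc hC
  have hfin := finite_of_le hCS
  have hmap := @isMap_centralizerSystem _ _ S F S₂ C hC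
  set Z := centralizerIn S S₂ ⊓ S₂ with hZ
  have hmemC : ∀ {x : Ω}, x ∈ centralizerIn S S₂ → ∃ a ∈ S₁, ∃ b ∈ Z, a * b = x := by
    intro x hx
    obtain ⟨a, ha, b, hb, rfl⟩ := h.exists_dec (hCS hx)
    refine ⟨a, ha, b, ⟨?_, hb⟩, rfl⟩
    have := Subgroup.mul_mem _ (Subgroup.inv_mem _ (h.le_cen ha)) hx
    rwa [inv_mul_cancel_left] at this
  have hsc : C.StronglyClosed Z := by
    refine stronglyClosed_iff.2 ⟨inf_le_left, fun P f hf hP x hx => ?_⟩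
    obtain ⟨-, h2, g, hg, hgf, hg2⟩ := hmap.1 hf
    refine ⟨h2 x hx, ?_⟩
    rw [← hgf x hx, hg2 x (hP hx).2]; exact (hP hx).2
  let θ' : ↥(centralizerIn S S₂) →* Ω := h.θ.comp (Subgroup.inclusion hCS)
  have hext : ∀ {a b : Ω}, a ∈ S₁ → b ∈ Z → ext θ' (a * b) = a := by
    intro a b ha hb
    have hab : a * b ∈ centralizerIn S S₂ := Subgroup.mul_mem _ (h.le_cen ha) hb.1
    have e : ext θ' (a * b) = ext h.θ (a * b) := by
      rw [ext_apply _ hab, ext_apply _ (hCS hab)]; rfl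
    rw [e, h.ext_θ ha hb.2]
  have hext1 : ∀ {a : Ω}, a ∈ S₁ → ext θ' a = a := by
    intro a ha
    have := hext ha Z.one_mem
    rwa [mul_one] at this
  have hrange : θ'.range = S₁ := by
    ext y
    rw [mem_range_iff]
    constructor
    · rintro ⟨x, hx, rfl⟩
      obtain ⟨a, ha, b, hb, rfl⟩ := hmemC hx
      rw [hext ha hb]; exact ha
    · intro hy
      exact ⟨y, h.le_cen hy, hext1 hy⟩
  have hpre : ∀ {P : Subgroup Ω}, P ≤ S₁ → ∀ {x : Ω}, x ∈ preimageAlong θ' P ↔ ∃ a ∈ P, ∃ b ∈ Z, a * b = x := by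
    intro P hP x
    rw [mem_preimageAlong]
    constructor
    · rintro ⟨hx, hxP⟩
      obtain ⟨a, ha, b, hb, rfl⟩ := hmemC hx
      rw [hext ha hb] at hxP
      exact ⟨a, hxP, b, hb, rfl⟩
    · rintro ⟨a, ha, b, hb, rfl⟩
      refine ⟨Subgroup.mul_mem _ (h.le_cen (hP ha)) hb.1, ?_⟩
      rw [hext (hP ha) hb]; exact ha
  have hfac : IsFac C Z θ' R' :=
    { sc := hsc
      ker := by
        intro x hx
        obtain ⟨a, ha, b, hb, rfl⟩ := hmemC hx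
        rw [hext ha hb]
        constructor
        · rintro rfl; rw [one_mul]; exact hb
        · intro hab
          have h1 : a ∈ S₁ ⊓ S₂ := ⟨ha, by
            have := S₂.mul_mem hab.2 (S₂.inv_mem hb.2)
            rwa [mul_inv_cancel_right] at this⟩
          rwa [h.inf, Subgroup.mem_bot] at h1
      range := hrange
      isMap_iff := by
        intro P f
        unfold FacMap
        rw [hrange]
        constructor
        · intro hf
          obtain ⟨hP, g, hg, hgf, hg2⟩ := (h.isMap_fix_iff hR').1 hf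
          have hle : preimageAlong θ' P ≤ P ⊔ S₂ := by
            intro x hx
            obtain ⟨a, ha, b, hb, rfl⟩ := (hpre hP).1 hx
            exact Subgroup.mul_mem _ (le_sup_left (a := P) ha) (le_sup_right (a := P) hb.2)
          have hval : ∀ a ∈ P, ∀ b ∈ Z, g (a * b) = f a * b := fun a ha b hb => by
            rw [hg.map_mul (le_sup_left (a := P) ha) (le_sup_right (a := P) hb.2), hgf a ha, hg2 b hb.2]
          refine ⟨hP, g, hmap.2 ⟨preimageAlong_le _ _, fun x hx => ?_, g, ?_, fun _ _ => rfl, hg2⟩, fun x hx => ?_⟩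
          · obtain ⟨a, ha, b, hb, rfl⟩ := (hpre hP).1 hx
            rw [hval a ha b hb]
            exact Subgroup.mul_mem _ (h.le_cen (hf.mem ha)) hb.1
          · exact hg.mono (sup_le hle le_sup_right)
          · obtain ⟨a, ha, b, hb, rfl⟩ := (hpre hP).1 hx
            rw [hext (hP ha) hb, hval a ha b hb, hext (hf.mem ha) hb]
        · rintro ⟨hP, f', hf', hi⟩
          obtain ⟨-, -, g, hg, hgf, hg2⟩ := hmap.1 hf'
          have hPpre : P ≤ preimageAlong θ' P := fun x hx => (hpre hP).2 ⟨x, hx, 1, Z.one_mem, mul_one x⟩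
          refine (h.isMap_fix_iff hR').2 ⟨hP, g, hg.mono (sup_le_sup_right hPpre _), fun x hx => ?_, hg2⟩
          have h1 := hi x (hPpre hx)
          rw [hext1 (hP hx), hext1 (by
            rw [← hgf x (hPpre hx)]
            exact sc_map_mem h.sc1 hg (Subgroup.mem_sup_left (hPpre hx)) (hP hx))] at h1
          rw [hgf x (hPpre hx), h1] }
  exact hfac.isSaturated (isPGroup_of_le h.hS hCS) hCs

/-- `R` is weakly normal -/
theorem full_weaklyNormal (h : DPair F S₁ S₂ p) (hR : ∀ P : Subgroup Ω, P ≤ S₁ → R.Hom P = F.Hom P) :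
    R.IsWeaklyNormalIn F p := by
  have hRF : ∀ {P f}, IsMap R P f → IsMap F P f := fun {P f} hf => (hom_eq_iff.1 (hR P hf.le) f).1 hf
  have hFR : ∀ {P f}, P ≤ S₁ → IsMap F P f → IsMap R P f := fun {P f} hP hf => (hom_eq_iff.1 (hR P hP) f).2 hf
  refine ⟨h.sat_full hR, h.hF, isInvariantIn_of_tInv (isSubsystemOf_iff.2 fun P f hf => hRF hf) h.sc1 ?_ ?_⟩
  · intro α hα P f hf
    have hαm := isMap_ofAut h.sc1.1 hα
    have hαi := isMap_ofAut h.sc1.1 (Subgroup.inv_mem _ hα)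
    have hle : img P (ofAut α) ≤ S₁ := (hαm.mono hf.le).img_le_iff.2 fun x hx => ofAut_mem α (hf.le hx)
    refine hFR hle ?_
    have h2 : ∀ x ∈ img P (ofAut α), ofAut α⁻¹ x ∈ P := by
      intro x hx
      obtain ⟨y, hy, rfl⟩ := (mem_img_ofAut α hf.le).mp hx
      rwa [ofAut_inv_apply α (hf.le hy)]
    exact hαm.comp ((hRF hf).comp (hαi.mono hle) h2) fun x hx => hf.mem (h2 x hx)
  · intro P f hP hf
    exact dec_of_isMap (hFR hP hf)

/-- automorphisms of `S₂` extend to `S` -/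
theorem ext_aut (h : DPair F S₁ S₂ p) {α : MulAut S₁} (hα : α ∈ F.autGroup S₁) :
    ∃ β ∈ F.autGroup S, (∀ x ∈ S₁, ofAut β x = ofAut α x) ∧ (∀ x ∈ S₂, ofAut β x ∈ S₂) := by
  obtain ⟨g, hg, hgα⟩ := h.extend le_rfl (isMap_ofAut h.sc1.1 hα)
  have hgS : IsMap F S g := hg.mono h.sup.ge
  obtain ⟨β, hβ, hβg⟩ := hgS.exists_aut (hgS.img_eq fun x hx => hgS.mem hx)
  exact ⟨β, hβ, fun x hx => by rw [hβg x (h.sc1.1 hx), hgα x hx], fun x hx => by
    rw [hβg x (h.sc2.1 hx)]; exact sc_map_mem h.sc2 hgS (h.sc2.1 hx) hx⟩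

/-- invariance of `R'` -/
theorem fix_tInv (h : DPair F S₁ S₂ p) (hR' : ∀ P : Subgroup Ω, P ≤ S₁ → R'.Hom P = F.centralizerHom S₂ P) :
    TInv F R' := by
  intro α hα P f hf
  obtain ⟨hP, g, hg, hgf, hg2⟩ := (h.isMap_fix_iff hR').1 hf
  obtain ⟨β, hβ, hβα, hβ2⟩ := h.ext_aut hα
  have hβm := isMap_ofAut le_rfl hβ
  have hβi := isMap_ofAut le_rfl (Subgroup.inv_mem _ hβ)
  have hαm := isMap_ofAut h.sc1.1 hα
  have hle : img P (ofAut α) ≤ S₁ := (hαm.mono hP).img_le_iff.2 fun x hx => ofAut_mem α (hP hx)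
  have hi1 : ∀ x ∈ img P (ofAut α), ofAut β⁻¹ x = ofAut α⁻¹ x ∧ ofAut α⁻¹ x ∈ P := by
    intro x hx
    obtain ⟨y, hy, rfl⟩ := (mem_img_ofAut α hP).mp hx
    rw [ofAut_inv_apply α (hP hy), ← hβα y (hP hy), ofAut_inv_apply β (h.sc1.1 (hP hy))]
    exact ⟨rfl, hy⟩
  have hi2 : ∀ x ∈ S₂, ofAut β⁻¹ x ∈ S₂ := fun x hx => sc_map_mem h.sc2 hβi (h.sc2.1 hx) hx
  have hS : img P (ofAut α) ⊔ S₂ ≤ S := sup_le (hle.trans h.sc1.1) h.sc2.1
  have h1 : ∀ x ∈ img P (ofAut α) ⊔ S₂, ofAut β⁻¹ x ∈ P ⊔ S₂ :=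
    (hβi.mono hS).forall_sup_mem (fun x hx => by rw [(hi1 x hx).1]; exact le_sup_left (a := P) (hi1 x hx).2)
      fun x hx => le_sup_right (a := P) (hi2 x hx)
  refine (h.isMap_fix_iff hR').2 ⟨hle, fun x => ofAut β (g (ofAut β⁻¹ x)),
    hβm.comp (hg.comp (hβi.mono hS) h1) fun x hx => hg.mem (h1 x hx), fun x hx => ?_, fun x hx => ?_⟩
  · show ofAut β (g (ofAut β⁻¹ x)) = ofAut α (f (ofAut α⁻¹ x))
    rw [(hi1 x hx).1, hgf _ (hi1 x hx).2, hβα _ (hf.mem (hi1 x hx).2)]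
  · show ofAut β (g (ofAut β⁻¹ x)) = x
    rw [hg2 _ (hi2 x hx), ofAut_apply_inv β (h.sc2.1 hx)]

/-- Frattini condition -/
theorem fix_dec (h : DPair F S₁ S₂ p) (hR' : ∀ P : Subgroup Ω, P ≤ S₁ → R'.Hom P = F.centralizerHom S₂ P)
    {P : Subgroup Ω} {f : Ω → Ω} (hP : P ≤ S₁) (hf : IsMap F P f) : Dec R' F P f := by
  have hf1 := finite_of_le h.sc1.1
  have hf2 := finite_of_le h.sc2.1
  obtain ⟨g, hg, hgf⟩ := h.extend hP hf
  have hg2 : IsMap F S₂ g := hg.mono le_sup_right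
  obtain ⟨β₀, hβ₀, hβ₀g⟩ := hg2.exists_aut (hg2.img_eq fun x hx => sc_map_mem h.sc2 hg2 hx hx)
  obtain ⟨β, hβ, hββ₀, hβ1⟩ := h.symm.ext_aut hβ₀
  have hβm := isMap_ofAut le_rfl hβ
  have hβi := isMap_ofAut le_rfl (Subgroup.inv_mem _ hβ)
  obtain ⟨α, hα, hαβ⟩ := (hβm.mono h.sc1.1).exists_aut ((hβm.mono h.sc1.1).img_eq fun x hx => hβ1 x hx)
  refine ⟨α, hα, fun x => ofAut β⁻¹ (f x), (h.isMap_fix_iff hR').2 ⟨hP, fun x => ofAut β⁻¹ (g x),
    hβi.comp hg fun x hx => hg.mem hx, fun x hx => ?_, fun x hx => ?_⟩, fun x hx => ?_⟩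
  · show ofAut β⁻¹ (g x) = ofAut β⁻¹ (f x)
    rw [hgf x hx]
  · show ofAut β⁻¹ (g x) = x
    rw [← hβ₀g x hx, ← hββ₀ x hx, ofAut_inv_apply β (h.sc2.1 hx)]
  · have hfx := sc_map_mem h.sc1 hf hx (hP hx)
    have h1 : ofAut β⁻¹ (f x) ∈ S₁ := sc_map_mem h.sc1 hβi (h.sc1.1 hfx) hfx
    rw [hαβ _ h1, ofAut_apply_inv β (h.sc1.1 hfx)]

theorem fix_normal (h : DPair F S₁ S₂ p) (hR' : ∀ P : Subgroup Ω, P ≤ S₁ → R'.Hom P = F.centralizerHom S₂ P) :
    R'.IsNormalIn F p := by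
  have hsub : R'.IsSubsystemOf F := isSubsystemOf_iff.2 fun P f hf => by
    obtain ⟨hP, g, hg, hgf, -⟩ := (h.isMap_fix_iff hR').1 hf
    exact (hg.mono le_sup_left).congr hgf
  refine isNormalIn_iff.2 ⟨⟨h.sat_fix hR', h.hF, isInvariantIn_of_tInv hsub h.sc1 (h.fix_tInv hR')
    fun P f hP hf => h.fix_dec hR' hP hf⟩, fun α hα => ?_⟩
  obtain ⟨-, g, hg, hgα, hg2⟩ := (h.isMap_fix_iff hR').1 (isMap_ofAut le_rfl hα)
  have hgS : IsMap F S g := hg.mono h.sup.ge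
  have hle : S₁ ⊔ centralizerIn S S₁ ≤ S := sup_le h.sc1.1 (centralizerIn_le S₁)
  have hgm := hgS.mono hle
  have hcen : ∀ c ∈ centralizerIn S S₁, c⁻¹ * g c ∈ S₁ ⊓ Subgroup.centralizer (S₁ : Set Ω) := by
    intro c hc
    obtain ⟨a, ha, b, hb, rfl⟩ := h.exists_dec (centralizerIn_le S₁ hc)
    have haC : a ∈ centralizerIn S S₁ := by
      have hbC : b ∈ centralizerIn S S₁ := h.symm.le_cen hb
      have := Subgroup.mul_mem _ hc (Subgroup.inv_mem _ hbC)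
      rwa [mul_inv_cancel_right] at this
    have e : (a * b)⁻¹ * g (a * b) = a⁻¹ * ofAut α a := by
      rw [hgS.map_mul (h.sc1.1 ha) (h.sc2.1 hb), hgα a ha, hg2 b hb]
      have h1 := h.comm _ (S₁.mul_mem (S₁.inv_mem ha) (ofAut_mem α ha)) b hb
      calc (a * b)⁻¹ * (ofAut α a * b) = b⁻¹ * ((a⁻¹ * ofAut α a) * b) := by group
        _ = b⁻¹ * (b * (a⁻¹ * ofAut α a)) := by rw [h1]
        _ = _ := by group
    rw [e, inf_centralizer_eq h.sc1.1]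
    refine ⟨S₁.mul_mem (S₁.inv_mem ha) (ofAut_mem α ha), Subgroup.mul_mem _ (Subgroup.inv_mem _ haC) ?_⟩
    have haZ : a ∈ S₁ ⊓ Subgroup.centralizer (S₁ : Set Ω) := (inf_centralizer_eq h.sc1.1).2 ⟨ha, haC⟩
    exact ((inf_centralizer_eq h.sc1.1).1 (ofAut_mem_center haZ)).2
  have hfin := finite_of_le hle
  have hgi : img (S₁ ⊔ centralizerIn S S₁) g = S₁ ⊔ centralizerIn S S₁ := by
    refine hgm.img_eq (hgm.forall_sup_mem (fun x hx => ?_) fun c hc => ?_)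
    · rw [hgα x hx]; exact Subgroup.mem_sup_left (ofAut_mem _ hx)
    · have h5 := Subgroup.mul_mem _ (Subgroup.mem_sup_right (S := S₁) hc)
        (Subgroup.mem_sup_left (T := centralizerIn S S₁) (hcen c hc).1)
      rwa [mul_inv_cancel_left] at h5
  refine ⟨hgm.aut hgi, hgm.aut_mem hgi, fun x hx => ?_, fun c hc => ?_⟩
  · rw [hgm.ofAut_aut hgi (Subgroup.mem_sup_left hx), hgα x hx]
  · rw [hgm.ofAut_aut hgi (Subgroup.mem_sup_right hc)]
    exact hcen c hc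

theorem fix_normal_full (h : DPair F S₁ S₂ p) (hR : ∀ P : Subgroup Ω, P ≤ S₁ → R.Hom P = F.Hom P)
    (hR' : ∀ P : Subgroup Ω, P ≤ S₁ → R'.Hom P = F.centralizerHom S₂ P) : R'.IsNormalIn R p := by
  have hFR : ∀ {P f}, P ≤ S₁ → IsMap F P f → IsMap R P f := fun {P f} hP hf => (hom_eq_iff.1 (hR P hP) f).2 hf
  have haut : R.autGroup S₁ = F.autGroup S₁ := by
    ext α
    rw [mem_autGroup_iff le_rfl, mem_autGroup_iff h.sc1.1]
    exact hom_eq_iff.1 (hR S₁ le_rfl) _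
  have hfin := finite_of_le h.sc1.1
  have hn := h.fix_normal hR'
  have hsub : R'.IsSubsystemOf R := isSubsystemOf_iff.2 fun P f hf => hFR hf.le (isSubsystemOf_iff.1 hn.1.2.2.1 _ _ hf)
  have hsc : R.StronglyClosed S₁ := stronglyClosed_iff.2 ⟨le_rfl, fun P f hf hP x hx => hf.mem hx⟩
  refine isNormalIn_iff.2 ⟨⟨hn.1.1, h.sat_full hR, isInvariantIn_of_tInv hsub hsc (fun α hα => ?_)
    fun P f hP hf => ?_⟩, fun α hα => ?_⟩
  · exact h.fix_tInv hR' α (haut ▸ hα)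
  · obtain ⟨α, hα, r⟩ := h.fix_dec hR' hP ((hom_eq_iff.1 (hR P hP) f).1 hf)
    exact ⟨α, haut ▸ hα, r⟩
  · have hα' : α ∈ R.autGroup S₁ := (mem_autGroup_iff le_rfl).2 (isSubsystemOf_iff.1 hsub _ _ (isMap_ofAut le_rfl hα))
    have hle : S₁ ⊔ centralizerIn S₁ S₁ = S₁ := sup_eq_left.2 (centralizerIn_le S₁)
    have hm : IsMap R (S₁ ⊔ centralizerIn S₁ S₁) (ofAut α) := (isMap_ofAut le_rfl hα').mono hle.le
    have hgi : img (S₁ ⊔ centralizerIn S₁ S₁) (ofAut α) = S₁ ⊔ centralizerIn S₁ S₁ := by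
      rw [hle]; exact img_ofAut α
    refine ⟨hm.aut hgi, hm.aut_mem hgi, fun x hx => ?_, fun c hc => ?_⟩
    · rw [hm.ofAut_aut hgi (Subgroup.mem_sup_left hx)]
    · rw [hm.ofAut_aut hgi (Subgroup.mem_sup_right hc)]
      have hc1 : c ∈ S₁ := centralizerIn_le S₁ hc
      refine (inf_centralizer_eq le_rfl).2 ⟨S₁.mul_mem (S₁.inv_mem hc1) (ofAut_mem α hc1),
        Subgroup.mul_mem _ (Subgroup.inv_mem _ hc) ?_⟩
      have haZ : c ∈ S₁ ⊓ Subgroup.centralizer (S₁ : Set Ω) := (inf_centralizer_eq le_rfl).2 ⟨hc1, hc⟩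
      exact ((inf_centralizer_eq le_rfl).1 (ofAut_mem_center haZ)).2

end DPair

end Cfsg.Agent.Fus
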