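import Cfsg.Agent.Fus.ES12
import Cfsg.Agent.Fus.ESz
import Cfsg.Agent.Fus.Lay4
set_option autoImplicit false
set_option linter.unusedSectionVars false
set_option linter.unusedVariables false

/-!
# Subsystems with prescribed `O^p`, I (helper85)
-/

namespace Cfsg.Agent.Fus

open Cfsg
open Cfsg.FusionSystem (centralizerIn normalizerIn)

variable {Ω : Type*} [Group Ω] {S T R H : Subgroup Ω} {F : FusionSystem S} {E : FusionSystem T}
  {E₁ : FusionSystem H} {D D' : FusionSystem R} {p : ℕ}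

/-- `O^p(E)` is normal in `F` -/
theorem exists_opE' [Finite S] [Fact p.Prime] (hS : IsPGroup p S) (hEF : E.IsNormalIn F p) :
    ∃ D : FusionSystem (E.hyperfocalSubgroup p), D.IsNormalIn F p ∧ D.IsNormalIn E p ∧ D.IsSaturated p ∧
      D.HasPPowerIndexIn E p := by
  have hF := (isNormalIn_iff_ext.1 hEF).1.2.1
  have hE := (isNormalIn_iff_ext.1 hEF).1.2.2
  have hEs := (isNormalIn_iff_ext.1 hEF).1.1
  have hTS := hE.2.1.1
  have hfT := finite_of_le hTS
  have hTp := isPGroup_of_le hS hTS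
  have hhT : E.hyperfocalSubgroup p ≤ T := hyper_le_S
  obtain ⟨D, hDs, hDE, hDc⟩ := exists_ppower _ rfl hTp hEs hhT le_rfl
  have hi : D.HasPPowerIndexIn E p := hasPPowerIndexIn_iff.2 ⟨hDE, le_rfl, hDc⟩
  have hscE := stronglyClosed_hyper hTp hEs
  have hDn : D.IsNormalIn E p := isNormalIn_of_ppower hTp hEs hhT (fun s hs x hx => sc_conj_mem hscE hs hx) le_rfl hDs hi
  have hDi := hDn.1.2.2
  have hHS := hhT.trans hTS
  have hfH := finite_of_le hHS
  have hHp := isPGroup_of_le hS hHS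
  -- strongly closed
  have hsc : F.StronglyClosed (E.hyperfocalSubgroup p) := by
    refine stronglyClosed_iff.2 ⟨hHS, fun P f hf hP x hx => ?_⟩
    obtain ⟨α, hα, f₀, hf₀, he⟩ := inv_frattini hE (hP.trans hhT) hf
    rw [he x hx]
    exact hyper_inv_map hE (isMap_ofAut hTS hα) (sc_map_mem hscE hf₀ hx (hP hx))
  have hle : D.IsSubsystemOf F := isSubsystemOf_trans hDE hE.1
  -- invariance
  have hTI : TInv F D := by
    intro α hα
    refine autInv_of_le (alperin_coprime hHp hDs fun P hPn _ _ β hβ hβp => ?_)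
    have hPH := hPn.1
    have hβD := isMap_ofAut hPH hβ
    rw [isMap_conjSys', inv_inv]
    refine ⟨hβD.univ, ?_⟩
    have hA : IsMap F P (ofAut α) := (isMap_ofAut hHS hα).mono hPH
    have hAH : img P (ofAut α) ≤ E.hyperfocalSubgroup p := hA.img_le_iff.mpr fun x hx => ofAut_mem α (hPH hx)
    have hβE : β ∈ E.autGroup P := (mem_autGroup_iff (hPH.trans hhT)).2 (isSubsystemOf_iff.1 hDE _ _ hβD)
    have h1 := hDc (img P (ofAut α)) hAH (hA.trans rfl β) (inv_trans_mem hE (hPH.trans hhT) hA rfl hβE)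
      (by rw [orderOf_trans]; exact hβp)
    refine h1.congr fun x hx => ?_
    obtain ⟨y, hy, rfl⟩ := (mem_img_ofAut α hPH).mp hx
    rw [hA.ofAut_trans rfl β hy, cjf_apply α hPH _ hy]
  have hDF : D.IsInvariantIn F := by
    refine isInvariantIn_of_tInv hle hsc hTI fun P f hP hf => ?_
    obtain ⟨α, hα, f₀, hf₀, he⟩ := inv_frattini hE (hP.trans hhT) hf
    obtain ⟨β, hβ, f₁, hf₁, he₁⟩ := inv_frattini hDi hP hf₀
    -- restriction of `α`
    have hαm := isMap_ofAut hTS hα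
    obtain ⟨α', hα', hα'x⟩ := (hαm.mono hhT).exists_aut ((hαm.mono hhT).img_eq fun x hx => hyper_inv_map hE hαm hx)
    have hβF : β ∈ F.autGroup (E.hyperfocalSubgroup p) := (mem_autGroup_iff hHS).2 (inv_isMap hE (isMap_ofAut hhT hβ))
    refine ⟨α' * β, Subgroup.mul_mem _ hα' hβF, f₁, hf₁, fun x hx => ?_⟩
    have h1 := hf₁.mem hx
    rw [he x hx, he₁ x hx, ofAut_mul _ _ h1, hα'x _ (ofAut_mem β h1)]
  exact ⟨D, char_normal hS hDn hEF hDF, hDn, hDs, hi⟩

/-- `E₁` is a subsystem of `p`-power index of `D` over `H ≥ hyp(D)`. -/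
structure PSub (E₁ : FusionSystem H) (D : FusionSystem R) (p : ℕ) : Prop where
  sat : D.IsSaturated p
  le : H ≤ R
  sub : E₁.IsSubsystemOf D
  hyp : D.hyperfocalSubgroup p ≤ H
  pp : ∀ P : Subgroup Ω, P ≤ H → ∀ α ∈ D.autGroup P, (orderOf α).Coprime p → IsMap E₁ P (ofAut α)

theorem sc_of_sub (hD : D.IsSubsystemOf F) (hT : F.StronglyClosed H) (hHR : H ≤ R) : D.StronglyClosed H :=
  stronglyClosed_iff.2 ⟨hHR, fun _ _ hf hP _ hx => sc_map_mem hT (isSubsystemOf_iff.1 hD _ _ hf) hx (hP hx)⟩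

theorem PSub.le_esSys [Finite S] [Fact p.Prime] (hS : IsPGroup p S) (hE₁ : E₁.IsNormalIn F p) (hRS : R ≤ S)
    (hD : D.IsSubsystemOf F) (h : PSub E₁ D p) : D.IsSubsystemOf (esSys E₁ F p hE₁.1.2.2.2.1) := by
  have hT := hE₁.1.2.2.2.1
  have hfR := finite_of_le hRS
  have hpR := isPGroup_of_le hS hRS
  have hT' : D.StronglyClosed H := sc_of_sub hD hT h.le
  have key : D ≤ resSys (esSys E₁ F p hE₁.1.2.2.2.1) hRS := by
    refine alperin_coprime hpR h.sat fun P hPn hPc hPr α hα hco => ?_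
    have hPR := hPn.1
    have hPS := hPR.trans hRS
    have hfP := finite_of_le hPS
    rw [isMap_resSys]
    refine ⟨?_, hPR, fun x hx => hPR (ofAut_mem α hx)⟩
    have hαF : α ∈ F.autGroup P := (mem_autGroup_iff hPS).2 (isSubsystemOf_iff.1 hD _ _ (isMap_ofAut hPR hα))
    refine gsys_gen (n := 1) (P := P) ⟨hPS, eCentric_inf hpR h.sat h.sub hT' hPc hPr⟩ hPS Nat.card_pos
      ((mem_esK hPS).2 ⟨hαF, fun x hx => ?_, ?_⟩) hco
    · have h1 := h.hyp (mem_hyper_of_coprime hPR hα hco hx)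
      have h2 := sc_conj_mem hT (hPS hx) h1
      have e1 : x * (x⁻¹ * ofAut α x) * x⁻¹ = ofAut α x * x⁻¹ := by group
      rwa [e1] at h2
    · have hinv : ∀ x ∈ P ⊓ H, ofAut α x ∈ P ⊓ H := fun x hx =>
        ⟨ofAut_mem α hx.1, sc_map_mem hT' (isMap_ofAut hPR hα) hx.1 hx.2⟩
      obtain ⟨β, hβ, hβx, hβo⟩ := exists_restrict_mem hPR (inf_le_left : P ⊓ H ≤ P) hα hinv
      exact (h.pp _ inf_le_right β hβ (hco.coprime_dvd_left hβo)).congr hβx
  rw [isSubsystemOf_iff]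
  exact fun P f hf => (isMap_resSys.1 (le_iff.1 key P f hf)).1

/-- existence of the subsystem over `R` -/
theorem exists_pSub [Finite S] [Fact p.Prime] (hS : IsPGroup p S) (hE₁ : E₁.IsNormalIn F p) (hHR : H ≤ R) (hRS : R ≤ S) :
    ∃ D : FusionSystem R, PSub E₁ D p ∧ D.IsSubsystemOf F ∧ ∀ (U : Subgroup Ω) (D' : FusionSystem U), U ≤ R → PSub E₁ D' p →
      D'.IsSubsystemOf F → D'.IsSubsystemOf D := by
  have hE₁s : E₁.IsSaturated p := hE₁.1.1
  have hpH := isPGroup_of_le hS (hHR.trans hRS)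
  have hfH := finite_of_le (hHR.trans hRS)
  have h1 := esSys_hyper_le hS hE₁.1.2.2
  obtain ⟨hs1, hs2⟩ := esSys_ppower hS hE₁
  obtain ⟨D, hDs, hDle, hDc⟩ := exists_ppower _ rfl hS (esSys_saturated hS hE₁) hRS (h1.trans hHR)
  have hDF : D.IsSubsystemOf F := by
    rw [isSubsystemOf_iff] at hDle ⊢
    exact fun P f hf => le_iff.1 esSys_leF P f (hDle P f hf)
  have hmax : ∀ (U : Subgroup Ω) (D' : FusionSystem U), U ≤ R → PSub E₁ D' p →
      D'.IsSubsystemOf F → D'.IsSubsystemOf D := by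
    intro U D' hUR hP hD'F
    have hUS := hUR.trans hRS
    have hfU := finite_of_le hUS
    have hpU := isPGroup_of_le hS hUS
    have h2 := hP.le_esSys hS hE₁ hUS hD'F
    have key : D' ≤ resSys D hUR := by
      refine alperin_coprime hpU hP.sat fun P hPn hPc hPr α hα hco => ?_
      have hPU := hPn.1
      rw [isMap_resSys]
      refine ⟨hDc P (hPU.trans hUR) α ?_ hco, hPU, fun x hx => hPU (ofAut_mem α hx)⟩
      exact (mem_autGroup_iff (hPU.trans hUS)).2 (isSubsystemOf_iff.1 h2 _ _ (isMap_ofAut hPU hα))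
    rw [isSubsystemOf_iff]
    exact fun P f hf => (isMap_resSys.1 (le_iff.1 key P f hf)).1
  have hEE : PSub E₁ E₁ p := ⟨hE₁s, le_rfl, fun _ => subset_rfl, hyper_le_S, fun P hP α hα _ => isMap_ofAut hP hα⟩
  refine ⟨D, ⟨hDs, hHR, hmax H E₁ hHR hEE hE₁.1.2.2.1, ?_, fun P hP α hα hco => ?_⟩, hDF, hmax⟩
  · exact (hyper_mono_sys hDle hRS).trans h1
  · refine hs2 P hP α ?_ hco
    exact (mem_autGroup_iff ((hP.trans hHR).trans hRS)).2 (isSubsystemOf_iff.1 hDle _ _ (isMap_ofAut (hP.trans hHR) hα))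

end Cfsg.Agent.Fus
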