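import Cfsg.Agent.Fus.ES16
set_option autoImplicit false
set_option linter.unusedSectionVars false
set_option linter.unusedVariables false

/-!
# Subsystems with prescribed `O^p`, II: uniqueness (helper85)
-/

namespace Cfsg.Agent.Fus

open Cfsg
open Cfsg.FusionSystem (centralizerIn normalizerIn)

variable {Ω : Type*} [Group Ω] {S T R H : Subgroup Ω} {F : FusionSystem S} {E : FusionSystem T}
  {E₁ : FusionSystem H} {D D' : FusionSystem R} {p : ℕ}

/-- `E₁` is normal in `D` -/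
theorem PSub.normal [Finite R] [Fact p.Prime] (hR : IsPGroup p R) (h : PSub E₁ D p) (hE₁ : E₁.IsSaturated p)
    (hT : D.StronglyClosed H) : E₁.IsNormalIn D p :=
  isNormalIn_of_ppower hR h.sat h.le (fun s hs x hx => sc_conj_mem hT hs hx) h.hyp hE₁
    (hasPPowerIndexIn_iff.2 ⟨h.sub, h.hyp, h.pp⟩)

theorem fn_of_le (hle : D' ≤ D) {P : Subgroup Ω} (h : D.IsFullyNormalized P) : D'.IsFullyNormalized P :=
  ⟨h.1, fun Q hPQ => h.2 Q (by
    obtain ⟨f, hf, hfQ⟩ := isConj_iff.1 hPQ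
    exact isConj_iff.2 ⟨f, le_iff.1 hle _ _ hf, hfQ⟩)⟩

/-- `p'`-automorphisms -/
theorem PSub.lemK [Finite R] [Fact p.Prime] (hR : IsPGroup p R) (h : PSub E₁ D p) (h' : PSub E₁ D' p)
    (hE₁ : E₁.IsSaturated p) (hT : D.StronglyClosed H) (hle : D' ≤ D) {P : Subgroup Ω} (hPn : D.IsFullyNormalized P)
    (hQn : D.IsFullyNormalized (P ⊓ H)) (hQc : E₁.IsCentric (P ⊓ H)) {κ : MulAut P} (hκ : κ ∈ D.autGroup P)
    (hco : (orderOf κ).Coprime p) : κ ∈ D'.autGroup P := by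
  have hsub : D'.IsSubsystemOf D := isSubsystemOf_iff.2 fun P f hf => le_iff.1 hle P f hf
  have hT' : D'.StronglyClosed H := sc_of_sub hsub hT h.le
  have hN' := h'.normal hR hE₁ hT'
  have hPR := hPn.1
  have hfP := finite_of_le hPR
  have hfA := finite_mulAut (P := P)
  have hκm := isMap_ofAut hPR hκ
  have hinv : ∀ x ∈ P ⊓ H, ofAut κ x ∈ P ⊓ H := fun x hx =>
    ⟨ofAut_mem κ hx.1, sc_map_mem hT hκm hx.1 hx.2⟩
  obtain ⟨β, hβD, hβx, hβo⟩ := exists_restrict_mem hPR (inf_le_left : P ⊓ H ≤ P) hκ hinv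
  have hβco := hco.coprime_dvd_left hβo
  have hβ : β ∈ E₁.autGroup (P ⊓ H) := (mem_autGroup_iff inf_le_right).2 (h.pp _ inf_le_right β hβD hβco)
  have hPN : P ≤ normalizerIn R (P ⊓ H) := (le_normalizerIn hPR).trans (normalizerIn_le_inf hT)
  have hVN : P ⊔ centralizerIn R (P ⊓ H) ≤ normalizerIn R (P ⊓ H) := sup_le hPN (centralizerIn_le_normalizerIn _)
  have hVR : P ⊔ centralizerIn R (P ⊓ H) ≤ R := hVN.trans (normalizerIn_le _)
  have hκc : ∀ v ∈ P, ∀ x ∈ P ⊓ H, ofAut β (v * x * v⁻¹) = ofAut κ v * ofAut β x * (ofAut κ v)⁻¹ := by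
    intro v hv x hx
    have h1 : v * x * v⁻¹ ∈ P ⊓ H := (Subgroup.mem_normalizer_iff.1 (hPN hv).2 x).1 hx
    rw [hβx _ h1, hβx _ hx, hκm.map_conj hv hx.1]
  obtain ⟨κ', hκ'K, hκ'co, hκ'x, hκ'c⟩ := es_ext1 hR hN' (fn_of_le hle hQn) hQc
    (V := P ⊔ centralizerIn R (P ⊓ H)) (inf_le_left.trans le_sup_left) le_sup_right hVN hβ hβco (by
      intro v hv
      have hn : P ≤ Subgroup.normalizer (centralizerIn R (P ⊓ H) : Set Ω) := by
        intro x hx
        have hxN := (hPN hx).2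
        have hxS := (hPN hx).1
        rw [Subgroup.mem_normalizer_iff]
        refine fun y => ⟨fun hy => cen_conj hxN hy (R.mul_mem (R.mul_mem hxS hy.1) (R.inv_mem hxS)), fun hy => ?_⟩
        have h1 := cen_conj (Subgroup.inv_mem _ hxN) hy
          (R.mul_mem (R.mul_mem (R.inv_mem hxS) hy.1) (R.inv_mem (R.inv_mem hxS)))
        have e1 : x⁻¹ * (x * y * x⁻¹) * x⁻¹⁻¹ = y := by group
        rwa [e1] at h1
      rw [sup_comm] at hv
      obtain ⟨c, hc, a, ha, rfl⟩ := (H85.mem_sup_iff_of_normalizes hn).1 hv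
      refine ⟨ofAut κ a, Subgroup.mem_sup_left (ofAut_mem κ ha), fun x hx => ?_⟩
      have h1 : a * x * a⁻¹ ∈ P ⊓ H := (Subgroup.mem_normalizer_iff.1 (hPN ha).2 x).1 hx
      have h2 : c * a * x * (c * a)⁻¹ = a * x * a⁻¹ := by
        have h3 := (mem_centralizerIn.1 hc).2 _ h1
        calc c * a * x * (c * a)⁻¹ = (c * (a * x * a⁻¹)) * c⁻¹ := by group
          _ = ((a * x * a⁻¹) * c) * c⁻¹ := by rw [h3]
          _ = a * x * a⁻¹ := by group
      rw [h2, hκc a ha x hx])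
  obtain ⟨hκ'D, hκ'T, -⟩ := (mem_esK hVR).1 hκ'K
  -- `κ(v)⁻¹ κ'(v) ∈ Q`
  have hdiff : ∀ v ∈ P, (ofAut κ v)⁻¹ * ofAut κ' v ∈ P ⊓ H := by
    intro v hv
    have hvV : v ∈ P ⊔ centralizerIn R (P ⊓ H) := Subgroup.mem_sup_left hv
    have h1 := hκ'c v hvV (ofAut κ v) (hPR (ofAut_mem κ hv)) (hκc v hv)
    have h2 : (ofAut κ v)⁻¹ * ofAut κ' v ∈ H := by
      have h3 := h.hyp (mem_hyper_of_coprime hPR hκ hco hv)
      have h4 := sc_conj_mem hT (R.inv_mem (hPR hv)) (hκ'T v hvV)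
      have e1 : (ofAut κ v)⁻¹ * ofAut κ' v = (v⁻¹ * ofAut κ v)⁻¹ * (v⁻¹ * (ofAut κ' v * v⁻¹) * v⁻¹⁻¹) := by group
      rw [e1]
      exact H.mul_mem (H.inv_mem h3) h4
    have h3 : (ofAut κ v)⁻¹ * ofAut κ' v ∈ centralizerIn H (P ⊓ H) := mem_centralizerIn.2 ⟨h2, (mem_centralizerIn.1 h1).2⟩
    exact centric_centralizer_le hQc h3
  have hpres : ∀ v ∈ P, ofAut κ' v ∈ P := by
    intro v hv
    have h1 := P.mul_mem (ofAut_mem κ hv) (hdiff v hv).1
    rwa [mul_inv_cancel_left] at h1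
  obtain ⟨κ'', hκ''D', hκ''x, hκ''o⟩ := exists_restrict_mem hVR le_sup_left hκ'D hpres
  have hκ''co := hκ'co.coprime_dvd_left hκ''o
  have hκ''D : κ'' ∈ D.autGroup P := autGroup_mono hle P hκ''D'
  have hz : κ * κ''⁻¹ ∈ zT D H P := by
    refine ⟨Subgroup.mul_mem _ hκ (Subgroup.inv_mem _ hκ''D), fun x hx => ?_, fun x hx => ?_⟩
    · have hx' : ofAut κ''⁻¹ x ∈ P := ofAut_mem _ hx.1
      have h1 : ofAut κ''⁻¹ x ∈ P ⊓ H := ⟨hx', sc_map_mem hT (isMap_ofAut hPR (Subgroup.inv_mem _ hκ''D)) hx.1 hx.2⟩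
      rw [ofAut_mul _ _ hx.1, ← hβx _ h1, ← hκ'x _ h1, ← hκ''x _ hx', ofAut_apply_inv _ hx.1]
    · have hx' : ofAut κ''⁻¹ x ∈ P := ofAut_mem _ hx
      have h1 := hdiff _ hx'
      rw [← hκ''x _ hx', ofAut_apply_inv _ hx] at h1
      have h2 := (P ⊓ H).inv_mem h1
      rw [ofAut_mul _ _ hx]
      rwa [mul_inv_rev, inv_inv] at h2
  have hLN : D.autGroup P ≤ Subgroup.normalizer (zT D H P : Set (MulAut P)) :=
    conj_le_normalizer_of fun α hα ν hν => zT_conj hT hPR hα hν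
  obtain ⟨n, hn, hnκ⟩ := conj_of_congr (p := p) zT_le hLN (zT_isPGroup hR hPR) hκ hκ''D hco hκ''co hz
  obtain ⟨w, hw, hwN, hwx⟩ := zT_eq_conj hR hT (sat_fullyAutomized hR h.sat hPn) hn
  have hwR : w ∈ R := centralizerIn_le _ hw
  have hnD' : n ∈ D'.autGroup P := autInducedBy_le_autGroup hPR (mem_autInducedBy'.2 ⟨w, hwR, hwx⟩)
  rw [← hnκ]
  exact Subgroup.mul_mem _ (Subgroup.mul_mem _ hnD' hκ''D') (Subgroup.inv_mem _ hnD')

/-- uniqueness -/
theorem PSub.le_of_le [Finite R] [Fact p.Prime] (hR : IsPGroup p R) (h : PSub E₁ D p) (h' : PSub E₁ D' p)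
    (hE₁ : E₁.IsSaturated p) (hT : D.StronglyClosed H) (hle : D' ≤ D) : D ≤ D' := by
  have hN := h.normal hR hE₁ hT
  have hi := hN.1.2.2
  refine alperin_radical_ind hR h.sat fun P hPn hPc hPr hIH => ?_
  have hPR := hPn.1
  have hfP := finite_of_le hPR
  have hfA := finite_mulAut (P := P)
  have hQc : E₁.IsCentric (P ⊓ H) := eCentric_inf hR h.sat h.sub hT hPc hPr
  refine sylIn_le_of_pprime (fa_sylIn (sat_fullyAutomized hR h.sat hPn)) (autInducedBy_le_autGroup hPR) fun κ hκ hco => ?_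
  rcases eq_or_lt_of_le hPR with hPe | hPlt
  · subst hPe
    refine h.lemK hR h' hE₁ hT hle hPn ?_ hQc hκ hco
    rw [inf_eq_right.2 h.le]
    exact isFullyNormalized_of_sc hT
  obtain ⟨g, hg, hg1, hg2⟩ := exists_pos hR h.sat hT hPR
  have hg' : IsMap D' (normalizerIn R P) g := by
    have hfN := finite_of_le (normalizerIn_le (S := R) P)
    exact hIH _ g (card_lt_of_lt (normalizerIn_le _) (lt_normalizerIn hR hPlt)) hg
  have hgP := hg.mono (le_normalizerIn hPR)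
  have hgP' := hg'.mono (le_normalizerIn hPR)
  have h1 : hgP.trans rfl κ ∈ D.autGroup (img P g) := IsMap.trans_mem hgP rfl hκ
  have h2 : hgP.trans rfl κ ∈ D'.autGroup (img P g) := h.lemK hR h' hE₁ hT hle hg1 hg2
    (esH_img hi ⟨hPR, hQc⟩ hgP).2 h1 (by rw [orderOf_trans]; exact hco)
  have h3 := isMap_ofAut hgP'.img_le h2
  refine (mem_autGroup_iff hPR).2 (((hgP'.minv_isMap.comp (h3.comp hgP' fun x hx => subset_img hx)
    fun x hx => ofAut_mem _ (subset_img hx))).congr fun x hx => ?_)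
  show minv P g (ofAut (hgP.trans rfl κ) (g x)) = ofAut κ x
  rw [hgP.ofAut_trans rfl κ hx, hgP.minv_apply (ofAut_mem κ hx)]

end Cfsg.Agent.Fus
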