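import Cfsg.Agent.Fus.Iso3
set_option autoImplicit false

/-!
# Fusion systems of subnormal subgroups of constrained groups (helper85)
-/

namespace Cfsg.Agent.Fus

open Cfsg Cfsg.FusionSystem

variable {G : Type*} [Group G] {p : ℕ}

theorem fusSylIn_of [Finite G] [Fact p.Prime] {A B : Subgroup G} (h : H85.SylIn p A B) : Fus.SylIn p A B := by
  obtain ⟨R, hR⟩ := (H85.sylIn_iff h.le).1 h
  have h1 := Fus.sylIn_of_sylow R
  rw [hR, Subgroup.subgroupOf_map_subtype, inf_eq_left.2 h.le] at h1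
  exact h1

theorem fsos_stronglyClosed {H K T U : Subgroup G} {hUK : U ≤ K} (hHK : H ≤ K) (hT : T = U ⊓ H)
    (hn : K ≤ Subgroup.normalizer (H : Set G)) : (fusionSystemOfSubgroup K U hUK).StronglyClosed T := by
  subst hT
  rw [stronglyClosed_iff]
  refine ⟨inf_le_left, fun P f hf hP x hx => ?_⟩
  obtain ⟨-, hfU, g, hg, hgf⟩ := isMap_fsos.1 hf
  refine ⟨hfU x hx, ?_⟩
  rw [hgf x hx]
  exact (Subgroup.mem_normalizer_iff.1 (hn hg) x).1 (hP hx).2

theorem fsos_isSubsystemOf {H K T U : Subgroup G} {hTH : T ≤ H} {hUK : U ≤ K} (hHK : H ≤ K) (hTU : T ≤ U) :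
    (fusionSystemOfSubgroup H T hTH).IsSubsystemOf (fusionSystemOfSubgroup K U hUK) := by
  rw [isSubsystemOf_iff]
  intro P f hf
  obtain ⟨h1, h2, g, hg, h3⟩ := isMap_fsos.1 hf
  exact isMap_fsos.2 ⟨h1.trans hTU, fun x hx => hTU (h2 x hx), g, hHK hg, h3⟩

theorem le_normalizer_of_subgroupOf_normal {H K : Subgroup G} (hHK : H ≤ K) (hN : (H.subgroupOf K).Normal) :
    K ≤ Subgroup.normalizer (H : Set G) := (Subgroup.normal_subgroupOf_iff_le_normalizer hHK).1 hN

/-- Fusion systems of subnormal subgroups of constrained groups are constrained. -/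
theorem fsos_constrained_of_subnormal [Finite G] [Fact p.Prime] (S : Sylow p G)
    (hF : (groupFusionSystem (S : Subgroup G)).IsConstrained p) (H : Subgroup G) (hH : H.IsSubnormal) :
    ∀ (T : Subgroup G) (_ : T = (S : Subgroup G) ⊓ H) (hTH : T ≤ H), H85.SylIn p T H ∧
      (fusionSystemOfSubgroup H T hTH).IsConstrained p := by
  induction hH with
  | top =>
    intro T hT hTH
    rw [inf_top_eq] at hT
    subst hT
    refine ⟨H85.sylIn_top S, ?_⟩
    rw [← groupFusionSystem_eq]
    exact hF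
  | step H K hHK hK hN ih =>
    intro T hT hTH
    obtain ⟨h1, h2⟩ := ih _ rfl inf_le_right
    have hKn := le_normalizer_of_subgroupOf_normal hHK hN
    have hT' : T = ((S : Subgroup G) ⊓ K) ⊓ H := by rw [hT, inf_assoc, inf_eq_right.2 hHK]
    have h3 : H85.SylIn p T H := by rw [hT']; exact h1.inf_normal hHK hKn
    refine ⟨h3, ?_⟩
    have hfin : Finite ↥((S : Subgroup G) ⊓ K) := inferInstance
    refine constrained_of_stronglyClosed h1.isPGroup h2 (fsos_stronglyClosed hHK hT' hKn)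
      (fsos_isSubsystemOf hHK (hT'.le.trans inf_le_left)) (fsos_saturated (fusSylIn_of h3))

end Cfsg.Agent.Fus
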