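import Cfsg.Agent.H20.HarDef
set_option autoImplicit false
set_option linter.unusedSectionVars false
set_option linter.unusedVariables false

/-!
# 2-groups with a four-group `B` whose involutions have the same centralizer `D × B`, I (helper85)
-/

namespace Cfsg.Agent.Fus.HD

open Subgroup
open Cfsg.Agent.H20.Har (R4)

variable {X : Type*} [Group X] [Finite X]

theorem card_le_fib {L C : Subgroup X} {M : Type*} [Finite M] (v : L → M)
    (h : ∀ l l' : L, v l = v l' → (l' : X)⁻¹ * l ∈ C) : Nat.card L ≤ Nat.card C * Nat.card M := by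
  classical
  have hr : ∀ m : M, ∃ r : L, ∀ l : L, v l = m → v r = m := fun m => by
    by_cases hm : ∃ l : L, v l = m
    · obtain ⟨l, hl⟩ := hm
      exact ⟨l, fun _ _ => hl⟩
    · exact ⟨1, fun l hl => absurd ⟨l, hl⟩ hm⟩
  choose r hr using hr
  let f : L → C × M := fun l => (⟨((r (v l) : L) : X)⁻¹ * l, h l (r (v l)) (hr (v l) l rfl).symm⟩, v l)
  have hf : Function.Injective f := by
    intro x y hxy
    have h2 : v x = v y := congrArg (fun z : C × M => z.2) hxy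
    have h1 : ((r (v x) : L) : X)⁻¹ * (x : X) = ((r (v y) : L) : X)⁻¹ * y := congrArg (fun z : C × M => (z.1 : X)) hxy
    rw [h2] at h1
    exact Subtype.ext (mul_left_cancel h1)
  have h1 := Nat.card_le_card_of_injective f hf
  rwa [Nat.card_prod] at h1

/-- the centralizer bound for abelian sections -/
theorem card_le_cent {L N C : Subgroup X} (hc : ∀ x ∈ L, ∀ y ∈ L, x * y * x⁻¹ * y⁻¹ ∈ N) {b : X} (hb : b ∈ L)
    (hC : ∀ g : X, g * b = b * g → g ∈ C) : Nat.card L ≤ Nat.card C * Nat.card N := by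
  refine card_le_fib (fun l : L => (⟨(l : X) * b * (l : X)⁻¹ * b⁻¹, hc l l.2 b hb⟩ : N)) fun l l' h => hC _ ?_
  have h1 : (l : X) * b * (l : X)⁻¹ * b⁻¹ = (l' : X) * b * (l' : X)⁻¹ * b⁻¹ := congrArg Subtype.val h
  have h2 := mul_right_cancel h1
  calc (l' : X)⁻¹ * l * b = (l' : X)⁻¹ * (l * b * (l : X)⁻¹) * l := by group
    _ = (l' : X)⁻¹ * (l' * b * (l' : X)⁻¹) * l := by rw [h2]
    _ = b * ((l' : X)⁻¹ * l) := by group

theorem card_le_sq {E : Subgroup X} (hcomm : ∀ a ∈ E, ∀ b ∈ E, a * b = b * a) (hsq : ∀ a ∈ E, a * a = 1) {y : X}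
    (hy : ∀ e ∈ E, y * e * y⁻¹ ∈ E) (hy2 : ∀ e ∈ E, y * y * e = e * (y * y)) :
    Nat.card E ≤ Nat.card ↥(E ⊓ centralizer {y}) * Nat.card ↥(E ⊓ centralizer {y}) := by
  refine card_le_fib (fun e : E => (⟨(e : X) * (y * e * y⁻¹), E.mul_mem e.2 (hy e e.2), ?_⟩ :
    ↥(E ⊓ centralizer {y}))) fun l l' h => ?_
  · refine mem_centralizer_singleton_iff.2 ?_
    have h1 := hcomm _ e.2 _ (hy e e.2)
    have h2 := hy2 e e.2
    calc (e : X) * (y * e * y⁻¹) * y = (y * e * y⁻¹) * e * y := by rw [h1]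
      _ = y * e * y⁻¹ * (e * (y * y)) * y⁻¹ := by group
      _ = y * e * y⁻¹ * (y * y * e) * y⁻¹ := by rw [h2]
      _ = y * (e * (y * e * y⁻¹)) := by group
  · have h1 : (l : X) * (y * l * y⁻¹) = (l' : X) * (y * l' * y⁻¹) := congrArg Subtype.val h
    refine ⟨E.mul_mem (E.inv_mem l'.2) l.2, ?_⟩
    refine mem_centralizer_singleton_iff.2 ?_
    have hl : (l : X)⁻¹ = l := inv_eq_of_mul_eq_one_left (hsq l l.2)
    have hl' : (l' : X)⁻¹ = l' := inv_eq_of_mul_eq_one_left (hsq l' l'.2)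
    have h2 : (l' : X)⁻¹ * l = (y * l' * y⁻¹) * (y * l * y⁻¹)⁻¹ := by
      have h3 : (l' : X)⁻¹ * ((l : X) * (y * l * y⁻¹)) = y * l' * y⁻¹ := by rw [h1]; group
      rw [← h3]; group
    have h3 : (y * (l : X) * y⁻¹)⁻¹ = y * l * y⁻¹ := by
      have : (y * (l : X) * y⁻¹)⁻¹ = y * (l : X)⁻¹ * y⁻¹ := by group
      rw [this, hl]
    rw [h3] at h2
    have h4 : (l' : X)⁻¹ * l = y * ((l' : X)⁻¹ * l) * y⁻¹ := by
      rw [hl'] at h2 ⊢
      rw [h2]
      have h5 : y * (l' * l : X) * y⁻¹ = y * l' * y⁻¹ * (y * l * y⁻¹) := by group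
      rw [← h2, h5, ← h2]
    calc (l' : X)⁻¹ * l * y = y * ((l' : X)⁻¹ * l) * y⁻¹ * y := by rw [← h4]
      _ = y * ((l' : X)⁻¹ * l) := by group

/-- `B` is a four-group whose involutions have centralizers in `T` -/
structure Cond (T B : Subgroup X) : Prop where
  le : B ≤ T
  card : Nat.card B = 4
  cent : ∀ b ∈ B, b ≠ 1 → ∀ g : X, g * b = b * g → g ∈ T

theorem Cond.lemA {T B E : Subgroup X} (h : Cond T B) (hBE : B ≤ E) (hcomm : ∀ a ∈ E, ∀ b ∈ E, a * b = b * a)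
    (hsq : ∀ a ∈ E, a * a = 1) {y : X} (hy : ∀ e ∈ E, y * e * y⁻¹ ∈ E) (hy2 : ∀ e ∈ E, y * y * e = e * (y * y))
    (hyT : y ∉ T) : 16 ≤ Nat.card E ∧ Nat.card ↥(E ⊓ centralizer {y}) * 4 ≤ Nat.card E := by
  have h1 := card_le_sq hcomm hsq hy hy2
  have h2 := Cfsg.Agent.H63.card_mul_card_le (E ⊓ centralizer {y}) B E inf_le_left hBE
  have h3 : (E ⊓ centralizer {y}) ⊓ B = ⊥ := by
    rw [eq_bot_iff]
    rintro x ⟨⟨-, hx⟩, hxB⟩
    have hx : x * y = y * x := mem_centralizer_singleton_iff.1 hx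
    rw [Subgroup.mem_bot]
    by_contra hne
    exact hyT (h.cent x hxB hne y hx.symm)
  rw [h3, Subgroup.card_bot, h.card, mul_one] at h2
  refine ⟨?_, h2⟩
  have hpos : 0 < Nat.card E := Nat.card_pos
  nlinarith

theorem exists_norm_sq (hX : IsPGroup 2 X) {T : Subgroup X} (hT : T ≠ ⊤) :
    ∃ y, y ∉ T ∧ y ∈ normalizer (T : Set X) ∧ y * y ∈ T := by
  classical
  have : Fact (Nat.Prime 2) := ⟨Nat.prime_two⟩
  have hnil : Group.IsNilpotent X := hX.isNilpotent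
  have h1 : T < normalizer (T : Set X) := Group.normalizerCondition_of_isNilpotent T (lt_top_iff_ne_top.2 hT)
  obtain ⟨z, hz, hzT⟩ := SetLike.exists_of_lt h1
  have h2 : ∃ j : ℕ, z ^ 2 ^ j ∈ T := by
    obtain ⟨k, hk⟩ := hX z
    exact ⟨k, by rw [hk]; exact T.one_mem⟩
  have h3 := Nat.find_spec h2
  have h4 : Nat.find h2 ≠ 0 := by
    intro h0
    rw [h0, pow_zero, pow_one] at h3
    exact hzT h3
  obtain ⟨j, hj⟩ := Nat.exists_eq_succ_of_ne_zero h4
  refine ⟨z ^ 2 ^ j, Nat.find_min h2 (by omega), Subgroup.pow_mem _ hz _, ?_⟩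
  rw [hj, Nat.succ_eq_add_one, pow_succ, pow_mul, pow_two] at h3
  exact h3

/-- if the centre of `T` is small then `T` is everything -/
theorem Cond.eq_top {T B Z : Subgroup X} (hX : IsPGroup 2 X) (h : Cond T B)
    (hZ : ∀ z, z ∈ Z ↔ z ∈ T ∧ ∀ t ∈ T, t * z = z * t) (hBZ : B ≤ Z) (hZ8 : Nat.card Z ≤ 8)
    (hsq : ∀ a ∈ Z, a * a = 1) : T = ⊤ := by
  by_contra hT
  obtain ⟨y, hyT, hyN, hy2⟩ := exists_norm_sq hX hT
  have h1 := h.lemA hBZ (fun a ha b hb => ((hZ b).1 hb).2 a ((hZ a).1 ha).1) hsq (y := y) (fun e he => ?_)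
    (fun e he => ((hZ e).1 he).2 _ hy2) hyT
  · omega
  · have he' := (hZ e).1 he
    refine (hZ _).2 ⟨(mem_normalizer_iff.1 hyN e).1 he'.1, fun t ht => ?_⟩
    have h3 : y⁻¹ * t * y ∈ T := by
      rw [mem_normalizer_iff.1 hyN]
      have e1 : y * (y⁻¹ * t * y) * y⁻¹ = t := by group
      rwa [e1]
    have h4 := he'.2 _ h3
    calc t * (y * e * y⁻¹) = y * ((y⁻¹ * t * y) * e) * y⁻¹ := by group
      _ = y * (e * (y⁻¹ * t * y)) * y⁻¹ := by rw [h4]
      _ = y * e * y⁻¹ * t := by group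

/-- groups with a cyclic subgroup of index at most 8 -/
theorem r4_of_cyclic (r : X) (hr : (zpowers r).index ≤ 8) : R4 X := by
  intro L N hNL hc hs
  have h1 := Cfsg.Agent.H63.card_mul_card_le L (zpowers r) ⊤ le_top le_top
  have h2 := (zpowers r).card_mul_index
  rw [Subgroup.card_top, ← h2] at h1
  have hpos : 0 < Nat.card (zpowers r) := Nat.card_pos
  have h3 : Nat.card L ≤ 8 * Nat.card ↥(L ⊓ zpowers r) := by
    have h4 : Nat.card (zpowers r) * Nat.card L ≤ Nat.card (zpowers r) * ((zpowers r).index * Nat.card ↥(L ⊓ zpowers r)) := by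
      nlinarith
    exact (Nat.le_of_mul_le_mul_left h4 hpos).trans (Nat.mul_le_mul_right _ hr)
  have hcyc : IsCyclic ↥(L ⊓ zpowers r) :=
    isCyclic_of_injective (Subgroup.inclusion (inf_le_right : L ⊓ zpowers r ≤ zpowers r)) (Subgroup.inclusion_injective _)
  obtain ⟨g, hg⟩ := hcyc.exists_generator
  have h5 : Nat.card ↥(L ⊓ zpowers r) = orderOf (g : X) := by
    rw [Subgroup.orderOf_coe, orderOf_eq_card_of_forall_mem_zpowers hg]
  have h6 : (g : X) ^ 2 ∈ N := by rw [pow_two]; exact hs _ g.2.1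
  have h7 : Nat.card (zpowers ((g : X) ^ 2)) ≤ Nat.card N :=
    Nat.card_le_card_of_injective _ (Subgroup.inclusion_injective (Subgroup.zpowers_le.2 h6))
  rw [Nat.card_zpowers, orderOf_pow' _ two_ne_zero] at h7
  have h8 : Nat.gcd (orderOf (g : X)) 2 ∣ 2 := Nat.gcd_dvd_right _ _
  have h9 : Nat.gcd (orderOf (g : X)) 2 ≤ 2 := Nat.le_of_dvd two_pos h8
  have h10 := Nat.div_mul_cancel (Nat.gcd_dvd_left (orderOf (g : X)) 2)
  have h11 : orderOf (g : X) ≤ Nat.card N * 2 := by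
    rw [← h10]
    exact Nat.mul_le_mul h7 h9
  omega

end Cfsg.Agent.Fus.HD
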