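import Cfsg.Agent.Fus.HD1
import Cfsg.Prelude.Def_TwoFusion
set_option autoImplicit false
set_option linter.unusedSectionVars false
set_option linter.unusedVariables false

/-!
# 2-groups with a four-group `B` whose involutions have the same centralizer `D × B`, II: `D` nonabelian (helper85)
-/

namespace Cfsg.Agent.Fus.HD

open Subgroup
open Cfsg.Agent.H20.Har (R4)

theorem center_small {D : Type*} [Group D] [Finite D] (r s : D) (hcard : Nat.card D = 2 * orderOf r) (hrs : s * r ≠ r * s)
    (hcent : ∀ i : ℤ, s * r ^ i = r ^ i * s → r ^ i * r ^ i = 1) :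
    (∀ z ∈ center D, z * z = 1) ∧ Nat.card (center D) ≤ 2 := by
  classical
  have hind : (zpowers r).index = 2 := by
    have h1 := (zpowers r).card_mul_index
    rw [Nat.card_zpowers, hcard, mul_comm 2] at h1
    exact Nat.eq_of_mul_eq_mul_left (orderOf_pos r) h1
  have hs : s ∉ zpowers r := by
    rintro ⟨j, hj⟩
    have hj' : r ^ j = s := hj
    apply hrs
    rw [← hj', ← zpow_add_one, ← zpow_one_add, add_comm]
  have hz : ∀ z ∈ center D, z ∈ zpowers r := by
    intro z hz
    by_contra hzr
    have h1 : z * s ∈ zpowers r := (Subgroup.mul_mem_iff_of_index_two hind).2 ⟨fun h => absurd h hzr, fun h => absurd h hs⟩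
    obtain ⟨j, hj⟩ := h1
    have hj' : r ^ j = z * s := hj
    have h2 := mem_center_iff.1 hz
    have h3 : s = z⁻¹ * r ^ j := by rw [hj']; group
    apply hrs
    have h4 : r * z⁻¹ = z⁻¹ * r := by
      have := mem_center_iff.1 ((center D).inv_mem hz) r
      exact this
    rw [h3]
    calc z⁻¹ * r ^ j * r = z⁻¹ * (r * r ^ j) := by rw [mul_assoc, ← zpow_add_one, ← zpow_one_add, add_comm]
      _ = r * (z⁻¹ * r ^ j) := by rw [← mul_assoc, ← h4, mul_assoc]
  have hsq : ∀ z ∈ center D, z * z = 1 := by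
    intro z hzc
    obtain ⟨j, hj⟩ := hz z hzc
    have hj' : r ^ j = z := hj
    rw [← hj']
    apply hcent
    rw [hj']
    exact mem_center_iff.1 hzc s
  refine ⟨hsq, ?_⟩
  have hft : Fintype (zpowers r) := Fintype.ofFinite _
  have h1 := IsCyclic.card_pow_eq_one_le (α := zpowers r) (n := 2) two_pos
  let f : center D → {a : zpowers r // a ∈ ({a : zpowers r | a ^ 2 = 1} : Finset (zpowers r))} := fun z =>
    ⟨⟨z, hz z z.2⟩, by
      rw [Finset.mem_filter]
      refine ⟨Finset.mem_univ _, Subtype.ext ?_⟩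
      show (z : D) ^ 2 = 1
      rw [pow_two]; exact hsq z z.2⟩
  have hf : Function.Injective f := fun x y hxy => Subtype.ext (congrArg (fun w => ((w.1 : zpowers r) : D)) hxy)
  have h2 := Nat.card_le_card_of_injective f hf
  rw [Nat.card_eq_fintype_card (α := {a : zpowers r // a ∈ ({a : zpowers r | a ^ 2 = 1} : Finset (zpowers r))}),
    Fintype.card_coe] at h2
  exact h2.trans h1

variable {X : Type*} [Group X] [Finite X]

theorem mem_prod {T D B : Subgroup X} (h : Cfsg.IsInternalDirectProduct D B T) {t : X} (ht : t ∈ T) :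
    ∃ d ∈ D, ∃ b ∈ B, d * b = t := by
  have hc := h.2.2.1
  let P : Subgroup X :=
    { carrier := {x | ∃ d ∈ D, ∃ b ∈ B, d * b = x}
      one_mem' := ⟨1, D.one_mem, 1, B.one_mem, by rw [one_mul]⟩
      mul_mem' := by
        rintro _ _ ⟨d, hd, b, hb, rfl⟩ ⟨d', hd', b', hb', rfl⟩
        refine ⟨d * d', D.mul_mem hd hd', b * b', B.mul_mem hb hb', ?_⟩
        have := hc d' hd' b hb
        calc d * d' * (b * b') = d * (d' * b) * b' := by group
          _ = d * (b * d') * b' := by rw [this]
          _ = d * b * (d' * b') := by group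
      inv_mem' := by
        rintro _ ⟨d, hd, b, hb, rfl⟩
        refine ⟨d⁻¹, D.inv_mem hd, b⁻¹, B.inv_mem hb, ?_⟩
        rw [mul_inv_rev]
        exact hc _ (D.inv_mem hd) _ (B.inv_mem hb) }
  have h1 : T ≤ P := by
    rw [← h.2.2.2.2]
    refine sup_le (fun d hd => ⟨d, hd, 1, B.one_mem, by rw [mul_one]⟩) (fun b hb => ⟨1, D.one_mem, b, hb, by rw [one_mul]⟩)
  exact h1 ht

theorem card_prod_le {T D B : Subgroup X} (h : Cfsg.IsInternalDirectProduct D B T) :
    Nat.card T ≤ Nat.card D * Nat.card B := by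
  have hm := fun t : T => mem_prod h t.2
  choose d hd b hb hdb using hm
  let f : T → D × B := fun t => (⟨d t, hd t⟩, ⟨b t, hb t⟩)
  have hf : Function.Injective f := by
    intro x y hxy
    have h1 : d x = d y := congrArg (fun w : D × B => (w.1 : X)) hxy
    have h2 : b x = b y := congrArg (fun w : D × B => (w.2 : X)) hxy
    exact Subtype.ext (by rw [← hdb x, ← hdb y, h1, h2])
  have h1 := Nat.card_le_card_of_injective f hf
  rwa [Nat.card_prod] at h1

theorem r4_of_nonab (hX : IsPGroup 2 X) {T D B : Subgroup X} (h : Cond T B) (hp : Cfsg.IsInternalDirectProduct D B T)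
    (hBc : ∀ a ∈ B, ∀ b ∈ B, a * b = b * a) (hBs : ∀ a ∈ B, a * a = 1) (r s : D)
    (hcard : Nat.card D = 2 * orderOf r) (hrs : s * r ≠ r * s)
    (hcent : ∀ i : ℤ, s * r ^ i = r ^ i * s → r ^ i * r ^ i = 1) : R4 X := by
  obtain ⟨hz1, hz2⟩ := center_small r s hcard hrs hcent
  have hc := hp.2.2.1
  have hBZ : ∀ b ∈ B, ∀ t ∈ T, t * b = b * t := by
    intro b hb t ht
    obtain ⟨d, hd, b', hb', rfl⟩ := mem_prod hp ht
    rw [mul_assoc, hBc b' hb' b hb, ← mul_assoc, hc d hd b hb, mul_assoc]
  -- elements of the centre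
  have hZd : ∀ z ∈ T ⊓ centralizer (T : Set X), ∃ d : center D, ∃ b : B, ((d : D) : X) * b = z := by
    rintro z ⟨hzT, hzc⟩
    have hzc' := mem_centralizer_iff.1 hzc
    obtain ⟨d, hd, b, hb, rfl⟩ := mem_prod hp hzT
    refine ⟨⟨⟨d, hd⟩, mem_center_iff.2 fun d' => Subtype.ext ?_⟩, ⟨b, hb⟩, rfl⟩
    show (d' : X) * d = d * d'
    have h1 := hzc' d' (hp.1 d'.2)
    have h2 := hc d' d'.2 b hb
    have h3 : (d' : X) * d * b = d * d' * b := by
      calc (d' : X) * d * b = d' * (d * b) := by group
        _ = d * b * d' := h1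
        _ = d * (b * d') := by group
        _ = d * (d' * b) := by rw [h2]
        _ = d * d' * b := by group
    exact mul_right_cancel h3
  have hZ8 : Nat.card ↥(T ⊓ centralizer (T : Set X)) ≤ 8 := by
    have hm := fun t : ↥(T ⊓ centralizer (T : Set X)) => hZd t t.2
    choose d b hdb using hm
    let f : ↥(T ⊓ centralizer (T : Set X)) → (center D) × B := fun t => (d t, b t)
    have hf : Function.Injective f := by
      intro x y hxy
      have h1 : d x = d y := congrArg (fun w : (center D) × B => w.1) hxy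
      have h2 : b x = b y := congrArg (fun w : (center D) × B => w.2) hxy
      exact Subtype.ext (by rw [← hdb x, ← hdb y, h1, h2])
    have h1 := Nat.card_le_card_of_injective f hf
    rw [Nat.card_prod, h.card] at h1
    omega
  have hsq : ∀ z ∈ T ⊓ centralizer (T : Set X), z * z = 1 := by
    intro z hz
    obtain ⟨d, b, rfl⟩ := hZd z hz
    have h1 : ((d : D) : X) * (d : D) = 1 := congrArg Subtype.val (hz1 d d.2)
    have h2 := hc _ (d : D).2 _ b.2
    calc ((d : D) : X) * b * (((d : D) : X) * b) = d * (b * ((d : D) : X)) * b := by group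
      _ = d * (((d : D) : X) * b) * b := by rw [h2]
      _ = (((d : D) : X) * (d : D)) * (b * b) := by group
      _ = 1 := by rw [h1, hBs b b.2, one_mul]
  have hT : T = ⊤ := h.eq_top hX (Z := T ⊓ centralizer (T : Set X))
    (fun z => ⟨fun hz => ⟨hz.1, fun t ht => mem_centralizer_iff.1 hz.2 t ht⟩,
      fun hz => ⟨hz.1, mem_centralizer_iff.2 fun t ht => hz.2 t ht⟩⟩)
    (fun b hb => ⟨h.le hb, mem_centralizer_iff.2 fun t ht => hBZ b hb t ht⟩) hZ8 hsq
  refine r4_of_cyclic (r : X) ?_
  have h1 := card_prod_le hp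
  rw [hT, Subgroup.card_top, h.card, hcard] at h1
  have h2 := (zpowers (r : X)).card_mul_index
  rw [Nat.card_zpowers, Subgroup.orderOf_coe] at h2
  have h3 : orderOf r * (zpowers (r : X)).index ≤ orderOf r * 8 := by rw [h2]; omega
  exact Nat.le_of_mul_le_mul_left h3 (orderOf_pos r)

end Cfsg.Agent.Fus.HD
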