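import Cfsg.Agent.Fus.HD1
set_option autoImplicit false
set_option linter.unusedSectionVars false
set_option linter.unusedVariables false

/-!
# 2-groups with a four-group `B` whose involutions have centralizer `E₁₆` (helper85)
-/

namespace Cfsg.Agent.Fus.HD

open Subgroup
open scoped Pointwise
open Cfsg.Agent.H20.Har (R4)

variable {X : Type*} [Group X] [Finite X]

/-- conjugate subgroup -/
def cj (g : X) (T : Subgroup X) : Subgroup X := T.map (MulAut.conj g).toMonoidHom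

theorem mem_cj {g x : X} {T : Subgroup X} : x ∈ cj g T ↔ ∃ t ∈ T, g * t * g⁻¹ = x := by
  rw [cj, mem_map]; rfl

theorem mem_cj' {g x : X} {T : Subgroup X} : x ∈ cj g T ↔ g⁻¹ * x * g ∈ T := by
  rw [mem_cj]
  constructor
  · rintro ⟨t, ht, rfl⟩
    have : g⁻¹ * (g * t * g⁻¹) * g = t := by group
    rwa [this]
  · intro h
    exact ⟨_, h, by group⟩

theorem conj_mem_cj {g t : X} {T : Subgroup X} (ht : t ∈ T) : g * t * g⁻¹ ∈ cj g T := mem_cj.2 ⟨t, ht, rfl⟩

theorem card_cj {g : X} {T : Subgroup X} : Nat.card (cj g T) = Nat.card T :=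
  card_map_of_injective (MulAut.conj g).injective

theorem cj_eq_self_iff {g : X} {T : Subgroup X} : cj g T = T ↔ g ∈ normalizer (T : Set X) := by
  constructor
  · intro h
    rw [mem_normalizer_iff]
    intro t
    refine ⟨fun ht => by rw [← h]; exact conj_mem_cj ht, fun ht => ?_⟩
    have ht' : g * t * g⁻¹ ∈ cj g T := by rw [h]; exact ht
    have h2 := mem_cj'.1 ht'
    have e1 : g⁻¹ * (g * t * g⁻¹) * g = t := by group
    rwa [e1] at h2
  · intro h
    refine Subgroup.eq_of_le_of_card_ge ?_ card_cj.ge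
    intro x hx
    obtain ⟨t, ht, rfl⟩ := mem_cj.1 hx
    exact (mem_normalizer_iff.1 h t).1 ht

theorem Cond.cj {T B : Subgroup X} (h : Cond T B) (g : X) : Cond (cj g T) (HD.cj g B) := by
  refine ⟨fun x hx => ?_, by rw [card_cj]; exact h.card, fun b hb hb1 y hy => ?_⟩
  · exact mem_cj'.2 (h.le (mem_cj'.1 hx))
  · rw [mem_cj'] at hb ⊢
    refine h.cent _ hb (fun h0 => hb1 ?_) _ ?_
    · have : b = g * (g⁻¹ * b * g) * g⁻¹ := by group
      rw [this, h0]; group
    · calc g⁻¹ * y * g * (g⁻¹ * b * g) = g⁻¹ * (y * b) * g := by group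
        _ = g⁻¹ * (b * y) * g := by rw [hy]
        _ = g⁻¹ * b * g * (g⁻¹ * y * g) := by group

/-- elementary abelian of order 16 -/
structure E16 (T : Subgroup X) : Prop where
  comm : ∀ a ∈ T, ∀ b ∈ T, a * b = b * a
  sq : ∀ a ∈ T, a * a = 1
  card : Nat.card T = 16

theorem E16.cj {T : Subgroup X} (h : E16 T) (g : X) : E16 (HD.cj g T) := by
  refine ⟨fun a ha b hb => ?_, fun a ha => ?_, by rw [card_cj]; exact h.card⟩
  · obtain ⟨a', ha', rfl⟩ := mem_cj.1 ha
    obtain ⟨b', hb', rfl⟩ := mem_cj.1 hb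
    calc g * a' * g⁻¹ * (g * b' * g⁻¹) = g * (a' * b') * g⁻¹ := by group
      _ = g * (b' * a') * g⁻¹ := by rw [h.comm a' ha' b' hb']
      _ = g * b' * g⁻¹ * (g * a' * g⁻¹) := by group
  · obtain ⟨a', ha', rfl⟩ := mem_cj.1 ha
    calc g * a' * g⁻¹ * (g * a' * g⁻¹) = g * (a' * a') * g⁻¹ := by group
      _ = 1 := by rw [h.sq a' ha']; group

/-- a subgroup in the union of two subgroups -/
theorem le_or_le {A T U : Subgroup X} (h : ∀ a ∈ A, a ∈ T ∨ a ∈ U) : A ≤ T ∨ A ≤ U := by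
  by_contra hn
  push_neg at hn
  obtain ⟨a, ha, haT⟩ := SetLike.not_le_iff_exists.1 hn.1
  obtain ⟨c, hc, hcU⟩ := SetLike.not_le_iff_exists.1 hn.2
  have haU := (h a ha).resolve_left haT
  have hcT := (h c hc).resolve_right hcU
  rcases h _ (A.mul_mem ha hc) with h1 | h1
  · apply haT
    have := T.mul_mem h1 (T.inv_mem hcT)
    rwa [mul_inv_cancel_right] at this
  · apply hcU
    have := U.mul_mem (U.inv_mem haU) h1
    rwa [inv_mul_cancel_left] at this

variable {T B : Subgroup X}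

/-- `|C_T(y)| ≤ 4` -/
theorem cen4 (h : Cond T B) (hT : E16 T) {y : X} (hyT : y ∉ T) (hyN : y ∈ normalizer (T : Set X)) (hy2 : y * y ∈ T) :
    Nat.card ↥(T ⊓ centralizer {y}) ≤ 4 := by
  have h1 := h.lemA h.le hT.comm hT.sq (y := y) (fun e he => (mem_normalizer_iff.1 hyN e).1 he)
    (fun e he => hT.comm _ hy2 e he) hyT
  have h2 := h1.2
  rw [hT.card] at h2
  omega

theorem card_dvd_pow (hX : IsPGroup 2 X) (K : Subgroup X) : ∃ k : ℕ, Nat.card K = 2 ^ k := by
  have : Fact (Nat.Prime 2) := ⟨Nat.prime_two⟩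
  exact IsPGroup.iff_card.1 (hX.to_subgroup K)

theorem card_le_of_lt (hX : IsPGroup 2 X) (K : Subgroup X) {n : ℕ} (h : Nat.card K < 2 ^ (n + 1)) : Nat.card K ≤ 2 ^ n := by
  obtain ⟨k, hk⟩ := card_dvd_pow hX K
  rw [hk] at h ⊢
  exact Nat.pow_le_pow_right two_pos (Nat.lt_succ_iff.1 ((Nat.pow_lt_pow_iff_right (by norm_num)).1 h))

/-- `|N(T)| ≤ 64` -/
theorem card_norm (hX : IsPGroup 2 X) (h : Cond T B) (hT : E16 T) : Nat.card (normalizer (T : Set X)) ≤ 64 := by
  have : Fact (Nat.Prime 2) := ⟨Nat.prime_two⟩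
  set N := normalizer (T : Set X) with hN
  have hTN : T ≤ N := le_normalizer
  have hn : (T.subgroupOf N).Normal := Subgroup.normal_in_normalizer
  have hc : Nat.card (T.subgroupOf N) = 16 := by rw [Nat.card_congr (Subgroup.subgroupOfEquivOfLe hTN).toEquiv, hT.card]
  obtain ⟨M, hMn, hMT, hMc⟩ := Cfsg.Agent.H23.exists_normal_le_card_eq (hX.to_subgroup N) hn 3 (by rw [hc]; norm_num)
  have hHc : Nat.card (M.map N.subtype) = 8 := by
    rw [card_map_of_injective N.subtype_injective, hMc]; norm_num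
  have hHT : M.map N.subtype ≤ T := by
    rintro _ ⟨x, hx, rfl⟩
    exact hMT hx
  have hHn : ∀ g ∈ N, ∀ x ∈ M.map N.subtype, g * x * g⁻¹ ∈ M.map N.subtype := by
    rintro g hg _ ⟨x, hx, rfl⟩
    exact ⟨⟨g, hg⟩ * x * ⟨g, hg⟩⁻¹, hMn.conj_mem x hx _, rfl⟩
  set H := M.map N.subtype with hH
  have h1 := Cfsg.Agent.H63.card_mul_card_le B H T h.le hHT
  rw [h.card, hHc, hT.card] at h1
  have h2 : 1 < Nat.card ↥(B ⊓ H) := by omega
  obtain ⟨b, hb, hb1⟩ : ∃ b ∈ B ⊓ H, b ≠ 1 := by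
    by_contra hcon
    push_neg at hcon
    have : B ⊓ H = ⊥ := (Subgroup.eq_bot_iff_forall _).2 hcon
    rw [this, Subgroup.card_bot] at h2
    exact lt_irrefl _ h2
  -- orbit of `b`
  have h3 := card_le_fib (L := N) (C := T) (M := {x : H // x ≠ 1})
    (fun l => ⟨⟨(l : X) * b * (l : X)⁻¹, hHn l l.2 b hb.2⟩, fun h0 => hb1 (by
      have h4 : (l : X) * b * (l : X)⁻¹ = 1 := congrArg Subtype.val h0
      have h5 : b = (l : X)⁻¹ * ((l : X) * b * (l : X)⁻¹) * l := by group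
      rw [h5, h4]; group)⟩)
    (fun l l' hll => by
      have h4 : (l : X) * b * (l : X)⁻¹ = l' * b * (l' : X)⁻¹ := congrArg (fun w => (w.1 : X)) hll
      refine h.cent b hb.1 hb1 _ ?_
      calc (l' : X)⁻¹ * l * b = (l' : X)⁻¹ * (l * b * (l : X)⁻¹) * l := by group
        _ = (l' : X)⁻¹ * (l' * b * (l' : X)⁻¹) * l := by rw [h4]
        _ = b * ((l' : X)⁻¹ * l) := by group)
  have h4 : Nat.card {x : H // x ≠ 1} = 7 := by
    classical
    have hft : Fintype H := Fintype.ofFinite _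
    rw [Nat.card_eq_fintype_card, Fintype.card_subtype_compl, Fintype.card_subtype_eq, ← Nat.card_eq_fintype_card, hHc]
  rw [h4, hT.card] at h3
  have h5 := card_le_of_lt hX N (n := 6) (by norm_num; omega)
  norm_num at h5
  exact h5

/-- the structure of the normalizer of the normalizer -/
structure Two (T T' N : Subgroup X) : Prop where
  eT : E16 T
  eT' : E16 T'
  ne : T' ≠ T
  norm : N = normalizer (T : Set X)
  le : T ≤ N
  le' : T' ≤ N
  card : Nat.card N = 64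
  inf : Nat.card ↥(T ⊓ T') = 4
  inv : ∀ w ∈ N, w * w = 1 → w ∈ T ∨ w ∈ T'
  mul : ∀ w ∈ N, ∃ t ∈ T, ∃ u ∈ T', t * u = w

theorem exists_two (hX : IsPGroup 2 X) (h : Cond T B) (hT : E16 T) {g : X}
    (hg : g ∈ normalizer (normalizer (T : Set X) : Set X)) (hgN : g ∉ normalizer (T : Set X)) :
    Two T (cj g T) (normalizer (T : Set X)) := by
  have hN64 := card_norm hX h hT
  set N := normalizer (T : Set X) with hN
  have hTN : T ≤ N := le_normalizer
  have hT2 := hT.cj g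
  have hne : HD.cj g T ≠ T := fun h0 => hgN (cj_eq_self_iff.1 h0)
  have hT2N : HD.cj g T ≤ N := by
    intro x hx
    obtain ⟨t, ht, rfl⟩ := mem_cj.1 hx
    exact (mem_normalizer_iff.1 hg t).1 (hTN ht)
  set T2 := HD.cj g T with hT2d
  have hex : ∀ u ∈ T2, u ∉ T → Nat.card ↥(T ⊓ centralizer {u}) ≤ 4 := fun u hu huT =>
    cen4 h hT huT (hT2N hu) (by rw [hT2.sq u hu]; exact T.one_mem)
  have hle : ∀ u ∈ T2, T ⊓ T2 ≤ T ⊓ centralizer {u} := fun u hu x hx =>
    ⟨hx.1, mem_centralizer_singleton_iff.2 (hT2.comm _ hx.2 _ hu)⟩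
  obtain ⟨u, hu, huT⟩ : ∃ u ∈ T2, u ∉ T := by
    by_contra hcon
    push_neg at hcon
    exact hne (Subgroup.eq_of_le_of_card_ge hcon (by rw [hT.card, hT2.card]))
  have h4 : Nat.card ↥(T ⊓ T2) ≤ 4 :=
    (Nat.card_le_card_of_injective _ (Subgroup.inclusion_injective (hle u hu))).trans (hex u hu huT)
  have h5 := Cfsg.Agent.H63.card_mul_card_le T T2 N hTN hT2N
  rw [hT.card, hT2.card] at h5
  have hc64 : Nat.card N = 64 := by
    by_contra h0
    have : Nat.card N < 64 := lt_of_le_of_ne hN64 h0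
    nlinarith
  have hc4 : Nat.card ↥(T ⊓ T2) = 4 := by rw [hc64] at h5; omega
  have hmul : ∀ w ∈ N, ∃ t ∈ T, ∃ u ∈ T2, t * u = w := by
    intro w hw
    have h6 := Cfsg.Agent.H63.mul_eq_of_card_eq T T2 N hTN hT2N (by rw [hc64, hc4, hT.card, hT2.card])
    have h7 : w ∈ ((T : Set X) * (T2 : Set X) : Set X) := by rw [h6]; exact hw
    obtain ⟨t, ht, u, hu, htu⟩ := Set.mem_mul.1 h7
    exact ⟨t, ht, u, hu, htu⟩
  refine ⟨hT, hT2, hne, hN, hTN, hT2N, hc64, hc4, fun w hw hw2 => ?_, hmul⟩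
  obtain ⟨t, ht, u, hu, rfl⟩ := hmul w hw
  by_cases huT : u ∈ T
  · exact Or.inl (T.mul_mem ht huT)
  · right
    have h6 : t * u = u * t := by
      have h7 : (t * u)⁻¹ = t * u := inv_eq_of_mul_eq_one_left hw2
      rw [mul_inv_rev, inv_eq_of_mul_eq_one_left (hT.sq t ht), inv_eq_of_mul_eq_one_left (hT2.sq u hu)] at h7
      exact h7.symm
    have h8 : T ⊓ T2 = T ⊓ centralizer {u} := Subgroup.eq_of_le_of_card_ge (hle u hu) (by rw [hc4]; exact hex u hu huT)
    have h9 : t ∈ T ⊓ T2 := by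
      rw [h8]
      exact ⟨ht, mem_centralizer_singleton_iff.2 h6⟩
    exact T2.mul_mem h9.2 hu

namespace Two

variable {T' N : Subgroup X} (H : Two T T' N)
include H

theorem eq_or {A : Subgroup X} (hA : E16 A) (hAN : A ≤ N) : A = T ∨ A = T' := by
  rcases le_or_le (A := A) (T := T) (U := T') fun a ha => H.inv a (hAN ha) (hA.sq a ha) with h | h
  · exact Or.inl (Subgroup.eq_of_le_of_card_ge h (by rw [hA.card, H.eT.card]))
  · exact Or.inr (Subgroup.eq_of_le_of_card_ge h (by rw [hA.card, H.eT'.card]))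

theorem cj_le {g : X} (hg : g ∈ normalizer (N : Set X)) {A : Subgroup X} (hA : A ≤ N) : cj g A ≤ N := by
  intro x hx
  obtain ⟨t, ht, rfl⟩ := mem_cj.1 hx
  exact (mem_normalizer_iff.1 hg t).1 (hA ht)

theorem card_le : Nat.card (normalizer (N : Set X)) ≤ 128 := by
  classical
  have h1 := card_le_fib (L := normalizer (N : Set X)) (C := N) (M := Bool)
    (fun l => decide (cj (l : X) T = T)) (fun l l' hll => by
      have h2 := H.eq_or (H.eT.cj (l : X)) (H.cj_le l.2 H.le)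
      have h3 := H.eq_or (H.eT.cj (l' : X)) (H.cj_le l'.2 H.le)
      have h4 : cj (l : X) T = cj (l' : X) T := by
        rcases h2 with h2 | h2 <;> rcases h3 with h3 | h3
        · rw [h2, h3]
        · rw [h2, h3] at hll
          simp [H.ne] at hll
        · rw [h2, h3] at hll
          simp [H.ne] at hll
        · rw [h2, h3]
      have hgoal : (l' : X)⁻¹ * l ∈ normalizer (T : Set X) ↔ (l' : X)⁻¹ * l ∈ N := by rw [← H.norm]
      rw [← hgoal, ← cj_eq_self_iff]
      refine Subgroup.eq_of_le_of_card_ge (fun x hx => ?_) card_cj.ge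
      rw [mem_cj'] at hx
      have h5 : (l' : X) * x * (l' : X)⁻¹ ∈ cj (l : X) T := by
        rw [mem_cj']
        have e1 : (l : X)⁻¹ * ((l' : X) * x * (l' : X)⁻¹) * l = ((l' : X)⁻¹ * l)⁻¹ * x * ((l' : X)⁻¹ * l) := by group
        rwa [e1]
      rw [h4, mem_cj'] at h5
      have e2 : (l' : X)⁻¹ * ((l' : X) * x * (l' : X)⁻¹) * l' = x := by group
      rwa [e2] at h5)
  rw [H.card, Nat.card_eq_fintype_card (α := Bool), Fintype.card_bool] at h1
  exact h1

theorem norm_top (hX : IsPGroup 2 X) : normalizer (N : Set X) = ⊤ := by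
  have : Fact (Nat.Prime 2) := ⟨Nat.prime_two⟩
  by_contra hne
  have hnil : Group.IsNilpotent X := hX.isNilpotent
  have h1 := Group.normalizerCondition_of_isNilpotent _ (lt_top_iff_ne_top.2 hne)
  obtain ⟨h, hh, hhM⟩ := SetLike.exists_of_lt h1
  set M := normalizer (N : Set X) with hM
  have hNM : N ≤ M := le_normalizer
  have hle : ∀ A : Subgroup X, A ≤ N → cj h A ≤ M := by
    intro A hA x hx
    obtain ⟨t, ht, rfl⟩ := mem_cj.1 hx
    exact (mem_normalizer_iff.1 hh t).1 (hNM (hA ht))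
  obtain ⟨A, hA, hAM, hAN⟩ : ∃ A : Subgroup X, E16 A ∧ A ≤ M ∧ ¬ A ≤ N := by
    by_contra hcon
    push_neg at hcon
    have h2 := hcon _ (H.eT.cj h) (hle _ H.le)
    have h3 := hcon _ (H.eT'.cj h) (hle _ H.le')
    apply hhM
    rw [hM, ← cj_eq_self_iff]
    refine Subgroup.eq_of_le_of_card_ge (fun x hx => ?_) card_cj.ge
    obtain ⟨w, hw, rfl⟩ := mem_cj.1 hx
    obtain ⟨t, ht, u, hu, rfl⟩ := H.mul w hw
    have e1 : h * (t * u) * h⁻¹ = (h * t * h⁻¹) * (h * u * h⁻¹) := by group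
    rw [e1]
    exact N.mul_mem (h2 (conj_mem_cj ht)) (h3 (conj_mem_cj hu))
  have h2 := Cfsg.Agent.H63.card_mul_card_le A N M hAM hNM
  rw [hA.card, H.card] at h2
  have h3 := H.card_le
  rw [← hM] at h3
  have h4 : 8 ≤ Nat.card ↥(A ⊓ N) := by nlinarith [Nat.card_pos (α := ↥(A ⊓ N))]
  obtain ⟨a, ha, haN⟩ := SetLike.not_le_iff_exists.1 hAN
  have haM := hAM ha
  have haT : cj a T = T' := (H.eq_or (H.eT.cj a) (H.cj_le haM H.le)).resolve_left fun h0 => haN (by
    rw [H.norm]; exact cj_eq_self_iff.1 h0)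
  have haT' : cj a T' = T := (H.eq_or (H.eT'.cj a) (H.cj_le haM H.le')).resolve_right fun h0 => H.ne (by
    have h5 : cj a T' = cj a T := by rw [h0, haT]
    refine Subgroup.eq_of_le_of_card_ge (fun x hx => ?_) (by rw [H.eT.card, H.eT'.card])
    have h6 : a * x * a⁻¹ ∈ cj a T' := conj_mem_cj hx
    rw [h5, mem_cj'] at h6
    have e1 : a⁻¹ * (a * x * a⁻¹) * a = x := by group
    rwa [e1] at h6)
  have h5 : A ⊓ N ≤ T ⊓ T' := by
    have hfix : ∀ x ∈ A ⊓ N, a * x * a⁻¹ = x := fun x hx => by rw [hA.comm a ha x hx.1]; group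
    rcases le_or_le (A := A ⊓ N) (T := T) (U := T') fun x hx => H.inv x hx.2 (hA.sq x hx.1) with h6 | h6
    · intro x hx
      refine ⟨h6 hx, ?_⟩
      rw [← haT, ← hfix x hx]
      exact conj_mem_cj (h6 hx)
    · intro x hx
      refine ⟨?_, h6 hx⟩
      have h7 : a * x * a⁻¹ ∈ cj a T' := conj_mem_cj (h6 hx)
      rw [haT', hfix x hx] at h7
      exact h7
  have h6 := Nat.card_le_card_of_injective _ (Subgroup.inclusion_injective h5)
  rw [H.inf] at h6
  omega

end Two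

/-- `|L ∩ T| ≤ 4` if `L` contains no involution of `B` -/
theorem inf_le4 (h : Cond T B) (hT : E16 T) {L : Subgroup X} (hL : ∀ b ∈ B, b ≠ 1 → b ∉ L) : Nat.card ↥(L ⊓ T) ≤ 4 := by
  have h1 := Cfsg.Agent.H63.card_mul_card_le (L ⊓ T) B T inf_le_right h.le
  have h2 : (L ⊓ T) ⊓ B = ⊥ := by
    rw [Subgroup.eq_bot_iff_forall]
    intro x hx
    by_contra h0
    exact hL x hx.2 h0 hx.1.1
  rw [h2, Subgroup.card_bot, h.card, hT.card] at h1
  omega

theorem r4_of_e16 (hX : IsPGroup 2 X) (h : Cond T B) (hT : E16 T) : R4 X := by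
  intro L N₀ hNL hc hs
  by_contra hcon
  push_neg at hcon
  have hpos : 0 < Nat.card N₀ := Nat.card_pos
  -- `L` contains no conjugates of the involutions of `B`
  have hno : ∀ g : X, ∀ b ∈ cj g B, b ≠ 1 → b ∉ L := by
    intro g b hb hb1 hbL
    have h1 := card_le_cent (C := cj g T) hc hbL ((h.cj g).cent b hb hb1)
    rw [card_cj, hT.card] at h1
    omega
  have hLT : Nat.card ↥(L ⊓ T) ≤ 4 := inf_le4 h hT fun b hb => hno 1 b (mem_cj.2 ⟨b, hb, by group⟩)
  have h1 := Cfsg.Agent.H63.card_mul_card_le L T ⊤ le_top le_top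
  rw [Subgroup.card_top, hT.card] at h1
  by_cases htop : normalizer (T : Set X) = ⊤
  · have h2 := card_norm hX h hT
    rw [htop, Subgroup.card_top] at h2
    have h3 : Nat.card X * Nat.card ↥(L ⊓ T) ≤ 64 * 4 := Nat.mul_le_mul h2 hLT
    omega
  have : Fact (Nat.Prime 2) := ⟨Nat.prime_two⟩
  have hnil : Group.IsNilpotent X := hX.isNilpotent
  obtain ⟨g, hg, hgN⟩ := SetLike.exists_of_lt (Group.normalizerCondition_of_isNilpotent _ (lt_top_iff_ne_top.2 htop))
  have H := exists_two hX h hT hg hgN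
  have hM := H.norm_top hX
  have hcard := H.card_le
  rw [hM, Subgroup.card_top] at hcard
  have h3 : Nat.card X * Nat.card ↥(L ⊓ T) ≤ 128 * 4 := Nat.mul_le_mul hcard hLT
  have h4 : Nat.card N₀ = 1 := by omega
  have hN1 : N₀ = ⊥ := Subgroup.card_eq_one.1 h4
  have hsq : ∀ x ∈ L, x * x = 1 := fun x hx => by
    have := hs x hx
    rwa [hN1, Subgroup.mem_bot] at this
  have h5 := Cfsg.Agent.H63.card_mul_card_le L (normalizer (T : Set X)) ⊤ le_top le_top
  rw [Subgroup.card_top, H.card] at h5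
  have h6 : 8 < Nat.card ↥(L ⊓ normalizer (T : Set X)) := by
    by_contra h7
    push_neg at h7
    have h8 : Nat.card X * Nat.card ↥(L ⊓ normalizer (T : Set X)) ≤ 128 * 8 := Nat.mul_le_mul hcard h7
    omega
  have hLT' : Nat.card ↥(L ⊓ cj g T) ≤ 4 := inf_le4 (h.cj g) (hT.cj g) (hno g)
  rcases le_or_le (A := L ⊓ normalizer (T : Set X)) (T := T) (U := cj g T) fun x hx => H.inv x hx.2 (hsq x hx.1) with h7 | h7
  · have h8 : L ⊓ normalizer (T : Set X) ≤ L ⊓ T := le_inf inf_le_left h7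
    have h9 := Nat.card_le_card_of_injective _ (Subgroup.inclusion_injective h8)
    omega
  · have h8 : L ⊓ normalizer (T : Set X) ≤ L ⊓ cj g T := le_inf inf_le_left h7
    have h9 := Nat.card_le_card_of_injective _ (Subgroup.inclusion_injective h8)
    omega

end Cfsg.Agent.Fus.HD
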