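import Cfsg.Agent.Fus.HD2
import Cfsg.Agent.Fus.HD3
import Cfsg.Agent.H73.Sec2
set_option autoImplicit false
set_option linter.unusedSectionVars false
set_option linter.unusedVariables false

/-!
# Sylow 2-subgroups containing `D × B`: all elementary abelian sections have order at most 16 (helper85)
-/

namespace Cfsg.Agent.Fus.HD

open Subgroup
open Cfsg.Agent.H20.Har (R4)

/-- what is needed of `D` -/
def DD (D : Type*) [Group D] : Prop :=
  (∃ r s : D, Nat.card D = 2 * orderOf r ∧ s * r ≠ r * s ∧ ∀ i : ℤ, s * r ^ i = r ^ i * s → r ^ i * r ^ i = 1) ∨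
  (Nat.card D = 4 ∧ (∀ a b : D, a * b = b * a) ∧ ∀ a : D, a * a = 1)

theorem DD.transport {D E : Type*} [Group D] [Group E] (e : D ≃* E) (h : DD D) : DD E := by
  rcases h with ⟨r, s, h1, h2, h3⟩ | ⟨h1, h2, h3⟩
  · left
    refine ⟨e r, e s, ?_, fun h0 => h2 ?_, fun i hi => ?_⟩
    · rw [← Nat.card_congr e.toEquiv, h1, MulEquiv.orderOf_eq]
    · rw [← map_mul, ← map_mul] at h0
      exact e.injective h0
    · rw [← map_zpow, ← map_mul, ← map_mul] at hi
      rw [← map_zpow, ← map_mul, h3 i (e.injective hi), map_one]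
  · right
    refine ⟨by rw [← Nat.card_congr e.toEquiv, h1], fun a b => ?_, fun a => ?_⟩
    · have := congrArg e (h2 (e.symm a) (e.symm b))
      simpa using this
    · have := congrArg e (h3 (e.symm a))
      simpa using this

theorem DD.dihedral {m : ℕ} (hm : 2 ≤ m) : DD (DihedralGroup m) := by
  rcases hm.eq_or_lt with rfl | hm
  · right
    refine ⟨by rw [DihedralGroup.nat_card], by decide, by decide⟩
  · left
    refine ⟨DihedralGroup.r 1, DihedralGroup.sr 0, ?_, fun h0 => ?_, fun i hi => ?_⟩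
    · rw [DihedralGroup.nat_card, DihedralGroup.orderOf_r_one]
    · rw [DihedralGroup.sr_mul_r, DihedralGroup.r_mul_sr] at h0
      have h1 : (0 + 1 : ZMod m) = 0 - 1 := DihedralGroup.sr.inj h0
      have h2 : ((2 : ℕ) : ZMod m) = 0 := by
        push_cast
        linear_combination h1
      rw [ZMod.natCast_eq_zero_iff] at h2
      have := Nat.le_of_dvd two_pos h2
      omega
    · have h1 : (DihedralGroup.r 1 : DihedralGroup m) ^ i = DihedralGroup.r (i : ZMod m) := by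
        rw [DihedralGroup.r_zpow]; simp
      rw [h1] at hi ⊢
      rw [DihedralGroup.sr_mul_r, DihedralGroup.r_mul_sr] at hi
      have h2 : (0 + (i : ZMod m)) = 0 - i := DihedralGroup.sr.inj hi
      rw [DihedralGroup.r_mul_r, ← DihedralGroup.r_zero]
      congr 1
      linear_combination h2

theorem DD.quasi {D : Type*} [Group D] (h : Cfsg.IsQuasiDihedral D) : DD D := by
  obtain ⟨n, hn, hc, x, y, hx, hy, hxy⟩ := h
  left
  have key : ∀ i : ℤ, y * x ^ i = x ^ i * y → x ^ i * x ^ i = 1 := by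
    intro i hi
    have h1 : y * x ^ i * y⁻¹ = (x ^ (2 ^ (n - 1) - 1)) ^ i := by
      rw [← hxy, conj_zpow]
    have h2 : y * x ^ i * y⁻¹ = x ^ i := by rw [hi]; group
    rw [h2, ← zpow_natCast, ← zpow_mul] at h1
    have h3 : x ^ ((((2 ^ (n - 1) - 1 : ℕ) : ℤ)) * i - i) = 1 := by
      rw [zpow_sub, ← h1, mul_inv_cancel]
    rw [← orderOf_dvd_iff_zpow_eq_one, hx] at h3
    obtain ⟨k, rfl⟩ := Nat.exists_eq_add_of_le' hn
    have e1 : k + 3 - 1 = k + 2 := rfl
    rw [e1] at h3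
    have h4 : (((2 ^ (k + 2) - 1 : ℕ) : ℤ)) = 2 ^ (k + 2) - 1 := by
      rw [Nat.cast_sub Nat.one_le_two_pow]; push_cast; ring
    rw [h4] at h3
    have h5 : (2 * 2 ^ (k + 2) : ℤ) ∣ 2 * ((2 ^ (k + 1) - 1) * i) := by
      have e2 : ((2 ^ (k + 3) : ℕ) : ℤ) = 2 * 2 ^ (k + 2) := by push_cast; ring
      rw [e2] at h3
      have e3 : (2 ^ (k + 2) - 1) * i - i = 2 * ((2 ^ (k + 1) - 1) * i) := by ring
      rwa [e3] at h3
    have h6 : (2 ^ (k + 2) : ℤ) ∣ (2 ^ (k + 1) - 1) * i := (mul_dvd_mul_iff_left (by norm_num)).1 h5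
    have h7 : IsCoprime (2 ^ (k + 2) : ℤ) (2 ^ (k + 1) - 1) := by
      refine IsCoprime.pow_left ?_
      exact ⟨2 ^ k, -1, by ring⟩
    have h8 := h7.dvd_of_dvd_mul_left h6
    obtain ⟨j, rfl⟩ := h8
    rw [← zpow_add, ← orderOf_dvd_iff_zpow_eq_one, hx]
    refine ⟨j, ?_⟩
    push_cast; ring
  refine ⟨x, y, by rw [hc, hx, pow_succ, mul_comm], fun h0 => ?_, key⟩
  have h1 := key 1 (by rw [zpow_one]; exact h0)
  rw [zpow_one, ← pow_two] at h1
  have h2 := Nat.le_of_dvd two_pos (orderOf_dvd_of_pow_eq_one h1)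
  rw [hx] at h2
  have h3 : 2 ^ 3 ≤ 2 ^ n := Nat.pow_le_pow_right two_pos hn
  omega

theorem r4_main {X : Type*} [Group X] [Finite X] (hX : IsPGroup 2 X) {T D B : Subgroup X} (h : Cond T B)
    (hp : Cfsg.IsInternalDirectProduct D B T)
    (hBc : ∀ a ∈ B, ∀ b ∈ B, a * b = b * a) (hBs : ∀ a ∈ B, a * a = 1) (hD : DD D) : R4 X := by
  rcases hD with ⟨r, s, h1, h2, h3⟩ | ⟨h1, h2, h3⟩
  · exact r4_of_nonab hX h hp hBc hBs r s h1 h2 h3
  · have hc := hp.2.2.1
    refine r4_of_e16 hX h ⟨fun a ha b hb => ?_, fun a ha => ?_, ?_⟩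
    · obtain ⟨d, hd, c, hcB, rfl⟩ := mem_prod hp ha
      obtain ⟨d', hd', c', hcB', rfl⟩ := mem_prod hp hb
      have e1 : d * d' = d' * d := congrArg Subtype.val (h2 ⟨d, hd⟩ ⟨d', hd'⟩)
      calc d * c * (d' * c') = d * (c * d') * c' := by group
        _ = d * (d' * c) * c' := by rw [hc d' hd' c hcB]
        _ = (d * d') * (c * c') := by group
        _ = (d' * d) * (c' * c) := by rw [e1, hBc c hcB c' hcB']
        _ = d' * (d * c') * c := by group
        _ = d' * (c' * d) * c := by rw [hc d hd c' hcB']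
        _ = d' * c' * (d * c) := by group
    · obtain ⟨d, hd, c, hcB, rfl⟩ := mem_prod hp ha
      have e1 : d * d = 1 := congrArg Subtype.val (h3 ⟨d, hd⟩)
      calc d * c * (d * c) = d * (c * d) * c := by group
        _ = d * (d * c) * c := by rw [hc d hd c hcB]
        _ = (d * d) * (c * c) := by group
        _ = 1 := by rw [e1, hBs c hcB, one_mul]
    · have e1 := card_prod_le hp
      have e2 := Cfsg.Agent.H63.card_mul_card_le D B T hp.1 hp.2.1
      rw [hp.2.2.2.1, Subgroup.card_bot] at e2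
      rw [h1, h.card] at e1 e2
      omega

variable {G : Type*} [Group G] [Finite G]

theorem on_of_R4 {S : Subgroup G} (h : R4 S) {L N : Subgroup G} (hLS : L ≤ S) (hNL : N ≤ L)
    (hc : ∀ x ∈ L, ∀ y ∈ L, x * y * x⁻¹ * y⁻¹ ∈ N) (hs : ∀ x ∈ L, x * x ∈ N) : Nat.card L ≤ 16 * Nat.card N := by
  have h1 := h (L.subgroupOf S) (N.subgroupOf S) (fun x hx => hNL hx) (fun x hx y hy => hc _ hx _ hy) (fun x hx => hs _ hx)
  rwa [Nat.card_congr (subgroupOfEquivOfLe hLS).toEquiv, Nat.card_congr (subgroupOfEquivOfLe (hNL.trans hLS)).toEquiv] at h1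

theorem on_sylow [Fact (Nat.Prime 2)] {S : Sylow 2 G} (h : R4 S) {L N : Subgroup G} (hL : IsPGroup 2 L) (hNL : N ≤ L)
    (hc : ∀ x ∈ L, ∀ y ∈ L, x * y * x⁻¹ * y⁻¹ ∈ N) (hs : ∀ x ∈ L, x * x ∈ N) : Nat.card L ≤ 16 * Nat.card N := by
  obtain ⟨Q, hQ⟩ := hL.exists_le_sylow
  obtain ⟨g, hg⟩ := MulAction.exists_smul_eq G Q S
  have h1 : cj g L ≤ S := by
    rw [← hg]
    intro x hx
    obtain ⟨t, ht, rfl⟩ := mem_cj.1 hx
    exact ⟨t, hQ ht, rfl⟩
  have h2 := on_of_R4 (L := cj g L) (N := cj g N) h h1 (Subgroup.map_mono hNL) ?_ ?_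
  · rwa [card_cj, card_cj] at h2
  · intro x hx y hy
    obtain ⟨a, ha, rfl⟩ := mem_cj.1 hx
    obtain ⟨b, hb, rfl⟩ := mem_cj.1 hy
    refine mem_cj.2 ⟨_, hc a ha b hb, ?_⟩
    group
  · intro x hx
    obtain ⟨a, ha, rfl⟩ := mem_cj.1 hx
    refine mem_cj.2 ⟨_, hs a ha, ?_⟩
    group

theorem rank_of_sylow [Fact (Nat.Prime 2)] {S : Sylow 2 G} (h : R4 S) : Cfsg.SectionalPRankLE 2 4 G := by
  refine Cfsg.Agent.H73.Sec.intro fun L N hNL hc hs => ?_
  have hnor : (N.subgroupOf L).Normal := by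
    refine ⟨fun n hn g => ?_⟩
    have h1 := hc g g.2 n n.2
    have h2 : (g : G) * n * (g : G)⁻¹ * (n : G)⁻¹ * n ∈ N := N.mul_mem h1 hn
    have e1 : (g : G) * n * (g : G)⁻¹ * (n : G)⁻¹ * n = g * n * (g : G)⁻¹ := by group
    rw [e1] at h2
    exact h2
  have hquo : IsPGroup 2 (L ⧸ N.subgroupOf L) := by
    intro x
    obtain ⟨l, rfl⟩ := QuotientGroup.mk_surjective x
    refine ⟨1, ?_⟩
    rw [← QuotientGroup.mk_pow, QuotientGroup.eq_one_iff, pow_one]
    exact hs l l.2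
  obtain ⟨k, hk⟩ := IsPGroup.iff_card.1 hquo
  obtain ⟨P⟩ : Nonempty (Sylow 2 L) := inferInstance
  have htop : (P : Subgroup L) ⊔ N.subgroupOf L = ⊤ := by
    rw [← Subgroup.index_eq_one]
    have h1 : ((P : Subgroup L) ⊔ N.subgroupOf L).index ∣ (P : Subgroup L).index := Subgroup.index_dvd_of_le le_sup_left
    have h2 : ((P : Subgroup L) ⊔ N.subgroupOf L).index ∣ 2 ^ k := by
      rw [← hk]
      exact Subgroup.index_dvd_of_le le_sup_right
    have h3 : ¬ 2 ∣ (P : Subgroup L).index := P.not_dvd_index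
    obtain ⟨j, -, hj⟩ := (Nat.dvd_prime_pow Nat.prime_two).1 h2
    rw [hj] at h1 ⊢
    rcases Nat.eq_zero_or_pos j with rfl | hj0
    · rfl
    · exact absurd ((dvd_pow_self 2 hj0.ne').trans h1) h3
  have h1 : N.relIndex L = (N.subgroupOf L).relIndex (P : Subgroup L) := by
    have e := Subgroup.relIndex_sup_right (P : Subgroup L) (N.subgroupOf L)
    rw [← e, htop, Subgroup.relIndex_top_right]
    rfl
  rw [h1]
  set P₁ : Subgroup G := (P : Subgroup L).map L.subtype with hP₁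
  have hP₁L : P₁ ≤ L := by
    rintro _ ⟨x, hx, rfl⟩
    exact x.2
  have hP₁2 : IsPGroup 2 P₁ := P.isPGroup'.map _
  have h2 := on_sylow h (L := P₁) (N := N ⊓ P₁) hP₁2 inf_le_right
    (fun x hx y hy => ⟨hc x (hP₁L hx) y (hP₁L hy), P₁.mul_mem (P₁.mul_mem (P₁.mul_mem hx hy) (P₁.inv_mem hx)) (P₁.inv_mem hy)⟩)
    (fun x hx => ⟨by rw [← pow_two]; exact hs x (hP₁L hx), P₁.mul_mem hx hx⟩)
  have h3 : Nat.card P₁ = Nat.card P := card_map_of_injective L.subtype_injective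
  have h4 : Nat.card ↥(N ⊓ P₁) = Nat.card ↥((N.subgroupOf L) ⊓ (P : Subgroup L)) := by
    have e1 : N ⊓ P₁ = ((N.subgroupOf L) ⊓ (P : Subgroup L)).map L.subtype := by
      ext x
      constructor
      · rintro ⟨hxN, y, hy, rfl⟩
        exact ⟨y, ⟨hxN, hy⟩, rfl⟩
      · rintro ⟨y, ⟨hyN, hy⟩, rfl⟩
        exact ⟨hyN, y, hy, rfl⟩
    rw [e1]
    exact card_map_of_injective L.subtype_injective
  have h5 := Cfsg.Agent.H63.card_mul_relIndex (H := (N.subgroupOf L) ⊓ (P : Subgroup L)) (K := (P : Subgroup L)) inf_le_right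
  rw [Subgroup.inf_relIndex_right] at h5
  rw [h3, h4] at h2
  have h6 : Nat.card ↥((N.subgroupOf L) ⊓ (P : Subgroup L)) * (N.subgroupOf L).relIndex (P : Subgroup L) ≤
      Nat.card ↥((N.subgroupOf L) ⊓ (P : Subgroup L)) * 16 := by
    rw [h5, mul_comm _ 16]; exact h2
  have h7 := Nat.le_of_mul_le_mul_left h6 Nat.card_pos
  norm_num
  exact h7

theorem final (T D B : Subgroup G) (hT : IsPGroup 2 T) (hp : Cfsg.IsInternalDirectProduct D B T) (hD : DD D)
    (hB4 : Nat.card B = 4) (hBc : ∀ a ∈ B, ∀ b ∈ B, a * b = b * a) (hBs : ∀ a ∈ B, a * a = 1)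
    (hTb : ∀ b ∈ B, b ≠ 1 → T ≤ centralizer ({b} : Set G) ∧ Odd (T.relIndex (centralizer ({b} : Set G)))) :
    Cfsg.SectionalPRankLE 2 4 G := by
  have : Fact (Nat.Prime 2) := ⟨Nat.prime_two⟩
  obtain ⟨S, hTS⟩ := hT.exists_le_sylow
  have hDT := hp.1
  have hBT := hp.2.1
  have hDS := hDT.trans hTS
  have hBS := hBT.trans hTS
  refine rank_of_sylow (S := S) ?_
  refine r4_main (X := S) S.isPGroup' (T := T.subgroupOf S) (D := D.subgroupOf S) (B := B.subgroupOf S)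
    ⟨fun x hx => hBT hx, ?_, fun b hb hb1 g hg => ?_⟩ ⟨fun x hx => hDT hx, fun x hx => hBT hx, ?_, ?_, ?_⟩ ?_ ?_ ?_
  · rw [Nat.card_congr (subgroupOfEquivOfLe hBS).toEquiv, hB4]
  · obtain ⟨h1, h2⟩ := hTb b hb (fun h0 => hb1 (Subtype.ext h0))
    set K : Subgroup G := centralizer ({(b : G)} : Set G) ⊓ S with hK
    have hTK : T ≤ K := le_inf h1 hTS
    have h3 := Subgroup.relIndex_mul_relIndex T K _ hTK inf_le_left
    have hK2 : IsPGroup 2 K := S.isPGroup'.to_le inf_le_right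
    have h4 : ∃ j, T.relIndex K = 2 ^ j := by
      have h5 : T.relIndex K ∣ Nat.card K := by
        have := (T.subgroupOf K).index_dvd_card
        exact this
      obtain ⟨n, hn⟩ := IsPGroup.iff_card.1 hK2
      rw [hn] at h5
      obtain ⟨j, -, hj⟩ := (Nat.dvd_prime_pow Nat.prime_two).1 h5
      exact ⟨j, hj⟩
    obtain ⟨j, hj⟩ := h4
    have h5 : j = 0 := by
      by_contra hj0
      have h6 : 2 ∣ T.relIndex (centralizer ({(b : G)} : Set G)) := by
        rw [← h3, hj]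
        exact Dvd.dvd.mul_right (dvd_pow_self 2 hj0) _
      exact (Nat.not_even_iff_odd.2 h2) (even_iff_two_dvd.2 h6)
    rw [h5, pow_zero] at hj
    have h6 : K ≤ T := Subgroup.relIndex_eq_one.1 hj
    refine h6 ⟨mem_centralizer_singleton_iff.2 ?_, g.2⟩
    exact congrArg Subtype.val hg
  · intro a ha b hb
    exact Subtype.ext (hp.2.2.1 a ha b hb)
  · rw [Subgroup.eq_bot_iff_forall]
    intro x hx
    have h1 : (x : G) ∈ D ⊓ B := hx
    rw [hp.2.2.2.1, Subgroup.mem_bot] at h1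
    exact Subtype.ext h1
  · rw [← Subgroup.subgroupOf_sup hDS hBS, hp.2.2.2.2]
  · intro a ha b hb
    exact Subtype.ext (hBc a ha b hb)
  · intro a ha
    exact Subtype.ext (hBs a ha)
  · exact hD.transport (subgroupOfEquivOfLe hDS).symm

end Cfsg.Agent.Fus.HD
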