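import Cfsg.Agent.Fus.Stab
set_option autoImplicit false

/-!
# A normality criterion: automorphisms trivial modulo `R` and inner on `P ∩ R` (helper85)
-/

namespace Cfsg.Agent.Fus

open Cfsg Cfsg.FusionSystem Cfsg.Agent.H85

variable {Ω : Type*} [Group Ω] {S : Subgroup Ω} {F : FusionSystem S} {p : ℕ}

/-- Automorphisms of `P` in `F` acting trivially modulo `R` and as an element of `A` on `P ∩ R`. -/
def modInn (F : FusionSystem S) (R A P : Subgroup Ω) : Subgroup (MulAut P) where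
  carrier := {κ | κ ∈ F.autGroup P ∧ (∀ x ∈ P, ofAut κ x * x⁻¹ ∈ R) ∧
    ∃ a ∈ A, ∀ x ∈ P, x ∈ R → ofAut κ x = a * x * a⁻¹}
  one_mem' := by
    refine ⟨Subgroup.one_mem _, fun x hx => ?_, 1, A.one_mem, fun x hx _ => ?_⟩
    · rw [ofAut_one hx, mul_inv_cancel]; exact R.one_mem
    · rw [ofAut_one hx]; group
  mul_mem' := by
    rintro κ μ ⟨h1, h2, a, ha, h3⟩ ⟨h1', h2', b, hb, h3'⟩
    refine ⟨Subgroup.mul_mem _ h1 h1', fun x hx => ?_, a * b, A.mul_mem ha hb, fun x hx hxR => ?_⟩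
    · rw [ofAut_mul _ _ hx]
      have := R.mul_mem (h2 _ (ofAut_mem μ hx)) (h2' x hx)
      convert this using 1
      group
    · have hm := ofAut_mem μ hx
      have hmR : ofAut μ x ∈ R := by
        have := R.mul_mem (h2' x hx) hxR
        simpa using this
      rw [ofAut_mul _ _ hx, h3 _ hm hmR, h3' x hx hxR]
      group
  inv_mem' := by
    rintro κ ⟨h1, h2, a, ha, h3⟩
    have key : ∀ x ∈ P, ofAut κ⁻¹ x * x⁻¹ ∈ R := by
      intro x hx
      have := R.inv_mem (h2 _ (ofAut_mem κ⁻¹ hx))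
      rw [ofAut_apply_inv κ hx] at this
      simpa using this
    refine ⟨Subgroup.inv_mem _ h1, key, a⁻¹, A.inv_mem ha, fun x hx hxR => ?_⟩
    have hm := ofAut_mem κ⁻¹ hx
    have hmR : ofAut κ⁻¹ x ∈ R := by
      have := R.mul_mem (key x hx) hxR
      simpa using this
    have h4 := h3 _ hm hmR
    rw [ofAut_apply_inv κ hx] at h4
    calc ofAut κ⁻¹ x = a⁻¹ * (a * ofAut κ⁻¹ x * a⁻¹) * a⁻¹⁻¹ := by group
      _ = _ := by rw [← h4]

theorem mem_modInn {R A P : Subgroup Ω} {κ : MulAut P} : κ ∈ modInn F R A P ↔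
    κ ∈ F.autGroup P ∧ (∀ x ∈ P, ofAut κ x * x⁻¹ ∈ R) ∧
    ∃ a ∈ A, ∀ x ∈ P, x ∈ R → ofAut κ x = a * x * a⁻¹ := Iff.rfl

theorem isPGroup_modInn [Finite S] [Fact p.Prime] (hS : IsPGroup p S) {R A P : Subgroup Ω} (hR : R ≤ S)
    (hA : A ≤ S) : IsPGroup p (modInn F R A P) := by
  obtain ⟨n, hn⟩ := IsPGroup.iff_card.1 hS
  refine isPGroup_of_exists_pow fun κ hκ => ⟨n + n, ?_⟩
  obtain ⟨h1, h2, a, ha, h3⟩ := hκ
  -- `κ^m` on `P ∩ R`
  have h4 : ∀ m : ℕ, ∀ x ∈ P, x ∈ R → ofAut (κ ^ m) x = a ^ m * x * (a ^ m)⁻¹ := by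
    intro m
    induction m with
    | zero => intro x hx hxR; rw [pow_zero, ofAut_one hx]; simp
    | succ m ih =>
      intro x hx hxR
      have hm := ofAut_mem (κ ^ m) hx
      have hmR : ofAut (κ ^ m) x ∈ R := by
        have h5 := stab_pow (κ := κ) (A := P ⊓ R) (B := P) inf_le_left le_rfl (fun y hy => ⟨ofAut_mem κ hy.1, by
          have := R.mul_mem (h2 y hy.1) hy.2
          simpa using this⟩) (fun y hy => ⟨P.mul_mem (ofAut_mem κ hy) (P.inv_mem hy), h2 y hy⟩) m x hx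
        have := R.mul_mem h5.2 hxR
        simpa using this
      rw [ofAut_pow_succ κ m hx, h3 _ hm hmR, ih x hx hxR, pow_succ']
      group
  have h5 := stab_step (κ := κ ^ Nat.card S) (A := P ⊓ R) (B := P) inf_le_left le_rfl (N := Nat.card S)
    (fun x hx => by
      rw [h4 _ x hx.1 hx.2, pow_card_eq_one_of_mem (hA ha)]; simp)
    (fun x hx => by
      refine stab_pow (κ := κ) (A := P ⊓ R) (B := P) inf_le_left le_rfl (fun y hy => ⟨ofAut_mem κ hy.1, by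
          have := R.mul_mem (h2 y hy.1) hy.2
          simpa using this⟩) (fun y hy => ⟨P.mul_mem (ofAut_mem κ hy) (P.inv_mem hy), h2 y hy⟩) _ x hx)
    (fun x hx => pow_card_eq_one_of_mem (hR hx.2))
  refine ofAut_injective fun x hx => ?_
  rw [pow_add, ← hn, pow_mul, h5 x hx, ofAut_one hx]

/-- Normality criterion. -/
theorem isNormal_of_modInn [Finite S] [Fact p.Prime] (hS : IsPGroup p S) (hF : F.IsSaturated p)
    {T R A : Subgroup Ω} (hT : F.StronglyClosed T) (hR : F.StronglyClosed R) (hA : A ≤ S)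
    (h1 : ∀ r ∈ T, ∀ x ∈ S, r * x * r⁻¹ * x⁻¹ ∈ R)
    (h2 : ∀ r ∈ T, ∃ a ∈ A, ∀ x ∈ R, r * x * r⁻¹ = a * x * a⁻¹)
    (h3 : ∀ {P : Subgroup Ω} {f : Ω → Ω}, IsMap F P f → P ≤ R → ∀ a ∈ A, ∃ a' ∈ A, ∀ x ∈ P,
      a * x * a⁻¹ ∈ P → f (a * x * a⁻¹) = a' * f x * a'⁻¹) : F.IsNormal T := by
  refine isNormal_of_family hS hF hT (modInn F R A) (fun P _ κ hκ => hκ.1) ?_ ?_
    (fun P hP => isPGroup_modInn hS hR.1 hA)
  · rintro P Q f hf himg κ ⟨hκ1, hκ2, a, ha, hκ3⟩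
    obtain ⟨a', ha', ha3⟩ := h3 (hf.mono (inf_le_left : P ⊓ R ≤ P)) inf_le_right a ha
    refine ⟨hf.trans_mem himg hκ1, fun y hy => ?_, a', ha', fun y hy hyR => ?_⟩
    · rw [← himg] at hy
      obtain ⟨x, hx, rfl⟩ := hf.mem_img.1 hy
      rw [hf.ofAut_trans himg κ hx, ← hf.map_inv hx, ← hf.map_mul (ofAut_mem κ hx) (P.inv_mem hx)]
      exact sc_map_mem hR hf (P.mul_mem (ofAut_mem κ hx) (P.inv_mem hx)) (hκ2 x hx)
    · rw [← himg] at hy
      obtain ⟨x, hx, rfl⟩ := hf.mem_img.1 hy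
      have hxR : x ∈ R := (sc_map_mem_iff hR hf hx).1 hyR
      have e := hκ3 x hx hxR
      rw [hf.ofAut_trans himg κ hx, e]
      refine ha3 x ⟨hx, hxR⟩ ⟨?_, ?_⟩
      · rw [← e]; exact ofAut_mem κ hx
      · have := R.mul_mem (hκ2 x hx) hxR
        rw [e] at this
        simpa using this
  · intro P hP r hr hrn
    obtain ⟨a, ha, h4⟩ := h2 r hr
    refine ⟨conjAut_mem_autGroup hP (hT.1 hr) hrn, fun x hx => ?_, a, ha, fun x hx hxR => ?_⟩
    · rw [ofAut_conjAut _ _ hx]; exact h1 r hr x (hP hx)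
    · rw [ofAut_conjAut _ _ hx]; exact h4 x hxR

end Cfsg.Agent.Fus
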