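import Cfsg.Agent.Fus.PolarSyl

/-!
# Polar groups: strongly closed subgroups contain the Eichler group
-/

set_option autoImplicit false
set_option linter.unusedSectionVars false

namespace Cfsg.Agent.Fus.Polar.Geo

open Cfsg Cfsg.Agent.Fus

variable {p : ℕ} {K V X : Type*} [Field K] [AddCommGroup V] [Module K V] [Group X]
variable (G : Geo p K V X) [Fact p.Prime] [CharP K p]

theorem eich_zero_mul (u w : V) (c s : K) (hu : G.B u u = 0) (huw : G.B u w = 0) :
    G.eich u 0 c * G.eich u w s = G.eich u w (c + s) := by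
  rw [G.eich_comp hu (G.zero_right _) huw, zero_add, G.zero_right, add_zero]

theorem eich_inv {u w : V} {s : K} (hu : G.B u u = 0) (huw : G.B u w = 0) (hs : s - G.σ s = G.B w w) {g : X}
    (h : G.A g = G.eich u w s) : G.A g⁻¹ = G.eich u (-w) (-G.σ s) := by
  have h2 : G.eich u w s * G.eich u (-w) (-G.σ s) = 1 := by
    rw [G.eich_comp hu huw (by rw [G.neg_right, huw, neg_zero]), add_neg_cancel, G.neg_left]
    have h3 : s + -G.σ s + -G.B w w = 0 := by rw [← hs]; ring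
    rw [h3, G.eich_zero]
  have h4 : G.A g⁻¹ * (G.A g * G.eich u (-w) (-G.σ s)) = G.eich u (-w) (-G.σ s) := by
    rw [← mul_assoc, ← map_mul, inv_mul_cancel, map_one, one_mul]
  rw [← h4, h, h2, mul_one]

/-- parameters whose Eichler elements with centre `u` all lie in `T` -/
def InT (T : Subgroup X) (u w : V) : Prop := G.B u w = 0 ∧ ∀ g s, s - G.σ s = G.B w w → G.A g = G.eich u w s → g ∈ T

section InT

variable {T : Subgroup X} {u : V} (hu : G.B u u = 0)
  (h0 : ∀ c, G.σ c = c → ∀ g, G.A g = G.eich u 0 c → g ∈ T)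

include hu h0

theorem inT_of_mem {w : V} {s : K} (huw : G.B u w = 0) (hs : s - G.σ s = G.B w w) {g : X}
    (hg : G.A g = G.eich u w s) (hgT : g ∈ T) : G.InT T u w := by
  refine ⟨huw, fun g' s' hs' hg' => ?_⟩
  have hc : G.σ (s' - s) = s' - s := by
    rw [map_sub]; linear_combination hs - hs'
  obtain ⟨t, ht⟩ := G.exists_tv hu hc
  have h1 : g' = t * g := by
    apply G.ext
    rw [map_mul, ht, hg, hg', G.eich_zero_mul _ _ _ _ hu huw, sub_add_cancel]
  rw [h1]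
  exact T.mul_mem (h0 _ hc t ht) hgT

theorem InT.add {w w' : V} (hw : G.InT T u w) (hw' : G.InT T u w') : G.InT T u (w + w') := by
  obtain ⟨s, hs⟩ := G.tr w
  obtain ⟨s', hs'⟩ := G.tr w'
  obtain ⟨g, hg⟩ := G.exists_eich hu hw.1 hs
  obtain ⟨g', hg'⟩ := G.exists_eich hu hw'.1 hs'
  refine G.inT_of_mem hu h0 (s := s + s' + G.B w' w) (by rw [G.add_right, hw.1, hw'.1, add_zero]) ?_ (g := g * g') ?_
    (T.mul_mem (hw.2 g s hs hg) (hw'.2 g' s' hs' hg'))
  · rw [map_add, map_add, G.add_left, G.add_right, G.add_right, ← hs, ← hs', G.skew w' w]; ring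
  · rw [map_mul, hg, hg', G.eich_comp hu hw.1 hw'.1]

theorem InT.neg {w : V} (hw : G.InT T u w) : G.InT T u (-w) := by
  obtain ⟨s, hs⟩ := G.tr w
  obtain ⟨g, hg⟩ := G.exists_eich hu hw.1 hs
  refine G.inT_of_mem hu h0 (s := -G.σ s) (by rw [G.neg_right, hw.1, neg_zero]) ?_ (g := g⁻¹)
    (G.eich_inv hu hw.1 hs hg) (T.inv_mem (hw.2 g s hs hg))
  rw [map_neg, G.σσ, G.neg_left, G.neg_right, ← hs]; ring

theorem InT.sub {w w' : V} (hw : G.InT T u w) (hw' : G.InT T u w') : G.InT T u (w - w') := by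
  rw [sub_eq_add_neg]
  exact InT.add G hu h0 hw (InT.neg G hu h0 hw')

theorem inT_self (t : K) : G.InT T u (t • u) := by
  refine ⟨by rw [G.smul_right, hu, mul_zero], fun g s hs hg => ?_⟩
  rw [G.eich_self] at hg
  refine h0 _ ?_ g hg
  rw [G.smul_left, G.smul_right, hu, mul_zero, mul_zero, sub_eq_zero] at hs
  rw [map_add, map_add, G.σσ, ← hs]; ring

end InT

theorem InT.conj {T U : Subgroup X} (hsc : ∀ x ∈ T, ∀ g : X, g * x * g⁻¹ ∈ U → g * x * g⁻¹ ∈ T)
    {u : V} (hu : G.B u u = 0) (hEU : G.E u hu ∅ ≤ U) {w : V} (hw : G.InT T u w) {h : X} (hh : G.A h u = u) :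
    G.InT T u (G.A h w) := by
  have h1 : G.B u (G.A h w) = 0 := by
    conv_lhs => rw [← hh]
    rw [G.pres, hw.1]
  refine ⟨h1, fun g s hs hg => ?_⟩
  have h2 : G.A (h⁻¹ * g * h⁻¹⁻¹) = G.eich u w s := by
    rw [G.conj_eich hg, G.inv_eq hh, G.inv_apply]
  have h3 := hw.2 _ s (by rw [hs, G.pres]) h2
  have h4 : h * (h⁻¹ * g * h⁻¹⁻¹) * h⁻¹ = g := by group
  rw [← h4]
  apply hsc _ h3
  rw [h4]
  refine hEU ⟨G.A h w, s, ?_, hs, hg⟩
  rw [G.perp_insert]
  exact ⟨G.zero_comm.mp h1, fun x hx => absurd hx (Set.notMem_empty x)⟩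

/-- All transvections with centre `u` are in `T` as soon as one is. -/
theorem tv_all {T U : Subgroup X} (hsc : ∀ x ∈ T, ∀ g : X, g * x * g⁻¹ ∈ U → g * x * g⁻¹ ∈ T)
    {u : V} (hu : G.B u u = 0) (hEU : G.E u hu ∅ ≤ U) (hscale : ∀ l : K, l ≠ 0 → ∃ h, G.A h u = l • u)
    {c : K} (hc : c ≠ 0) (hσ : G.σ c = c) {g : X} (hg : g ∈ T) (hgc : G.A g = G.eich u 0 c) :
    ∀ c', G.σ c' = c' → ∀ g', G.A g' = G.eich u 0 c' → g' ∈ T := by
  have hmemE : ∀ (c' : K) (g' : X), G.σ c' = c' → G.A g' = G.eich u 0 c' → g' ∈ U := by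
    intro c' g' h1 h2
    exact hEU ⟨0, c', G.perp_zero, by rw [h1, sub_self, G.zero_left], h2⟩
  have key : ∀ c' ∈ AddSubgroup.closure {d : K | ∃ l : K, l ≠ 0 ∧ d = l * G.σ l * c},
      G.σ c' = c' ∧ ∃ g' ∈ T, G.A g' = G.eich u 0 c' := by
    intro c' hc'
    induction hc' using AddSubgroup.closure_induction with
    | mem d hd =>
      obtain ⟨l, hl, rfl⟩ := hd
      have h1 : G.σ (l * G.σ l * c) = l * G.σ l * c := by
        rw [map_mul, map_mul, G.σσ, hσ]; ring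
      refine ⟨h1, ?_⟩
      obtain ⟨h, hh⟩ := hscale l hl
      have h2 : G.A (h * g * h⁻¹) = G.eich u 0 (l * G.σ l * c) := by
        rw [G.conj_eich hgc, hh, map_zero, G.eich_smul, smul_zero]
      exact ⟨_, hsc g hg h (hmemE _ _ h1 h2), h2⟩
    | zero => exact ⟨map_zero _, 1, T.one_mem, by rw [G.eich_zero, map_one]⟩
    | add a b _ _ ha hb =>
      obtain ⟨ha, g1, hg1, h1⟩ := ha
      obtain ⟨hb, g2, hg2, h2⟩ := hb
      refine ⟨by rw [map_add, ha, hb], g1 * g2, T.mul_mem hg1 hg2, ?_⟩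
      rw [map_mul, h1, h2, G.eich_zero_mul _ _ _ _ hu (G.zero_right _)]
    | neg a _ ha =>
      obtain ⟨ha, g1, hg1, h1⟩ := ha
      refine ⟨by rw [map_neg, ha], g1⁻¹, T.inv_mem hg1, ?_⟩
      rw [G.eich_inv hu (G.zero_right _) (by rw [ha, sub_self, G.zero_left]) h1, neg_zero, ha]
  intro c' hc' g' hg'
  obtain ⟨-, g1, hg1, h1⟩ := key c' (G.norms c c' hc hσ hc')
  rw [G.ext (hg'.trans h1.symm)]
  exact hg1

theorem eich_three {u v : V} (huv : G.B u v = 0) (hu : G.B u u = 0) (hv : G.B v v = 0) :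
    G.eich (u + v) 0 1 * G.eich u 0 (-1) * G.eich v 0 (-1) = G.eich u v 0 := by
  have hvu := G.zero_comm.mp huv
  ext x
  rw [Module.End.mul_apply, Module.End.mul_apply]
  simp only [G.eich_apply, G.zero_right, G.add_left, G.add_right, G.smul_left, huv, hvu, hu, hv, G.zero_left]
  module

theorem eich_zero_zero (c : K) : G.eich 0 0 c = 1 := by
  ext x
  rw [G.eich_apply, G.zero_right]; simp

/-- `T` contains the whole Eichler group. -/
theorem E_le_T {T U : Subgroup X} (hsc : ∀ x ∈ T, ∀ g : X, g * x * g⁻¹ ∈ U → g * x * g⁻¹ ∈ T)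
    {e₁ e₂ f₂ : V} (h11 : G.B e₁ e₁ = 0) (h22 : G.B e₂ e₂ = 0) (h12 : G.B e₁ e₂ = 0)
    (hff : G.B f₂ f₂ = 0) (h1f : G.B e₁ f₂ = 0) (h2f : G.B e₂ f₂ = 1)
    (he₁ : e₁ ≠ 0) (hEU : G.E e₁ h11 ∅ ≤ U)
    (hUD : ∀ (a b c : K) (g : X), G.σ c = c → G.A g = G.eich (a • e₁ + b • e₂) 0 c → g ∈ U)
    (h0 : ∀ c, G.σ c = c → ∀ g, G.A g = G.eich e₁ 0 c → g ∈ T) :
    G.E e₁ h11 ∅ ≤ T := by
  have h21 := G.zero_comm.mp h12
  have hf1 := G.zero_comm.mp h1f
  have hf2 : G.B f₂ e₂ = -1 := by rw [G.skew e₂ f₂, h2f, map_one]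
  have hmemempty : ∀ x, x ∈ G.perp (∅ : Set V) := fun x y hy => absurd hy (Set.notMem_empty y)
  -- transvections with centres in `⟨e₁, e₂⟩`
  have htv : ∀ (a b c : K) (g : X), G.σ c = c → G.A g = G.eich (a • e₁ + b • e₂) 0 c → g ∈ T := by
    intro a b c g hc hg
    by_cases hv0 : a • e₁ + b • e₂ = 0
    · rw [hv0, G.eich_zero_zero, ← map_one G.A] at hg
      rw [G.ext hg]; exact T.one_mem
    · have hvv : G.B (a • e₁ + b • e₂) (a • e₁ + b • e₂) = 0 := by
        simp only [G.add_left, G.add_right, G.smul_left, G.smul_right, h11, h22, h12, h21]; ring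
      obtain ⟨h, -, l, hl, hh⟩ := G.exists_trans G.ND_empty (hmemempty e₁) (hmemempty _) h11 hvv he₁ hv0
      have hσl := G.σ_ne hl
      have hc' : G.σ (c / (l * G.σ l)) = c / (l * G.σ l) := by
        rw [map_div₀, map_mul, G.σσ, hc, mul_comm]
      obtain ⟨t, ht⟩ := G.exists_tv h11 hc'
      have h1 : G.A (h * t * h⁻¹) = G.eich (a • e₁ + b • e₂) 0 c := by
        rw [G.conj_eich ht, hh, map_zero, G.eich_smul, smul_zero, mul_div_cancel₀ _ (mul_ne_zero hl hσl)]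
      rw [G.ext (hg.trans h1.symm)]
      exact hsc t (h0 _ hc' t ht) h (hUD a b c _ hc h1)
  have hone : G.σ (-1) = -1 := by rw [map_neg, map_one]
  have hInT2 : ∀ a : K, G.InT T e₁ (a • e₂) := by
    intro a
    have h1v : G.B e₁ (a • e₂) = 0 := by rw [G.smul_right, h12, mul_zero]
    have hvv : G.B (a • e₂) (a • e₂) = 0 := by rw [G.smul_left, G.smul_right, h22, mul_zero, mul_zero]
    have hs1 : G.B (e₁ + a • e₂) (e₁ + a • e₂) = 0 := by
      rw [G.add_left, G.add_right, G.add_right, h11, h1v, G.zero_comm.mp h1v, hvv]; ring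
    obtain ⟨t1, ht1⟩ := G.exists_tv hs1 (map_one G.σ)
    obtain ⟨t2, ht2⟩ := G.exists_tv h11 hone
    obtain ⟨t3, ht3⟩ := G.exists_tv hvv hone
    refine G.inT_of_mem h11 h0 (s := 0) h1v (by rw [hvv, map_zero, sub_zero]) (g := t1 * t2 * t3) ?_ ?_
    · rw [map_mul, map_mul, ht1, ht2, ht3, G.eich_three h1v h11 hvv]
    · refine T.mul_mem (T.mul_mem ?_ (h0 _ hone t2 ht2)) ?_
      · exact htv 1 a 1 t1 (map_one _) (by rw [one_smul]; exact ht1)
      · exact htv 0 a (-1) t3 hone (by rw [zero_smul, zero_add]; exact ht3)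
  have hInTz : ∀ z : V, G.B e₁ z = 0 → G.B z z = 0 → G.B e₂ z ≠ 0 → ∀ t : K, G.InT T e₁ (t • z) := by
    intro z h1z hzz h2z t
    obtain ⟨h, hh⟩ := G.exists_tv hzz (map_one G.σ)
    have hh1 : G.A h e₁ = e₁ := by rw [hh, G.eich_apply, h1z, G.zero_right]; simp
    have h3 := InT.conj G hsc h11 hEU (hInT2 (t / G.B e₂ z)) hh1
    have h4 : G.A h ((t / G.B e₂ z) • e₂) = (t / G.B e₂ z) • e₂ + t • z := by
      rw [hh, G.eich_apply, G.zero_right, G.smul_left, div_mul_cancel₀ _ h2z]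
      module
    rw [h4] at h3
    have h5 := InT.sub G h11 h0 h3 (hInT2 (t / G.B e₂ z))
    rwa [add_sub_cancel_left] at h5
  -- everything
  have hall : ∀ w : V, G.B e₁ w = 0 → G.InT T e₁ w := by
    intro w hw
    set x := w - (G.B w f₂) • e₂ + (G.B w e₂) • f₂ with hx
    have hx2 : G.B x e₂ = 0 := by
      rw [hx, G.add_left, G.sub_left, G.smul_left, G.smul_left, h22, hf2]; ring
    have hxf : G.B x f₂ = 0 := by
      rw [hx, G.add_left, G.sub_left, G.smul_left, G.smul_left, h2f, hff]; ring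
    have hx1 : G.B e₁ x = 0 := by
      rw [hx, G.add_right, G.sub_right, G.smul_right, G.smul_right, h12, h1f, hw]; ring
    have hwx : w = x + (G.B w f₂) • e₂ + (-G.B w e₂) • f₂ := by rw [hx]; module
    obtain ⟨s, hs⟩ := G.tr x
    have h2x := G.zero_comm.mp hx2
    have hfx := G.zero_comm.mp hxf
    have hz : G.InT T e₁ (x + (-s) • e₂ + f₂) := by
      have := hInTz (x + (-s) • e₂ + f₂) ?_ ?_ ?_ 1
      · rwa [one_smul] at this
      · rw [G.add_right, G.add_right, G.smul_right, hx1, h12, h1f]; ring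
      · simp only [G.add_left, G.add_right, G.smul_left, G.smul_right, hx2, hxf, h2x, hfx, h22, h2f, hf2, hff,
          ← hs, map_neg]
        ring
      · rw [G.add_right, G.add_right, G.smul_right, h2x, h22, h2f, mul_zero, zero_add, zero_add]
        exact one_ne_zero
    have hf : G.InT T e₁ f₂ := by
      have := hInTz f₂ h1f hff (by rw [h2f]; exact one_ne_zero) 1
      rwa [one_smul] at this
    have hxT : G.InT T e₁ x := by
      have h6 := InT.sub G h11 h0 (InT.sub G h11 h0 hz hf) (hInT2 (-s))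
      have h7 : x + (-s) • e₂ + f₂ - f₂ - (-s) • e₂ = x := by module
      rwa [h7] at h6
    have hft : ∀ t : K, G.InT T e₁ (t • f₂) := hInTz f₂ h1f hff (by rw [h2f]; exact one_ne_zero)
    rw [hwx]
    exact InT.add G h11 h0 (InT.add G h11 h0 hxT (hInT2 _)) (hft _)
  rintro g ⟨w, s, hw, hs, hg⟩
  exact (hall w (G.zero_comm.mp (G.perp_insert.mp hw).1)).2 g s hs hg

end Cfsg.Agent.Fus.Polar.Geo
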