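import Cfsg.Agent.Fus.PolarClosed
import Cfsg.Agent.ClassSp.Simple

/-!
# Polar groups: simplicity of the `p`-fusion system
-/

set_option autoImplicit false
set_option linter.unusedSectionVars false

namespace Cfsg.Agent.Fus.Polar.Geo

open Cfsg Cfsg.Agent.Fus

variable {p : ℕ} {K V X : Type*} [Field K] [AddCommGroup V] [Module K V] [Group X]
variable (G : Geo p K V X) [Fact p.Prime] [CharP K p]

theorem mem_line {u u' w : V} (huu' : G.B u u' = 1)
    (h : ∀ t, G.B u t = 0 → G.B w t = 0) : ∃ a : K, w = a • u := by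
  refine ⟨G.B w u', ?_⟩
  rw [← sub_eq_zero]
  by_contra hne
  obtain ⟨t, hbt⟩ := G.nondeg _ hne
  apply hbt
  have h1 : G.B u (t - (G.σ (G.B u t)) • u') = 0 := by
    rw [G.sub_right, G.smul_right, G.σσ, huu', mul_one, sub_self]
  have h3 := h _ h1
  rw [G.sub_right, G.smul_right, G.σσ] at h3
  rw [G.sub_left, G.smul_left]
  linear_combination h3

/-- `T` contains a transvection with centre `u`. -/
theorem exists_tv_mem {T U : Subgroup X} (hsc : ∀ x ∈ T, ∀ g : X, g * x * g⁻¹ ∈ U → g * x * g⁻¹ ∈ T)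
    (hTU : T ≤ U)
    {e₁ f₁ e₂ f₂ : V} (h11 : G.B e₁ e₁ = 0) (h1f1 : G.B e₁ f₁ = 1) (h12 : G.B e₁ e₂ = 0)
    (h1f : G.B e₁ f₂ = 0) (h22 : G.B e₂ e₂ = 0) (h2f : G.B e₂ f₂ = 1)
    (hEU : G.E e₁ h11 ∅ ≤ U)
    {z : X} (hzT : z ∈ T) (hzE : z ∈ G.E e₁ h11 ∅) (hz1 : z ≠ 1)
    (halt : (∃ a, a + G.σ a ≠ 0) ∨ ((∀ a, G.σ a = a) ∧ ∃ y y' : V, G.B e₁ y = 0 ∧ G.B e₁ y' = 0 ∧
      G.B y' y = 0 ∧ (∀ a : K, y ≠ a • e₁) ∧ (∀ a : K, y' ≠ a • e₁) ∧ (∀ a : K, y + y' ≠ a • e₁))) :
    ∃ c, c ≠ 0 ∧ G.σ c = c ∧ ∃ g ∈ T, G.A g = G.eich e₁ 0 c := by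
  obtain ⟨w, s, hw, hs, hz⟩ := hzE
  have hwe : G.B w e₁ = 0 := (G.perp_insert.mp hw).1
  have hew := G.zero_comm.mp hwe
  by_cases hline : ∃ a : K, w = a • e₁
  · obtain ⟨a, rfl⟩ := hline
    rw [G.eich_self] at hz
    rw [G.smul_left, G.smul_right, h11, mul_zero, mul_zero, sub_eq_zero] at hs
    refine ⟨s + a + G.σ a, ?_, ?_, z, hzT, hz⟩
    · intro h
      rw [h, G.eich_zero, ← map_one G.A] at hz
      exact hz1 (G.ext hz)
    · rw [map_add, map_add, G.σσ, ← hs]; ring
  · obtain ⟨y₀, hy₀1, hy₀2⟩ : ∃ y, G.B e₁ y = 0 ∧ G.B w y ≠ 0 := by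
      by_contra hcon
      push Not at hcon
      exact hline (G.mem_line h1f1 hcon)
    rcases halt with ⟨a, ha⟩ | ⟨hσ, y, y', hy1, hy'1, hy'y, hy, hy', hyy'⟩
    · -- commutators
      set y := (G.σ (a / G.B w y₀)) • y₀ with hydef
      have hwy : G.B w y = a := by
        rw [hydef, G.smul_right, G.σσ, div_mul_cancel₀ _ hy₀2]
      have hy1 : G.B e₁ y = 0 := by rw [hydef, G.smul_right, hy₀1, mul_zero]
      clear_value y
      have hyw : G.B y w = -G.σ a := by rw [G.skew w y, hwy]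
      obtain ⟨s', hs'⟩ := G.tr y
      obtain ⟨g, hg⟩ := G.exists_eich h11 hy1 hs'
      have hgU : g ∈ U := hEU ⟨y, s', by
        rw [G.perp_insert]
        exact ⟨G.zero_comm.mp hy1, fun x hx => absurd hx (Set.notMem_empty x)⟩, hs', hg⟩
      have hc : G.σ (G.B y w - G.B w y) = G.B y w - G.B w y := by
        rw [hyw, hwy, map_sub, map_neg, G.σσ]; ring
      obtain ⟨t, ht⟩ := G.exists_tv h11 hc
      refine ⟨G.B y w - G.B w y, ?_, hc, t, ?_, ht⟩
      · rw [hyw, hwy]
        intro h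
        apply ha
        linear_combination -h
      · have h1 : t * (g * z) = z * g := by
          apply G.ext
          rw [map_mul, map_mul, map_mul, ht, hg, hz, G.eich_comp h11 hy1 hew, G.eich_comp h11 hew hy1,
            G.eich_zero_mul _ _ _ _ h11 (by rw [G.add_right, hy1, hew, add_zero]), add_comm y w]
          congr 1
          ring
        have h2 : t = z * (g * z⁻¹ * g⁻¹) := by
          calc t = t * (g * z) * (z⁻¹ * g⁻¹) := by group
            _ = z * g * (z⁻¹ * g⁻¹) := by rw [h1]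
            _ = _ := by group
        rw [h2]
        refine T.mul_mem hzT (hsc _ (T.inv_mem hzT) g ?_)
        exact U.mul_mem (U.mul_mem hgU (U.inv_mem (hTU hzT))) (U.inv_mem hgU)
    · -- characteristic two symplectic case
      have hiso : ∀ x, G.B x x = 0 := by
        intro x
        obtain ⟨s, hs⟩ := G.tr x
        rw [← hs, hσ, sub_self]
      have hmove : ∀ v v' : V, G.B e₁ v = 0 → G.B e₁ v' = 0 → G.B v v' ≠ 0 →
          (∃ g ∈ T, G.A g = G.eich e₁ v s) → ∃ g ∈ T, G.A g = G.eich e₁ v' s := by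
        rintro v v' hv hv' hne ⟨g, hg, hgv⟩
        have hp : ∀ x, G.B e₁ x = 0 → x ∈ G.perp {e₁} := by
          intro x hx y hy
          rw [Set.mem_singleton_iff.mp hy]; exact G.zero_comm.mp hx
        obtain ⟨h, hh, he⟩ := G.exists_move (hp v hv) (hp v' hv') (hiso _) (hiso _) hne (hσ _)
        have hh1 : G.A h e₁ = e₁ := G.Y_le _ hh e₁ (Set.mem_singleton _)
        have h2 : G.A (h * g * h⁻¹) = G.eich e₁ v' s := by rw [G.conj_eich hgv, hh1, he]
        refine ⟨_, hsc g hg h (hEU ⟨v', s, ?_, ?_, h2⟩), h2⟩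
        · rw [G.perp_insert]
          exact ⟨G.zero_comm.mp hv', fun x hx => absurd hx (Set.notMem_empty x)⟩
        · rw [hσ, sub_self, hiso]
      have hallv : ∀ v : V, G.B e₁ v = 0 → (∀ a : K, v ≠ a • e₁) → ∃ g ∈ T, G.A g = G.eich e₁ v s := by
        intro v hv hvl
        by_cases hwv : G.B w v = 0
        · obtain ⟨y₁, hy₁1, hy₁2⟩ : ∃ y, G.B e₁ y = 0 ∧ G.B v y ≠ 0 := by
            by_contra hcon
            push Not at hcon
            obtain ⟨a, ha⟩ := G.mem_line h1f1 hcon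
            exact hvl a ha
          obtain ⟨y₂, hy₂1, hy₂2, hy₂3⟩ : ∃ y, G.B e₁ y = 0 ∧ G.B w y ≠ 0 ∧ G.B y v ≠ 0 := by
            by_cases ha : G.B v y₀ = 0
            · by_cases hb : G.B w y₁ = 0
              · refine ⟨y₀ + y₁, by rw [G.add_right, hy₀1, hy₁1, add_zero], ?_, ?_⟩
                · rw [G.add_right, hb, add_zero]; exact hy₀2
                · rw [G.add_left, G.zero_comm.mp ha, zero_add]
                  exact fun h => hy₁2 (G.zero_comm.mp h)
              · exact ⟨y₁, hy₁1, hb, fun h => hy₁2 (G.zero_comm.mp h)⟩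
            · exact ⟨y₀, hy₀1, hy₀2, fun h => ha (G.zero_comm.mp h)⟩
          exact hmove y₂ v hy₂1 hv hy₂3 (hmove w y₂ hew hy₂1 hy₂2 ⟨z, hzT, hz⟩)
        · exact hmove w v hew hv hwv ⟨z, hzT, hz⟩
      have hfin : ∀ y y' : V, G.B e₁ y = 0 → G.B e₁ y' = 0 → (∀ a : K, y ≠ a • e₁) → (∀ a : K, y' ≠ a • e₁) →
          (∀ a : K, y + y' ≠ a • e₁) → s + G.B y' y ≠ 0 →
          ∃ c, c ≠ 0 ∧ G.σ c = c ∧ ∃ g ∈ T, G.A g = G.eich e₁ 0 c := by
        intro y y' hy1 hy'1 hy hy' hyy' hne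
        obtain ⟨g1, hg1, h1⟩ := hallv y hy1 hy
        obtain ⟨g2, hg2, h2⟩ := hallv y' hy'1 hy'
        have hyy'1 : G.B e₁ (y + y') = 0 := by rw [G.add_right, hy1, hy'1, add_zero]
        obtain ⟨g3, hg3, h3⟩ := hallv (y + y') hyy'1 hyy'
        refine ⟨s + G.B y' y, hne, hσ _, g1 * g2 * g3⁻¹, T.mul_mem (T.mul_mem hg1 hg2) (T.inv_mem hg3), ?_⟩
        have h4 := G.eich_inv h11 hyy'1 (by rw [hσ, sub_self, hiso]) h3
        rw [map_mul, map_mul, h1, h2, h4, G.eich_comp h11 hy1 hy'1, G.eich_comp h11 hyy'1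
          (by rw [G.neg_right, hyy'1, neg_zero]), add_neg_cancel, G.neg_left, hiso, hσ]
        congr 1
        ring
      by_cases hs0 : s = 0
      · have hne2 : ∀ a : K, e₂ ≠ a • e₁ := by
          rintro a rfl
          rw [G.smul_left, h1f, mul_zero] at h2f
          exact zero_ne_one h2f
        have hf2 : G.B f₂ e₂ = -1 := by rw [G.skew e₂ f₂, h2f, map_one]
        have hne1 : (-1 : K) ≠ 0 := neg_ne_zero.mpr one_ne_zero
        refine hfin e₂ f₂ h12 h1f hne2 ?_ ?_ ?_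
        · rintro a h
          rw [h, G.smul_left, h12, mul_zero] at hf2
          exact hne1 hf2.symm
        · rintro a h
          have h5 : G.B (e₂ + f₂) e₂ = -1 := by rw [G.add_left, h22, hf2, zero_add]
          rw [h, G.smul_left, h12, mul_zero] at h5
          exact hne1 h5.symm
        · rw [hs0, hf2, zero_add]; exact hne1
      · exact hfin y y' hy1 hy'1 hy hy' hyy' (by rw [hy'y, add_zero]; exact hs0)

/-! ### unipotent radicals of totally isotropic subspaces -/

theorem pow_eq_one_of_unip {f : Module.End K V} (h : ∀ x, f (f (f x - x) - (f x - x)) = f (f x - x) - (f x - x)) :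
    f ^ p ^ 2 = 1 := by
  have hp := (Fact.out : p.Prime)
  set N : Module.End K V := f - 1 with hN
  have hf : f = 1 + N := by rw [hN]; abel
  have hN3 : N * N * N = 0 := by
    ext x
    have h1 : ∀ y, N y = f y - y := fun y => by rw [hN]; rfl
    rw [Module.End.mul_apply, Module.End.mul_apply, h1 x, h1 (f x - x), h1]
    rw [h x, sub_self]; rfl
  have key : ∀ k : ℕ, f ^ k = 1 + (k : K) • N + (k.choose 2 : K) • (N * N) := by
    intro k
    induction k with
    | zero => simp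
    | succ k ih =>
      have h1 : ((k + 1).choose 2 : K) = (k : K) + (k.choose 2 : K) := by
        rw [Nat.choose_succ_succ' k 1, Nat.choose_one_right, Nat.cast_add]
      rw [pow_succ, ih, hf, h1, Nat.cast_succ]
      simp only [add_mul, mul_add, one_mul, mul_one, smul_mul_assoc, hN3, smul_zero, add_zero]
      module
  rw [key]
  have h1 : ((p ^ 2 : ℕ) : K) = 0 := by
    rw [Nat.cast_pow, CharP.cast_eq_zero, zero_pow two_ne_zero]
  have h2 : ((p ^ 2).choose 2 : K) = 0 := by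
    rw [CharP.cast_eq_zero_iff K p]
    apply hp.dvd_choose_pow two_ne_zero
    have := hp.two_le
    nlinarith
  rw [h1, h2, zero_smul, zero_smul, add_zero, add_zero]

/-- The unipotent radical attached to a subspace. -/
def R (D : Submodule K V) : Subgroup X where
  carrier := {g | (∀ x ∈ D, G.A g x = x) ∧ ∀ x ∈ G.perp (D : Set V), G.A g x - x ∈ D}
  mul_mem' := by
    rintro a b ⟨ha, ha'⟩ ⟨hb, hb'⟩
    refine ⟨fun x hx => by rw [G.mul_apply, hb x hx, ha x hx], fun x hx => ?_⟩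
    have h1 : G.A (a * b) x - x = (G.A a x - x) + (G.A b x - x) := by
      have h2 : G.A b x = x + (G.A b x - x) := by abel
      rw [G.mul_apply, h2, map_add, ha _ (hb' x hx)]
      abel
    rw [h1]
    exact D.add_mem (ha' x hx) (hb' x hx)
  one_mem' := ⟨fun x _ => G.one_apply x, fun x _ => by rw [G.one_apply, sub_self]; exact D.zero_mem⟩
  inv_mem' := by
    rintro a ⟨ha, ha'⟩
    refine ⟨fun x hx => G.inv_eq (ha x hx), fun x hx => ?_⟩
    have h1 : G.A a⁻¹ (G.A a x - x) = G.A a x - x := G.inv_eq (ha _ (ha' x hx))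
    rw [map_sub, G.inv_apply] at h1
    have h2 : G.A a⁻¹ x - x = -(G.A a x - x) := by
      rw [← h1]; abel
    rw [h2]
    exact D.neg_mem (ha' x hx)

theorem mem_R {D : Submodule K V} {g : X} :
    g ∈ G.R D ↔ (∀ x ∈ D, G.A g x = x) ∧ ∀ x ∈ G.perp (D : Set V), G.A g x - x ∈ D := Iff.rfl

theorem perp_of_fix {D : Submodule K V} {f : Module.End K V} (hf : ∀ x y, G.B (f x) (f y) = G.B x y)
    (h : ∀ x ∈ D, f x = x) (x : V) : f x - x ∈ G.perp (D : Set V) := by
  intro d hd
  rw [G.sub_left, sub_eq_zero]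
  conv_lhs => rw [← h d hd]
  exact hf x d

theorem unip_of {D : Submodule K V} {f : Module.End K V} (hf : ∀ x y, G.B (f x) (f y) = G.B x y)
    (h : ∀ x ∈ D, f x = x) (h' : ∀ x ∈ G.perp (D : Set V), f x - x ∈ D) : f ^ p ^ 2 = 1 := by
  apply pow_eq_one_of_unip
  intro x
  exact h _ (h' _ (G.perp_of_fix hf h x))

theorem pElement_R {D : Submodule K V} {g : X} (hg : g ∈ G.R D) : ∃ k : ℕ, g ^ p ^ k = 1 := by
  refine ⟨2, G.ext ?_⟩
  rw [map_pow, map_one]
  exact G.unip_of (G.pres g) hg.1 hg.2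

theorem isPGroup_R (D : Submodule K V) : IsPGroup p (G.R D) := by
  rintro ⟨g, hg⟩
  obtain ⟨k, hk⟩ := G.pElement_R hg
  exact ⟨k, Subtype.ext hk⟩

/-- isotropic subspaces -/
def Iso (D : Submodule K V) : Prop := ∀ x ∈ D, ∀ y ∈ D, G.B x y = 0

theorem eich_mem_R {D : Submodule K V} (hD : G.Iso D) {u w : V} {s : K} (hu : u ∈ D) (hw : w ∈ G.perp (D : Set V))
    {g : X} (hg : G.A g = G.eich u w s) : g ∈ G.R D := by
  constructor
  · intro x hx
    rw [hg, G.eich_apply, hD x hx u hu, G.zero_comm.mp (hw x hx)]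
    simp
  · intro x hx
    rw [hg, G.eich_apply, hx u hu]
    have : x + (0 : K) • w + G.B x w • u + (s * 0) • u - x = G.B x w • u := by module
    rw [this]
    exact D.smul_mem _ hu

theorem stab_inv [Finite X] {D : Submodule K V} {g : X} (h : ∀ x ∈ D, G.A g x ∈ D) : ∀ x ∈ D, G.A g⁻¹ x ∈ D := by
  have h1 : ∀ k : ℕ, ∀ x ∈ D, G.A (g ^ k) x ∈ D := by
    intro k
    induction k with
    | zero => intro x hx; rw [pow_zero, G.one_apply]; exact hx
    | succ k ih => intro x hx; rw [pow_succ, G.mul_apply]; exact ih _ (h x hx)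
  have h2 : g⁻¹ = g ^ (orderOf g - 1) := by
    apply inv_eq_of_mul_eq_one_left
    rw [← pow_succ, Nat.sub_add_cancel (orderOf_pos g), pow_orderOf_eq_one]
  rw [h2]
  exact h1 _

theorem normalizes_R [Finite X] {D : Submodule K V} {g : X} (h : ∀ x ∈ D, G.A g x ∈ D) {r : X} (hr : r ∈ G.R D) :
    g * r * g⁻¹ ∈ G.R D := by
  have h' := G.stab_inv h
  constructor
  · intro x hx
    rw [G.mul_apply, G.mul_apply, hr.1 _ (h' x hx), G.apply_inv]
  · intro x hx
    have hx' : G.A g⁻¹ x ∈ G.perp (D : Set V) := by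
      intro d hd
      rw [← G.pres g, G.apply_inv]
      exact hx _ (h d hd)
    have h1 : G.A (g * r * g⁻¹) x - x = G.A g (G.A r (G.A g⁻¹ x) - G.A g⁻¹ x) := by
      rw [map_sub, G.apply_inv, G.mul_apply, G.mul_apply]
    rw [h1]
    exact h _ (hr.2 _ hx')

theorem mem_normalizer_R [Finite X] {D : Submodule K V} {g : X} (h : ∀ x ∈ D, G.A g x ∈ D) :
    g ∈ Subgroup.normalizer ((G.R D : Subgroup X) : Set X) :=
  mem_normalizer_of_conj fun _ hr => G.normalizes_R h hr

/-- Centralizers of unipotent radicals. -/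
theorem centralizer_R {D : Submodule K V} (hD : G.Iso D) {u u' : V} (hu : u ∈ D) (huu' : G.B u u' = 1)
    {c : X} (hc : ∀ x ∈ G.R D, x * c = c * x) :
    ∃ r ∈ G.R D, ∃ a : K, ∀ x, G.A (r⁻¹ * c) x = a • x := by
  have hconj : ∀ x ∈ G.R D, c * x * c⁻¹ = x := by
    intro x hx; rw [← hc x hx]; group
  have hu0 : u ≠ 0 := by
    rintro rfl; rw [G.zero_left] at huu'; exact zero_ne_one huu'
  -- transvections
  have htv : ∀ v ∈ D, ∀ x, G.B x (G.A c v) • G.A c v = G.B x v • v := by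
    intro v hv x
    obtain ⟨g, hg⟩ := G.exists_tv (hD v hv v hv) (map_one G.σ)
    have h1 := G.eich_mem_R hD hv G.perp_zero hg
    have h2 := G.conj_eich (g := c) hg
    rw [hconj g h1, hg, map_zero] at h2
    have h3 := congrArg (fun f : Module.End K V => f x) h2
    simp only [G.eich_apply, G.zero_right, smul_zero, zero_smul, add_zero, one_mul, add_right_inj] at h3
    exact h3.symm
  have heig : ∀ v ∈ D, ∃ a : K, G.A c v = a • v := by
    intro v hv
    by_cases hv0 : v = 0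
    · exact ⟨0, by rw [hv0, map_zero, smul_zero]⟩
    · have hcv : G.A c v ≠ 0 := by
        intro h
        apply hv0
        rw [← G.inv_apply c v, h, map_zero]
      obtain ⟨y, hy⟩ := G.nondeg _ hcv
      have h1 := htv v hv y
      have hy' : G.B y (G.A c v) ≠ 0 := fun h => hy (G.zero_comm.mp h)
      refine ⟨(G.B y (G.A c v))⁻¹ * G.B y v, ?_⟩
      rw [mul_smul, ← h1, smul_smul, inv_mul_cancel₀ hy', one_smul]
  have hcD : ∀ v ∈ D, G.A c v ∈ D := by
    intro v hv
    obtain ⟨a, ha⟩ := heig v hv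
    rw [ha]; exact D.smul_mem _ hv
  obtain ⟨a, ha⟩ := Cfsg.Agent.ClassSp.exists_scalar ((G.A c).restrict hcD) (by
    rintro ⟨v, hv⟩
    obtain ⟨a, ha⟩ := heig v hv
    exact ⟨a, Subtype.ext ha⟩)
  have ha' : ∀ v ∈ D, G.A c v = a • v := fun v hv => congrArg Subtype.val (ha ⟨v, hv⟩)
  have haa : a * G.σ a = 1 := by
    have h1 := htv u hu u'
    rw [ha' u hu, G.smul_right, smul_smul] at h1
    have h2 : G.B u' u = -1 := by rw [G.skew u u', huu', map_one]
    rw [h2] at h1
    have h3 : (a * G.σ a - 1) • u = 0 := by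
      have h4 : (-1 : K) • u - (G.σ a * -1 * a) • u = 0 := by rw [h1, sub_self]
      rw [← h4]; module
    exact sub_eq_zero.mp ((smul_eq_zero.mp h3).resolve_right hu0)
  have ha0 : a ≠ 0 := left_ne_zero_of_mul_eq_one haa
  have hperp : ∀ w ∈ G.perp (D : Set V), G.A c w - a • w ∈ D := by
    intro w hw
    have huw : G.B u w = 0 := G.zero_comm.mp (hw u hu)
    obtain ⟨s, hs⟩ := G.tr w
    obtain ⟨g, hg⟩ := G.exists_eich (hD u hu u hu) huw hs
    have h1 := G.eich_mem_R hD hu hw hg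
    have h2 := G.conj_eich (g := c) hg
    rw [hconj g h1, hg, ha' u hu, G.eich_smul] at h2
    have h3 := congrArg (fun f : Module.End K V => f (-u')) h2
    have h4 : G.B (-u') u = 1 := by rw [G.neg_left, G.skew u u', huu', map_one, neg_neg]
    simp only [G.eich_apply, h4] at h3
    have h5 : G.A c w - a • w = a • ((G.B (-u') w) • u + (s * 1) • u -
        (G.B (-u') (G.σ a • G.A c w)) • u - (a * G.σ a * s * 1) • u) := by
      have h6 : G.A c w = a • (G.σ a • G.A c w) := by rw [smul_smul, haa, one_smul]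
      have h7 : G.σ a • G.A c w = w + (G.B (-u') w) • u + (s * 1) • u -
        (G.B (-u') (G.σ a • G.A c w)) • u - (a * G.σ a * s * 1) • u := by
        have h8 : G.σ a • G.A c w = (-u' + (1 : K) • (G.σ a • G.A c w) + (G.B (-u') (G.σ a • G.A c w)) • u +
          (a * G.σ a * s * 1) • u) + u' - (G.B (-u') (G.σ a • G.A c w)) • u - (a * G.σ a * s * 1) • u := by
          module
        rw [← h3] at h8
        exact h8.trans (by module)
      conv_lhs => rw [h6, h7]
      module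
    rw [h5]
    exact D.smul_mem _ (D.sub_mem (D.sub_mem (D.add_mem (D.smul_mem _ hu) (D.smul_mem _ hu)) (D.smul_mem _ hu))
      (D.smul_mem _ hu))
  -- the unipotent part
  set f : Module.End K V := a⁻¹ • G.A c with hf
  have hfx : ∀ x, f x = a⁻¹ • G.A c x := fun x => rfl
  have hfp : ∀ x y, G.B (f x) (f y) = G.B x y := by
    intro x y
    rw [hfx, hfx, G.smul_left, G.smul_right, G.pres, map_inv₀, ← mul_assoc, ← mul_inv, haa, inv_one, one_mul]
  have hf1 : ∀ x ∈ D, f x = x := by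
    intro x hx
    rw [hfx, ha' x hx, smul_smul, inv_mul_cancel₀ ha0, one_smul]
  have hf2 : ∀ x ∈ G.perp (D : Set V), f x - x ∈ D := by
    intro x hx
    have h1 : f x - x = a⁻¹ • (G.A c x - a • x) := by
      rw [hfx, smul_sub, smul_smul, inv_mul_cancel₀ ha0, one_smul]
    rw [h1]
    exact D.smul_mem _ (hperp x hx)
  obtain ⟨r, hr⟩ := G.full f hfp ⟨2, G.unip_of hfp hf1 hf2⟩
  refine ⟨r, ⟨fun x hx => by rw [hr]; exact hf1 x hx, fun x hx => by rw [hr]; exact hf2 x hx⟩, a, fun x => ?_⟩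
  have h1 : G.A c x = a • G.A r x := by
    rw [hr, hfx, smul_smul, mul_inv_cancel₀ ha0, one_smul]
  rw [G.mul_apply, h1, map_smul, G.inv_apply]

end Cfsg.Agent.Fus.Polar.Geo
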