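import Cfsg.Agent.Fus.PolarSimple
import Cfsg.Agent.Uni.Stab
import Cfsg.Agent.Uni.Gen2

/-!
# S5172: the `p`-fusion system of `PSU_n(q)` is simple
-/

set_option autoImplicit false
set_option linter.unusedSectionVars false

namespace Cfsg.Agent.Fus.Polar

open Cfsg Cfsg.Agent.Fus Matrix Cfsg.Agent.Uni

variable {K : Type*} [Field K] [Fintype K] {q : ℕ} (hK : Fintype.card K = q ^ 2) (n : ℕ)

/-- the action on vectors -/
noncomputable def suA (q : ℕ) : SU n K q →* Module.End K (Fin n → K) where
  toFun g :=
    { toFun := act g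
      map_add' := act_add g
      map_smul' := fun a x => act_smul g a x }
  map_one' := LinearMap.ext fun x => act_one x
  map_mul' g h := LinearMap.ext fun x => act_mul g h x

theorem suA_apply (g : SU n K q) (x : Fin n → K) : suA n q g x = act g x := rfl

include hK in
/-- norm one determinant -/
theorem exists_vec_norm {z z' : Fin n → K} (h : hermForm n K q z z' ≠ 0) {c : K} (hc : c ^ q = c) :
    ∃ b b' : K, hermForm n K q (b • z + b' • z') (b • z + b' • z') = c := by
  -- a vector with nonzero norm
  obtain ⟨b, b', hne⟩ : ∃ b b' : K, hermForm n K q (b • z + b' • z') (b • z + b' • z') ≠ 0 := by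
    by_cases h1 : hermForm n K q z z = 0
    · by_cases h2 : hermForm n K q z' z' = 0
      · obtain ⟨y, hy⟩ := exists_trace_eq hK (c := 1) (one_pow _)
        refine ⟨y / hermForm n K q z z', 1, ?_⟩
        have h3 := hermForm_symm hK z z'
        have hq := pow_ne_zero q h
        have e : hermForm n K q ((y / hermForm n K q z z') • z + (1 : K) • z')
            ((y / hermForm n K q z z') • z + (1 : K) • z') = y + y ^ q := by
          simp only [hermForm_add_left, hermForm_add_right hK, hermForm_smul_left, hermForm_smul_right, h1, h2,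
            one_pow, ← h3, div_pow, mul_zero, zero_add, add_zero, one_mul]
          field_simp
          ring
        rw [e, hy]
        exact one_ne_zero
      · exact ⟨0, 1, by rw [zero_smul, one_smul, zero_add]; exact h2⟩
    · exact ⟨1, 0, by rw [zero_smul, one_smul, add_zero]; exact h1⟩
  set w := b • z + b' • z' with hw
  have hww := hermForm_self_pow_q hK w
  obtain ⟨x, hx⟩ := exists_norm_eq hK (c := c / hermForm n K q w w) (by rw [div_pow, hww, hc])
  refine ⟨x * b, x * b', ?_⟩
  have h1 : (x * b) • z + (x * b') • z' = x • w := by rw [hw]; module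
  rw [h1, hermForm_smul_left, hermForm_smul_right, ← mul_assoc, ← pow_succ', hx, div_mul_cancel₀ _ hne]

/-- The unitary geometry. -/
noncomputable def suGeo (p : ℕ) [Fact p.Prime] [CharP K p] {a : K} (ha0 : a ≠ 0) (ha : a ^ q = -a) :
    Geo p K (Fin n → K) (SU n K q) where
  A := suA n q
  faith g h := act_ext fun v => by rw [act_one]; exact h v
  σ := Uni.conjHom hK
  σσ := conjHom_involutive hK
  B x y := a * hermForm n K q x y
  add_left x x' y := by rw [hermForm_add_left]; ring
  smul_left c x y := by rw [hermForm_smul_left]; ring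
  skew x y := by rw [Uni.conjHom_apply, mul_pow, ha, hermForm_symm hK]; ring
  nondeg x hx := by
    by_contra hcon
    push Not at hcon
    exact hx (hermForm_nondeg hK fun v => (mul_eq_zero.mp (hcon v)).resolve_left ha0)
  pres g x y := by
    show a * hermForm n K q (act g x) (act g y) = _
    rw [act_form]
  tr w := by
    obtain ⟨x, hx⟩ := exists_trace_eq hK (hermForm_self_pow_q hK w)
    refine ⟨a * x, ?_⟩
    rw [Uni.conjHom_apply, mul_pow, ha, ← hx]; ring
  full f hf hk := by
    have hpres : Pres q (LinearMap.toMatrix' f) := by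
      intro u v
      rw [LinearMap.toMatrix'_mulVec, LinearMap.toMatrix'_mulVec]
      exact mul_left_cancel₀ ha0 (hf u v)
    have hdet : (LinearMap.toMatrix' f).det = 1 := by
      obtain ⟨k, hk⟩ := hk
      apply Geo.char_pow_eq_one (p := p) (k := k)
      rw [LinearMap.det_toMatrix', ← map_pow, hk, map_one]
    refine ⟨mkSU _ hpres hdet, LinearMap.ext fun v => ?_⟩
    rw [suA_apply, act_def, mkSU_coe, LinearMap.toMatrix'_mulVec]
  norms c c' hc hσ hσ' := by
    rw [Uni.conjHom_apply] at hσ hσ'
    by_cases h0 : c' = 0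
    · rw [h0]; exact AddSubgroup.zero_mem _
    · obtain ⟨x, hx⟩ := exists_norm_eq hK (c := c' / c) (by rw [div_pow, hσ, hσ'])
      refine AddSubgroup.subset_closure ⟨x, ?_, ?_⟩
      · rintro rfl
        rw [zero_pow (by omega)] at hx
        exact div_ne_zero h0 hc hx.symm
      · rw [Uni.conjHom_apply, ← pow_succ', hx, div_mul_cancel₀ _ hc]
  ns z z' h c := by
    have h' : hermForm n K q z z' ≠ 0 := right_ne_zero_of_mul h
    obtain ⟨b, b', hb⟩ := exists_vec_norm hK n h' (c := (c ^ q - c) / a) (by
      rw [div_pow, sub_pow_q hK, pow_q_pow_q hK, ha, div_neg, ← neg_div, neg_sub])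
    refine ⟨b, b', ?_⟩
    rw [hb, Uni.conjHom_apply, mul_div_cancel₀ _ ha0]
  d2 u u' l g huu hu'u' huu' hl hgu hgu' hfix := by
    rw [Uni.conjHom_apply] at hgu' ⊢
    have hhu : hermForm n K q u u = 0 := (mul_eq_zero.mp huu).resolve_left ha0
    have hhu' : hermForm n K q u' u' = 0 := (mul_eq_zero.mp hu'u').resolve_left ha0
    have hyp : Hyp q u ((-a) • u') := by
      refine ⟨hhu, ?_, ?_⟩
      · rw [hermForm_smul_left, hermForm_smul_right, hhu', mul_zero, mul_zero]
      · rw [hermForm_smul_right, neg_pow_q hK, ha, neg_neg]; exact huu'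
    obtain ⟨t, ht, hdet⟩ := exists_gtorus hK hyp hl
    have hvu : hermForm n K q ((-a) • u') u = 1 := (hyp.symm hK).2.2
    have htg : t = suToGU hK n g := by
      apply gact_ext
      intro x
      rw [gact_suToGU, ht]
      set v := (-a) • u' with hv
      have hgv : act g v = (l ^ q)⁻¹ • v := by
        rw [hv, act_smul, ← suA_apply, hgu', smul_comm]
      have hgu2 : act g u = l • u := hgu
      -- decompose `x`
      have hx : x = (x - hermForm n K q x v • u - hermForm n K q x u • v) + hermForm n K q x v • u +
        hermForm n K q x u • v := by module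
      have h1 : act g (x - hermForm n K q x v • u - hermForm n K q x u • v) =
          x - hermForm n K q x v • u - hermForm n K q x u • v := by
        apply hfix
        · rw [hermForm_sub_left, hermForm_sub_left, hermForm_smul_left, hermForm_smul_left, hhu, hvu]; ring
        · have h2 : ∀ y, a * hermForm n K q y u' = hermForm n K q y v := by
            intro y
            rw [hv, hermForm_smul_right, neg_pow_q hK, ha, neg_neg]
          rw [h2, hermForm_sub_left, hermForm_sub_left, hermForm_smul_left, hermForm_smul_left, hyp.2.1, hyp.2.2]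
          ring
      conv_rhs => rw [hx, act_add, act_add, act_smul, act_smul, h1, hgv, hgu2]
      module
    have h2 : ((detHom hK n (suToGU hK n g) : Kˣ) : K) = 1 := by
      have h3 : suToGU hK n g ∈ (suToGU hK n).range := ⟨g, rfl⟩
      rw [suToGU_range, MonoidHom.mem_ker] at h3
      rw [h3]; rfl
    rw [htg, h2] at hdet
    have hlq : l ^ q ≠ 0 := pow_ne_zero _ hl
    have h4 : l ^ q = l := by
      have := congrArg (· * l ^ q) hdet
      simpa [hlq] using this
    exact h4
  an D hD g hg := by
    have hD' : ∀ w, (∀ x ∈ D, hermForm n K q w x = 0) → w ≠ 0 → hermForm n K q w w ≠ 0 := by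
      intro w hw hw0 h
      exact hD w (fun x hx => by rw [hw x hx, mul_zero]) hw0 (by rw [h, mul_zero])
    have hperp : ∀ x, ∀ d ∈ D, hermForm n K q (act g x - x) d = 0 := by
      intro x d hd
      rw [hermForm_sub_left, sub_eq_zero]
      have hgd : act g d = d := hg d hd
      conv_lhs => rw [← hgd]
      rw [act_form]
    by_contra hne
    obtain ⟨x₀, hx₀⟩ : ∃ x, act g x - x ≠ 0 := by
      by_contra hcon
      push Not at hcon
      exact hne (act_ext fun x => by rw [act_one]; exact sub_eq_zero.mp (hcon x))
    set z := act g x₀ - x₀ with hz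
    have hzp := hperp x₀
    rw [← hz] at hzp
    have hzz := hD' z hzp hx₀
    -- every vector orthogonal to `D` is a multiple of `z`
    have hline : ∀ w, (∀ x ∈ D, hermForm n K q w x = 0) → w = (hermForm n K q w z / hermForm n K q z z) • z := by
      intro w hw
      rw [← sub_eq_zero]
      by_contra hne2
      set y := w - (hermForm n K q w z / hermForm n K q z z) • z with hy
      have hyp : ∀ x ∈ D, hermForm n K q y x = 0 := by
        intro x hx
        rw [hy, hermForm_sub_left, hermForm_smul_left, hw x hx, hzp x hx, mul_zero, sub_zero]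
      have hyy := hD' y hyp hne2
      have hyz : hermForm n K q y z = 0 := by
        rw [hy, hermForm_sub_left, hermForm_smul_left, div_mul_cancel₀ _ hzz, sub_self]
      have hzy := (hermForm_eq_zero_comm hK).1 hyz
      obtain ⟨t, ht⟩ := exists_norm_eq hK (c := -(hermForm n K q z z) / hermForm n K q y y) (by
        rw [div_pow, neg_pow_q hK, hermForm_self_pow_q hK, hermForm_self_pow_q hK])
      have h1 : hermForm n K q (z + t • y) (z + t • y) = 0 := by
        rw [hermForm_add_left, hermForm_add_right hK, hermForm_add_right hK, hermForm_smul_left, hermForm_smul_left,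
          hermForm_smul_right, hermForm_smul_right, hzy, hyz, ← mul_assoc t, ← pow_succ', ht,
          div_mul_cancel₀ _ hyy]
        ring
      refine hD' (z + t • y) ?_ ?_ h1
      · intro x hx
        rw [hermForm_add_left, hermForm_smul_left, hzp x hx, hyp x hx]; ring
      · intro h2
        have h3 : hermForm n K q (z + t • y) z = 0 := by rw [h2, hermForm_zero_left]
        rw [hermForm_add_left, hermForm_smul_left, hyz, mul_zero, add_zero] at h3
        exact hzz h3
    -- the scalar
    have hgz : ∃ μ : K, act g z = μ • z := by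
      refine ⟨hermForm n K q (act g z - z) z / hermForm n K q z z + 1, ?_⟩
      rw [add_smul, ← hline _ (hperp z), one_smul, sub_add_cancel]
    obtain ⟨μ, hμ⟩ := hgz
    have hμ0 : μ ≠ 0 := by
      rintro rfl
      rw [zero_smul] at hμ
      exact act_ne_zero hx₀ hμ
    have hfix : ∀ x, hermForm n K q x z = 0 → act g x = x := by
      intro x hx
      have h1 : hermForm n K q (act g x) z = 0 := by
        have h2 : hermForm n K q (act g x) (μ • z) = 0 := by rw [← hμ, act_form, hx]
        rw [hermForm_smul_right] at h2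
        exact (mul_eq_zero.mp h2).resolve_left (pow_ne_zero _ hμ0)
      have h3 := hline _ (hperp x)
      rw [hermForm_sub_left, h1, hx, sub_zero, zero_div, zero_smul] at h3
      exact sub_eq_zero.mp h3
    have hact : ∀ x, act g x = x + ((μ - 1) / hermForm n K q z z * hermForm n K q x z) • z := by
      intro x
      have h1 : x = (x - (hermForm n K q x z / hermForm n K q z z) • z) +
        (hermForm n K q x z / hermForm n K q z z) • z := by module
      have h2 := hfix (x - (hermForm n K q x z / hermForm n K q z z) • z) (by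
        rw [hermForm_sub_left, hermForm_smul_left, div_mul_cancel₀ _ hzz, sub_self])
      conv_lhs => rw [h1, act_add, act_smul, hμ, h2]
      module
    have hmat : ((g : Matrix.SpecialLinearGroup (Fin n) K) : Matrix (Fin n) (Fin n) K) =
        1 + ((μ - 1) / hermForm n K q z z) • Matrix.vecMulVec z (fun j => z j ^ q) := by
      ext i j
      have h1 := congrFun (hact (Pi.single j 1)) i
      rw [← rankOne_mulVec, act_def, mulVec_single_one', mulVec_single_one'] at h1
      exact h1
    have hdet : ((g : Matrix.SpecialLinearGroup (Fin n) K) : Matrix (Fin n) (Fin n) K).det = 1 :=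
      Matrix.SpecialLinearGroup.det_coe _
    rw [hmat, det_rankOne] at hdet
    have e1 : (fun j => z j ^ q) ⬝ᵥ z = hermForm n K q z z := by
      rw [hermForm_def, dotProduct]
      exact Finset.sum_congr rfl fun i _ => mul_comm _ _
    rw [e1, div_mul_cancel₀ _ hzz] at hdet
    have hμ1 : μ = 1 := by linear_combination hdet
    apply hne
    apply act_ext
    intro x
    rw [hact x, hμ1, act_one]
    module

include hK in
theorem su_simple (p : ℕ) [Fact p.Prime] [CharP K p] (hn : 4 ≤ n)
    (S : Sylow p (Cfsg.PSU n K q)) : (groupFusionSystem (S : Subgroup (Cfsg.PSU n K q))).IsSimple p := by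
  classical
  obtain ⟨a, ha0, ha⟩ := exists_skew hK
  -- two hyperbolic pairs
  obtain ⟨u₁, v₁, h1, -, hk1⟩ := exists_hyp_coord (q := q) (n := n) hK ⟨0, by omega⟩ ⟨1, by omega⟩
    (by intro h; exact absurd (congrArg Fin.val h) (by simp))
  obtain ⟨u₂, v₂, h2, -, hk2⟩ := exists_hyp_coord (q := q) (n := n) hK ⟨2, by omega⟩ ⟨3, by omega⟩
    (by intro h; exact absurd (congrArg Fin.val h) (by simp))
  have hcross : ∀ x y : Fin n → K, (∀ k : Fin n, k ≠ ⟨0, by omega⟩ → k ≠ ⟨1, by omega⟩ → x k = 0) →
      (∀ k : Fin n, k ≠ ⟨2, by omega⟩ → k ≠ ⟨3, by omega⟩ → y k = 0) → hermForm n K q x y = 0 := by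
    intro x y hx hy
    rw [hermForm_def]
    apply Finset.sum_eq_zero
    intro k _
    by_cases hk : k = ⟨0, by omega⟩ ∨ k = ⟨1, by omega⟩
    · have h3 : y k = 0 := by
        apply hy
        · rintro rfl
          rcases hk with h | h <;> exact absurd (congrArg Fin.val h) (by simp)
        · rintro rfl
          rcases hk with h | h <;> exact absurd (congrArg Fin.val h) (by simp)
      rw [h3, zero_pow_q hK, mul_zero]
    · push Not at hk
      rw [hx k hk.1 hk.2, zero_mul]
  have hb0 : (-a) ≠ 0 := neg_ne_zero.mpr ha0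
  set c := (-a)⁻¹ with hc
  have hcq : c ^ q = -c := by rw [hc, inv_pow, neg_pow_q hK, ha, neg_neg, inv_neg, neg_neg]
  have hac : a * c ^ q = 1 := by
    rw [hcq, hc, inv_neg, neg_neg, mul_inv_cancel₀ ha0]
  let φ : SU n K q →* Cfsg.PSU n K q := QuotientGroup.mk' _
  have hker : ∀ g, g ∈ φ.ker ↔ ∃ b : K, ∀ x, suA n q g x = b • x := by
    intro g
    have h1 : φ.ker = Subgroup.center (SU n K q) := QuotientGroup.ker_mk' _
    rw [h1]
    constructor
    · intro hg
      obtain ⟨b, hb⟩ := (mem_center_SU_iff hK (by omega) g).mp hg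
      refine ⟨b, fun x => ?_⟩
      rw [suA_apply, act_def, hb]
      ext i
      rw [Matrix.mulVec_diagonal]; rfl
    · rintro ⟨b, hb⟩
      rw [Subgroup.mem_center_iff]
      intro h
      apply act_ext
      intro v
      rw [act_mul, act_mul, ← suA_apply n g, ← suA_apply n g, hb, hb, act_smul]
  have hfinX : Finite (SU n K q) := inferInstance
  refine (suGeo hK n p ha0 ha).simple φ (QuotientGroup.mk'_surjective _) hker (e₁ := u₁) (f₁ := c • v₁)
    (e₂ := u₂) (f₂ := c • v₂) ?_ ?_ ?_ ?_ ?_ ?_ ?_ ?_ ?_ ?_ ?_ S
  · show a * hermForm n K q u₁ u₁ = 0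
    rw [h1.1, mul_zero]
  · show a * hermForm n K q u₂ u₂ = 0
    rw [h2.1, mul_zero]
  · show a * hermForm n K q u₁ u₂ = 0
    rw [hcross u₁ u₂ (fun k h3 h4 => (hk1 k h3 h4).1) (fun k h3 h4 => (hk2 k h3 h4).1), mul_zero]
  · show a * hermForm n K q (c • v₁) (c • v₁) = 0
    rw [hermForm_smul_left, hermForm_smul_right, h1.2.1]; ring
  · show a * hermForm n K q (c • v₂) (c • v₂) = 0
    rw [hermForm_smul_left, hermForm_smul_right, h2.2.1]; ring
  · show a * hermForm n K q (c • v₁) (c • v₂) = 0
    rw [hermForm_smul_left, hermForm_smul_right,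
      hcross v₁ v₂ (fun k h3 h4 => (hk1 k h3 h4).2) (fun k h3 h4 => (hk2 k h3 h4).2)]; ring
  · show a * hermForm n K q u₁ (c • v₁) = 1
    rw [hermForm_smul_right, h1.2.2, mul_one, hac]
  · show a * hermForm n K q u₂ (c • v₂) = 1
    rw [hermForm_smul_right, h2.2.2, mul_one, hac]
  · show a * hermForm n K q u₁ (c • v₂) = 0
    rw [hermForm_smul_right, hcross u₁ v₂ (fun k h3 h4 => (hk1 k h3 h4).1) (fun k h3 h4 => (hk2 k h3 h4).2)]; ring
  · show a * hermForm n K q u₂ (c • v₁) = 0
    rw [hermForm_smul_right, (hermForm_eq_zero_comm hK).1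
      (hcross v₁ u₂ (fun k h3 h4 => (hk1 k h3 h4).2) (fun k h3 h4 => (hk2 k h3 h4).1))]; ring
  · left
    obtain ⟨x, hx⟩ := exists_trace_eq hK (c := 1) (one_pow _)
    refine ⟨x, ?_⟩
    show x + x ^ q ≠ 0
    rw [hx]; exact one_ne_zero

end Cfsg.Agent.Fus.Polar
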