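import Cfsg.Agent.Fus.PolarMain

/-!
# Polar groups: simplicity of the `p`-fusion system, main theorem
-/

set_option autoImplicit false
set_option linter.unusedSectionVars false

namespace Cfsg.Agent.Fus.Polar.Geo

open Cfsg Cfsg.Agent.Fus

variable {p : ℕ} {K V X : Type*} [Field K] [AddCommGroup V] [Module K V] [Group X]
variable (G : Geo p K V X) [Fact p.Prime] [CharP K p]

theorem M_empty : G.M ∅ = ⊤ := by
  rw [eq_top_iff]
  intro g _ x hx
  exact absurd hx (Set.notMem_empty x)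

theorem mem_perp_empty (x : V) : x ∈ G.perp ∅ := fun y hy => absurd hy (Set.notMem_empty y)

/-- The stabiliser of a flag. -/
def Q (e₁ e₂ : V) : Subgroup X where
  carrier := {g | G.A g e₁ = e₁ ∧ ∃ a : K, G.A g e₂ = e₂ + a • e₁}
  mul_mem' := by
    rintro x y ⟨hx, a, ha⟩ ⟨hy, b, hb⟩
    refine ⟨by rw [G.mul_apply, hy, hx], a + b, ?_⟩
    rw [G.mul_apply, hb, map_add, map_smul, ha, hx]; module
  one_mem' := ⟨G.one_apply _, 0, by rw [G.one_apply]; module⟩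
  inv_mem' := by
    rintro x ⟨hx, a, ha⟩
    have h1 := G.inv_eq hx
    refine ⟨h1, -a, ?_⟩
    apply G.inv_eq
    rw [map_add, map_smul, ha, hx]; module

theorem mem_Q {e₁ e₂ : V} {g : X} : g ∈ G.Q e₁ e₂ ↔ G.A g e₁ = e₁ ∧ ∃ a : K, G.A g e₂ = e₂ + a • e₁ := Iff.rfl

/-- torus elements -/
theorem exists_torus {e₁ f₁ e₂ f₂ : V} (h11 : G.B e₁ e₁ = 0) (h22 : G.B e₂ e₂ = 0) (h12 : G.B e₁ e₂ = 0)
    (hf1 : G.B f₁ f₁ = 0) (hff : G.B f₂ f₂ = 0)
    (h1f1 : G.B e₁ f₁ = 1) (h2f2 : G.B e₂ f₂ = 1) (h1f2 : G.B e₁ f₂ = 0) (h2f1 : G.B e₂ f₁ = 0)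
    (H : Subgroup X) (hH : ∀ g : X, (∃ k : ℕ, g ^ p ^ k = 1) → G.A g e₁ ∈ Submodule.span K {e₁, e₂} →
      G.A g e₂ ∈ Submodule.span K {e₁, e₂} → g ∈ H) {l : K} (hl : l ≠ 0) :
    ∃ h ∈ H, G.A h e₁ = l • e₁ ∧ G.A h e₂ = l⁻¹ • e₂ := by
  have hA : ∀ t : K, ∃ g ∈ H, G.A g e₁ = e₁ ∧ G.A g e₂ = e₂ + t • e₁ := by
    intro t
    have h1 : G.B e₁ (G.σ t • f₂) = 0 := by rw [G.smul_right, h1f2, mul_zero]
    have h2 : (0 : K) - G.σ 0 = G.B (G.σ t • f₂) (G.σ t • f₂) := by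
      rw [G.smul_left, G.smul_right, hff, map_zero]; ring
    obtain ⟨g, hg⟩ := G.exists_eich h11 h1 h2
    have h3 : G.A g e₁ = e₁ := by rw [hg, G.eich_fix h11 h1]
    have h4 : G.A g e₂ = e₂ + t • e₁ := by
      rw [hg, G.eich_apply, G.zero_comm.mp h12, G.smul_right, G.σσ, h2f2]; module
    refine ⟨g, hH g (G.pElement_eich h11 h1 hg) ?_ ?_, h3, h4⟩
    · rw [h3]; exact Submodule.subset_span (by simp)
    · rw [h4]
      exact Submodule.add_mem _ (Submodule.subset_span (by simp))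
        (Submodule.smul_mem _ _ (Submodule.subset_span (by simp)))
  have hB : ∀ t : K, ∃ g ∈ H, G.A g e₂ = e₂ ∧ G.A g e₁ = e₁ + t • e₂ := by
    intro t
    have h1 : G.B e₂ (G.σ t • f₁) = 0 := by rw [G.smul_right, h2f1, mul_zero]
    have h2 : (0 : K) - G.σ 0 = G.B (G.σ t • f₁) (G.σ t • f₁) := by
      rw [G.smul_left, G.smul_right, hf1, map_zero]; ring
    obtain ⟨g, hg⟩ := G.exists_eich h22 h1 h2
    have h3 : G.A g e₂ = e₂ := by rw [hg, G.eich_fix h22 h1]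
    have h4 : G.A g e₁ = e₁ + t • e₂ := by
      rw [hg, G.eich_apply, h12, G.smul_right, G.σσ, h1f1]; module
    refine ⟨g, hH g (G.pElement_eich h22 h1 hg) ?_ ?_, h3, h4⟩
    · rw [h4]
      exact Submodule.add_mem _ (Submodule.subset_span (by simp))
        (Submodule.smul_mem _ _ (Submodule.subset_span (by simp)))
    · rw [h3]; exact Submodule.subset_span (by simp)
  have hW : ∀ t : K, t ≠ 0 → ∃ g ∈ H, G.A g e₁ = (-t⁻¹) • e₂ ∧ G.A g e₂ = t • e₁ := by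
    intro t ht
    obtain ⟨a, ha, ha1, ha2⟩ := hA t
    obtain ⟨b, hb, hb2, hb1⟩ := hB (-t⁻¹)
    refine ⟨a * b * a, H.mul_mem (H.mul_mem ha hb) ha, ?_, ?_⟩
    · rw [G.mul_apply, G.mul_apply, ha1, hb1, map_add, map_smul, ha1, ha2, smul_add, smul_smul, neg_mul,
        inv_mul_cancel₀ ht]
      module
    · rw [G.mul_apply, G.mul_apply, ha2, map_add, map_smul, hb2, hb1, smul_add, smul_smul, mul_neg,
        mul_inv_cancel₀ ht, map_add, map_add, map_smul, map_smul, ha1, ha2]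
      module
  obtain ⟨w1, hw1, h1, h2⟩ := hW l hl
  obtain ⟨w2, hw2, h3, h4⟩ := hW (-1) (neg_ne_zero.mpr one_ne_zero)
  refine ⟨w1 * w2, H.mul_mem hw1 hw2, ?_, ?_⟩
  · rw [G.mul_apply, h3, map_smul, h2, inv_neg, inv_one, neg_neg, one_smul]
  · rw [G.mul_apply, h4, map_smul, h1]; module

variable [Finite V] [Finite X]

/-- **Main theorem.** -/
theorem simple {Y : Type*} [Group Y] [Finite Y] (φ : X →* Y) (hφ : Function.Surjective φ)
    (hker : ∀ g, g ∈ φ.ker ↔ ∃ a : K, ∀ x, G.A g x = a • x)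
    {e₁ f₁ e₂ f₂ : V} (h11 : G.B e₁ e₁ = 0) (h22 : G.B e₂ e₂ = 0) (h12 : G.B e₁ e₂ = 0)
    (hf1 : G.B f₁ f₁ = 0) (hff : G.B f₂ f₂ = 0) (hf12 : G.B f₁ f₂ = 0)
    (h1f1 : G.B e₁ f₁ = 1) (h2f2 : G.B e₂ f₂ = 1) (h1f2 : G.B e₁ f₂ = 0) (h2f1 : G.B e₂ f₁ = 0)
    (halt : (∃ a, a + G.σ a ≠ 0) ∨ ((∀ a, G.σ a = a) ∧ ∃ y y' : V, G.B e₁ y = 0 ∧ G.B e₁ y' = 0 ∧
      G.B y' y = 0 ∧ (∀ a : K, y ≠ a • e₁) ∧ (∀ a : K, y' ≠ a • e₁) ∧ (∀ a : K, y + y' ≠ a • e₁)))
    (S : Sylow p Y) : (groupFusionSystem (S : Subgroup Y)).IsSimple p := by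
  classical
  have he₁ : e₁ ≠ 0 := by
    rintro rfl; rw [G.zero_left] at h1f1; exact zero_ne_one h1f1
  have he₂ : e₂ ≠ 0 := by
    rintro rfl; rw [G.zero_left] at h2f2; exact zero_ne_one h2f2
  have h21 := G.zero_comm.mp h12
  have hindep : ∀ a b : K, a • e₂ = b • e₁ → a = 0 := by
    intro a b h
    have h1 : G.B (a • e₂) f₂ = a := by rw [G.smul_left, h2f2, mul_one]
    rw [h, G.smul_left, h1f2, mul_zero] at h1
    exact h1.symm
  set D₁ : Submodule K V := Submodule.span K {e₁} with hD₁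
  set D₂ : Submodule K V := Submodule.span K {e₁, e₂} with hD₂
  have hmem1 : ∀ x, x ∈ D₁ ↔ ∃ a : K, a • e₁ = x := fun x => Submodule.mem_span_singleton
  have hmem2 : ∀ x, x ∈ D₂ ↔ ∃ a b : K, a • e₁ + b • e₂ = x := fun x => Submodule.mem_span_pair
  have hiso1 : G.Iso D₁ := by
    intro x hx y hy
    obtain ⟨a, rfl⟩ := (hmem1 x).mp hx
    obtain ⟨b, rfl⟩ := (hmem1 y).mp hy
    rw [G.smul_left, G.smul_right, h11]; ring
  have hiso2 : G.Iso D₂ := by
    intro x hx y hy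
    obtain ⟨a, b, rfl⟩ := (hmem2 x).mp hx
    obtain ⟨c, d, rfl⟩ := (hmem2 y).mp hy
    simp only [G.add_left, G.add_right, G.smul_left, G.smul_right, h11, h22, h12, h21]; ring
  have he1D1 : e₁ ∈ D₁ := Submodule.subset_span (by simp)
  have he1D2 : e₁ ∈ D₂ := Submodule.subset_span (by simp)
  have he2D2 : e₂ ∈ D₂ := Submodule.subset_span (by simp)
  have hperp1 : ∀ x, x ∈ G.perp (D₁ : Set V) ↔ G.B x e₁ = 0 := by
    intro x
    constructor
    · intro h; exact h e₁ he1D1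
    · intro h y hy
      obtain ⟨a, rfl⟩ := (hmem1 y).mp hy
      rw [G.smul_right, h, mul_zero]
  have hperp2 : ∀ x, x ∈ G.perp (D₂ : Set V) ↔ G.B x e₁ = 0 ∧ G.B x e₂ = 0 := by
    intro x
    constructor
    · intro h; exact ⟨h e₁ he1D2, h e₂ he2D2⟩
    · rintro ⟨h1, h2⟩ y hy
      obtain ⟨a, b, rfl⟩ := (hmem2 y).mp hy
      rw [G.add_right, G.smul_right, G.smul_right, h1, h2]; ring
  -- the flag stabiliser acts on `D₁`, `D₂`
  have hQ1 : ∀ g ∈ G.Q e₁ e₂, ∀ x ∈ D₁, G.A g x ∈ D₁ := by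
    rintro g ⟨hg, -⟩ x hx
    obtain ⟨a, rfl⟩ := (hmem1 x).mp hx
    rw [map_smul, hg]; exact hx
  have hQ2 : ∀ g ∈ G.Q e₁ e₂, ∀ x ∈ D₂, G.A g x ∈ D₂ := by
    rintro g ⟨hg, c, hc⟩ x hx
    obtain ⟨a, b, rfl⟩ := (hmem2 x).mp hx
    rw [map_add, map_smul, map_smul, hg, hc]
    exact D₂.add_mem (D₂.smul_mem _ he1D2) (D₂.smul_mem _ (D₂.add_mem he2D2 (D₂.smul_mem _ he1D2)))
  have hR1Q : G.R D₁ ≤ G.Q e₁ e₂ := by
    rintro g ⟨hg, hg'⟩
    refine ⟨hg e₁ he1D1, ?_⟩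
    obtain ⟨a, ha⟩ := (hmem1 _).mp (hg' e₂ ((hperp1 _).mpr h21))
    exact ⟨a, by rw [ha]; abel⟩
  have hR2Q : G.R D₂ ≤ G.Q e₁ e₂ := by
    rintro g ⟨hg, -⟩
    exact ⟨hg e₁ he1D2, 0, by rw [hg e₂ he2D2]; module⟩
  have hER : G.E e₁ h11 ∅ ≤ G.R D₁ := by
    rintro g ⟨w, s, hw, hs, hg⟩
    exact G.eich_mem_R hiso1 he1D1 ((hperp1 w).mpr (G.perp_insert.mp hw).1) hg
  -- elements of `R D₁` are Eichler elements
  have hRE : G.R D₁ ≤ G.E e₁ h11 ∅ := by
    rintro g ⟨hg, hg'⟩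
    have hg1 := hg e₁ he1D1
    have h1 : G.B e₁ (G.A g f₁) = 1 := by rw [← h1f1, ← G.pres g e₁ f₁, hg1]
    have h2 : G.B (G.A g f₁) (G.A g f₁) = 0 := by rw [G.pres, hf1]
    obtain ⟨e, w, s, hw, huw, hs, he, hev, heu⟩ := G.exists_reg (D := ∅) (G.mem_perp_empty f₁)
      (G.mem_perp_empty (G.A g f₁)) h11 hf1 h2 h1f1 h1
    have heE : e ∈ G.E e₁ h11 ∅ := ⟨w, s, G.perp_insert.mpr ⟨G.zero_comm.mp huw, hw⟩, hs, he⟩
    have heR := hER heE
    have h3 : e⁻¹ * g ∈ G.R D₁ := (G.R D₁).mul_mem ((G.R D₁).inv_mem heR) ⟨hg, hg'⟩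
    have h4 : e⁻¹ * g = 1 := by
      apply G.faith
      have h5 : G.A (e⁻¹ * g) e₁ = e₁ := h3.1 e₁ he1D1
      have h6 : G.A (e⁻¹ * g) f₁ = f₁ := by rw [G.mul_apply]; exact G.inv_eq hev
      have h7 : ∀ x, G.B x e₁ = 0 → G.B x f₁ = 0 → G.A (e⁻¹ * g) x = x := by
        intro x hx hxf
        obtain ⟨a, ha⟩ := (hmem1 _).mp (h3.2 x ((hperp1 x).mpr hx))
        have h8 : G.B (G.A (e⁻¹ * g) x) f₁ = 0 := by
          conv_lhs => rw [← h6]
          rw [G.pres, hxf]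
        have h9 : G.A (e⁻¹ * g) x = x + a • e₁ := by rw [ha]; abel
        rw [h9, G.add_left, G.smul_left, hxf, h1f1, zero_add, mul_one] at h8
        rw [h9, h8, zero_smul, add_zero]
      intro x
      obtain ⟨x', a, b, rfl, hx'⟩ := G.exists_proj (G.mem_perp_empty e₁) (G.mem_perp_empty f₁) h11 hf1 h1f1
        (G.mem_perp_empty x)
      rw [G.perp_insert, G.perp_insert] at hx'
      rw [map_add, map_add, map_smul, map_smul, h5, h6, h7 x' hx'.1 hx'.2.1]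
    have h5 : g = e := by
      calc g = e * (e⁻¹ * g) := by group
        _ = e := by rw [h4, mul_one]
    rw [h5]; exact heE
  -- the Sylow subgroup
  obtain ⟨U, hUQ, hRU⟩ := exists_sylIn_ge hR1Q (G.isPGroup_R (p := p) D₁)
  have hR2U : G.R D₂ ≤ U := hUQ.le_of_normal (G.isPGroup_R D₂) hR2Q
    (fun g hg x hx => G.normalizes_R (hQ2 g hg) hx)
  have hEU : G.E e₁ h11 ∅ ≤ U := hER.trans hRU
  have hUp : ∀ u ∈ U, ∃ k : ℕ, u ^ p ^ k = 1 := by
    intro u hu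
    obtain ⟨k, hk⟩ := hUQ.isPGroup ⟨u, hu⟩
    exact ⟨k, congrArg Subtype.val hk⟩
  -- normalizer of `U` fixes the line `e₁`
  have hNline : ∀ g ∈ Subgroup.normalizer (U : Set X), ∃ a : K, G.A g e₁ = a • e₁ := by
    intro g hg
    refine G.fixed_of_E G.ND_empty (G.mem_perp_empty e₁) (G.mem_perp_empty f₁) h11 h1f1 (G.mem_perp_empty _) ?_
    intro h hh
    have h1 : g⁻¹ * h * g⁻¹⁻¹ ∈ U := (Subgroup.mem_normalizer_iff.mp (Subgroup.inv_mem _ hg) h).mp (hEU hh)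
    rw [inv_inv] at h1
    have h2 := (hUQ.le h1).1
    rw [G.mul_apply, G.mul_apply] at h2
    rw [← G.apply_inv g (G.A h (G.A g e₁)), h2]
  have hU : SylIn p U ⊤ := by
    refine hUQ.of_normalizer le_top ?_
    intro g _ hg hgp
    obtain ⟨a, ha⟩ := hNline g hg
    have hg1 := G.fix_of_scale hgp he₁ ha
    refine ⟨hg1, ?_⟩
    -- `g e₂`
    set v := G.A g e₂ with hv
    have hv1 : G.B v e₁ = 0 := by
      rw [hv]; conv_lhs => rw [← hg1]
      rw [G.pres, h21]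
    have hact : ∀ h ∈ G.R D₂, ∃ a : K, G.A h v = v + a • e₁ := by
      intro h hh
      have h1 : g⁻¹ * h * g⁻¹⁻¹ ∈ U := (Subgroup.mem_normalizer_iff.mp (Subgroup.inv_mem _ hg) h).mp (hR2U hh)
      rw [inv_inv] at h1
      obtain ⟨-, a, h2⟩ := hUQ.le h1
      refine ⟨a, ?_⟩
      rw [G.mul_apply, G.mul_apply, ← hv] at h2
      rw [← G.apply_inv g (G.A h v), h2, map_add, map_smul, hg1]
    have hv2 : G.B v e₂ = 0 := by
      obtain ⟨h, hh⟩ := G.exists_tv h22 (map_one G.σ)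
      obtain ⟨a, ha⟩ := hact h (G.eich_mem_R hiso2 he2D2 G.perp_zero hh)
      rw [hh, G.eich_apply, G.zero_right, smul_zero, zero_smul, add_zero, add_zero, one_mul, add_right_inj] at ha
      exact hindep _ _ ha
    have hv3 : ∀ w, G.B w e₁ = 0 → G.B w e₂ = 0 → G.B v w = 0 := by
      intro w hw1 hw2
      obtain ⟨s, hs⟩ := G.tr w
      obtain ⟨h, hh⟩ := G.exists_eich h22 (G.zero_comm.mp hw2) hs
      obtain ⟨a, ha⟩ := hact h (G.eich_mem_R hiso2 he2D2 ((hperp2 w).mpr ⟨hw1, hw2⟩) hh)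
      rw [hh, G.eich_apply, hv2, zero_smul, add_zero, mul_zero, zero_smul, add_zero, add_right_inj] at ha
      exact hindep _ _ ha
    have hf1e1 : G.B f₁ e₁ = -1 := by rw [G.skew e₁ f₁, h1f1, map_one]
    have hf2e2 : G.B f₂ e₂ = -1 := by rw [G.skew e₂ f₂, h2f2, map_one]
    have hf1e2 : G.B f₁ e₂ = 0 := G.zero_comm.mp h2f1
    have hf2e1 : G.B f₂ e₁ = 0 := G.zero_comm.mp h1f2
    have hvspan : v = (G.B v f₁) • e₁ + (G.B v f₂) • e₂ := by
      rw [← sub_eq_zero]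
      by_contra hne
      obtain ⟨t, hbt⟩ := G.nondeg _ hne
      apply hbt
      have h3 := hv3 (t + (G.B t e₁) • f₁ + (G.B t e₂) • f₂)
        (by rw [G.add_left, G.add_left, G.smul_left, G.smul_left, hf1e1, hf2e1]; ring)
        (by rw [G.add_left, G.add_left, G.smul_left, G.smul_left, hf1e2, hf2e2]; ring)
      rw [G.add_right, G.add_right, G.smul_right, G.smul_right] at h3
      rw [G.sub_left, G.add_left, G.smul_left, G.smul_left, G.skew t e₁, G.skew t e₂]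
      linear_combination h3
    -- the diagonal coefficient is one
    set β := G.B v f₂ with hβ
    set α := G.B v f₁ with hα
    have hpow : ∀ k : ℕ, ∃ c : K, G.A (g ^ k) e₂ = c • e₁ + β ^ k • e₂ := by
      intro k
      induction k with
      | zero => exact ⟨0, by rw [pow_zero, G.one_apply, pow_zero]; module⟩
      | succ k ih =>
        obtain ⟨c, hc⟩ := ih
        refine ⟨c + β ^ k * α, ?_⟩
        rw [pow_succ', G.mul_apply, hc, map_add, map_smul, map_smul, hg1, ← hv, hvspan]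
        module
    obtain ⟨k, hk⟩ := hgp
    obtain ⟨c, hc⟩ := hpow (p ^ k)
    rw [hk, G.one_apply] at hc
    have hβ1 : 1 - β ^ p ^ k = 0 := by
      apply hindep _ c
      have h5 : (1 - β ^ p ^ k) • e₂ = e₂ - β ^ p ^ k • e₂ := by module
      rw [h5, sub_eq_iff_eq_add]
      exact hc
    have hβ2 : β = 1 := char_pow_eq_one (p := p) (k := k) (sub_eq_zero.mp hβ1).symm
    refine ⟨α, ?_⟩
    rw [hvspan, hβ2, one_smul, add_comm]
  refine isSimple_of_cover φ hφ ?_ ?_ U hUQ.isPGroup ?_ ?_ ?_ ?_ S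
  · -- kernel central
    intro z hz x
    obtain ⟨a, ha⟩ := (hker z).mp hz
    apply G.ext
    ext v
    rw [G.mul_apply, G.mul_apply, ha, ha, map_smul]
  · -- kernel `p'`
    rintro z hz ⟨k, hk⟩
    obtain ⟨a, ha⟩ := (hker z).mp hz
    have h1 := G.fix_of_scale ⟨k, hk⟩ he₁ (ha e₁)
    rw [ha] at h1
    have h2 : a = 1 := by
      have h3 : (a - 1) • e₁ = 0 := by rw [sub_smul, h1, one_smul, sub_self]
      exact sub_eq_zero.mp ((smul_eq_zero.mp h3).resolve_right he₁)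
    apply G.faith
    intro x
    rw [ha, h2, one_smul]
  · -- `U` nontrivial
    intro h
    obtain ⟨g, hg⟩ := G.exists_tv h11 (map_one G.σ)
    have h1 : g ∈ U := hRU (G.eich_mem_R hiso1 he1D1 G.perp_zero hg)
    rw [h, Subgroup.mem_bot] at h1
    have h2 := G.one_apply f₁
    rw [← h1, hg, G.eich_apply, G.zero_right, smul_zero, zero_smul, add_zero, add_zero, one_mul, add_eq_left,
      G.skew e₁ f₁, h1f1, map_one] at h2
    exact he₁ ((smul_eq_zero.mp h2).resolve_left (neg_ne_zero.mpr one_ne_zero))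
  · intro g hg hgp
    exact hU.mem_of_normalizer (Subgroup.mem_top g) hg hgp
  · -- strongly closed subgroups
    intro T hTU hT1 hsc
    have hfin : Finite U := inferInstance
    obtain ⟨z, hz, hz1, hzc⟩ := exists_central_of_normal hUQ.isPGroup hTU (fun s hs t ht => hsc t ht s
      (U.mul_mem (U.mul_mem hs (hTU ht)) (U.inv_mem hs))) hT1
    obtain ⟨r, hr, a, ha⟩ := G.centralizer_R hiso1 he1D1 h1f1 (c := z) (fun x hx => hzc x (hRU hx))
    have hzr : z = r := by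
      obtain ⟨ζ, hζ⟩ : ∃ ζ, ζ = r⁻¹ * z := ⟨_, rfl⟩
      rw [← hζ] at ha
      have hζc : ∀ x, x * ζ = ζ * x := by
        intro x
        apply G.ext
        ext v
        rw [G.mul_apply, G.mul_apply, ha, ha, map_smul]
      obtain ⟨k, hk⟩ := hUp z (hTU hz)
      obtain ⟨m, hm⟩ := G.pElement_R (p := p) hr
      have h1 : z = r * ζ := by rw [hζ]; group
      have h2 : ζ ^ p ^ (k + m) = 1 := by
        have h3 : z ^ p ^ (k + m) = 1 := by rw [pow_add, pow_mul, hk, one_pow]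
        have h4 : r ^ p ^ (k + m) = 1 := by rw [pow_add, mul_comm, pow_mul, hm, one_pow]
        have h5 : Commute r ζ := hζc r
        rw [h1, h5.mul_pow, h4, one_mul] at h3
        exact h3
      have h6 := G.fix_of_scale ⟨_, h2⟩ he₁ (ha e₁)
      rw [ha] at h6
      have h7 : a = 1 := by
        have h3 : (a - 1) • e₁ = 0 := by rw [sub_smul, h6, one_smul, sub_self]
        exact sub_eq_zero.mp ((smul_eq_zero.mp h3).resolve_right he₁)
      have h8 : ζ = 1 := by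
        apply G.faith
        intro x
        rw [ha, h7, one_smul]
      rw [h1, h8, mul_one]
    have hzE : z ∈ G.E e₁ h11 ∅ := by rw [hzr]; exact hRE hr
    obtain ⟨c, hc0, hcσ, g, hgT, hg⟩ := G.exists_tv_mem hsc hTU h11 h1f1 h12 h1f2 h22 h2f2 hEU hz hzE hz1 halt
    have hscale : ∀ l : K, l ≠ 0 → ∃ h, G.A h e₁ = l • e₁ := by
      intro l hl
      have hp : ∀ x, G.B x e₁ = 0 → G.B x f₁ = 0 → x ∈ G.perp (insert e₁ (insert f₁ (∅ : Set V))) := by
        intro x hx hx'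
        rw [G.perp_insert, G.perp_insert]
        exact ⟨hx, hx', G.mem_perp_empty x⟩
      obtain ⟨h, -, hh⟩ := G.exists_scale (D := ∅) (G.mem_perp_empty e₁) (G.mem_perp_empty f₁) h11 hf1 h1f1
        (hp e₂ h21 h2f1) (hp f₂ (G.zero_comm.mp h1f2) (G.zero_comm.mp hf12)) (by rw [h2f2]; exact one_ne_zero) hl
      exact ⟨h, hh⟩
    have h0 := G.tv_all hsc h11 hEU hscale hc0 hcσ hgT hg
    have hET : G.E e₁ h11 ∅ ≤ T := by
      refine G.E_le_T hsc h11 h22 h12 hff h1f2 h2f2 he₁ hEU ?_ h0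
      intro a b c g hc hg
      exact hR2U (G.eich_mem_R hiso2 (D₂.add_mem (D₂.smul_mem _ he1D2) (D₂.smul_mem _ he2D2)) G.perp_zero hg)
    refine G.sylow_le (U := U) (T := T) ?_ _ ∅ (Nat.lt_succ_self _) G.ND_empty U (by rw [M_empty]; exact hU) le_rfl
    rintro g hgU ⟨u, w, s, hu0, huu, huw, hs, hg⟩
    obtain ⟨h, -, l, hl, hh⟩ := G.exists_trans G.ND_empty (G.mem_perp_empty u) (G.mem_perp_empty e₁) huu h11 hu0 he₁
    have h1 : G.A (h * g * h⁻¹) = G.eich e₁ (G.σ l • G.A h w) (l * G.σ l * s) := by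
      rw [G.conj_eich hg, hh, G.eich_smul]
    have h2 : h * g * h⁻¹ ∈ G.E e₁ h11 ∅ := by
      refine ⟨_, _, ?_, ?_, h1⟩
      · rw [G.perp_insert]
        refine ⟨?_, G.mem_perp_empty _⟩
        have h3 : G.B (l • e₁) (G.A h w) = 0 := by rw [← hh, G.pres, huw]
        rw [G.smul_left] at h3
        rw [G.smul_left, G.zero_comm.mp ((mul_eq_zero.mp h3).resolve_left hl), mul_zero]
      · rw [G.smul_left, G.smul_right, G.pres, G.σσ, map_mul, map_mul, G.σσ, ← hs]; ring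
    have h3 := hET h2
    have h4 : g = h⁻¹ * (h * g * h⁻¹) * h⁻¹⁻¹ := by group
    rw [h4]
    apply hsc _ h3
    rw [← h4]; exact hgU
  · -- the normalizer of `U`
    intro g hg
    set C := Subgroup.closure {g : X | g ∈ Subgroup.normalizer (U : Set X) ∧
      ∃ R : Subgroup X, R ≤ U ∧ (∀ c : X, (∀ x ∈ R, x * c = c * x) → ∃ r ∈ R, φ r = φ c) ∧
        g ∈ Subgroup.closure {g : X | g ∈ Subgroup.normalizer (R : Set X) ∧
          ((∃ k : ℕ, g ^ p ^ k = 1) ∨ g ∈ φ.ker ∨ g ∈ R)}} with hC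
    have hcen : ∀ D : Submodule K V, G.Iso D → e₁ ∈ D → ∀ c : X, (∀ x ∈ G.R D, x * c = c * x) →
        ∃ r ∈ G.R D, φ r = φ c := by
      intro D hD he c hc
      obtain ⟨r, hr, a, ha⟩ := G.centralizer_R hD he h1f1 hc
      refine ⟨r, hr, ?_⟩
      have h1 := (hker (r⁻¹ * c)).mpr ⟨a, ha⟩
      rw [MonoidHom.mem_ker, map_mul, map_inv] at h1
      exact inv_mul_eq_one.mp h1
    obtain ⟨l, hl⟩ := hNline g hg
    have hl0 : l ≠ 0 := by
      rintro rfl
      rw [zero_smul] at hl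
      apply he₁
      rw [← G.inv_apply g e₁, hl, map_zero]
    -- the group generated by `p`-elements normalizing `R D₂`
    set Y₂ := Subgroup.closure {g : X | g ∈ Subgroup.normalizer ((G.R D₂ : Subgroup X) : Set X) ∧
          ((∃ k : ℕ, g ^ p ^ k = 1) ∨ g ∈ φ.ker ∨ g ∈ G.R D₂)} with hY₂
    have hgenD2 : ∀ g : X, (∃ k : ℕ, g ^ p ^ k = 1) → G.A g e₁ ∈ D₂ → G.A g e₂ ∈ D₂ → g ∈ Y₂ := by
      intro g hgp h1 h2
      refine Subgroup.subset_closure ⟨G.mem_normalizer_R ?_, Or.inl hgp⟩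
      intro x hx
      obtain ⟨a, b, rfl⟩ := (hmem2 x).mp hx
      rw [map_add, map_smul, map_smul]
      exact D₂.add_mem (D₂.smul_mem _ h1) (D₂.smul_mem _ h2)
    obtain ⟨h₀, hh₀, hh1, hh2⟩ := G.exists_torus (p := p) h11 h22 h12 hf1 hff h1f1 h2f2 h1f2 h2f1 Y₂ hgenD2 hl0
    have hh1' : G.A h₀⁻¹ e₁ = l⁻¹ • e₁ := by
      apply G.inv_eq
      rw [map_smul, hh1, smul_smul, inv_mul_cancel₀ hl0, one_smul]
    have hh2' : G.A h₀⁻¹ e₂ = l • e₂ := by
      apply G.inv_eq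
      rw [map_smul, hh2, smul_smul, mul_inv_cancel₀ hl0, one_smul]
    have hUY : U ≤ Y₂ := by
      intro u hu
      refine hgenD2 u (hUp u hu) ?_ ?_
      · exact hQ2 u (hUQ.le hu) _ he1D2
      · exact hQ2 u (hUQ.le hu) _ he2D2
    have hUQ' : SylIn p U (G.Q e₁ e₂ ⊓ Y₂) := hUQ.of_le (le_inf hUQ.le hUY) inf_le_left
    have hcjU : cj h₀ U ≤ G.Q e₁ e₂ ⊓ Y₂ := by
      rw [cj_le_iff]
      intro x hx
      obtain ⟨hx1, a, hx2⟩ := hUQ.le hx
      refine ⟨⟨?_, l * a * l, ?_⟩, Y₂.mul_mem (Y₂.mul_mem hh₀ (hUY hx)) (Y₂.inv_mem hh₀)⟩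
      · rw [G.mul_apply, G.mul_apply, hh1', map_smul, hx1, map_smul, hh1, smul_smul, inv_mul_cancel₀ hl0, one_smul]
      · rw [G.mul_apply, G.mul_apply, hh2', map_smul, hx2, smul_add, map_add, map_smul, hh2, map_smul, map_smul,
          hh1, smul_smul, mul_inv_cancel₀ hl0, one_smul]
        module
    obtain ⟨k, hk, hkU⟩ := hUQ'.exists_conj hcjU (hUQ.isPGroup.map _)
    have hhN : k * h₀ ∈ Subgroup.normalizer (U : Set X) := by
      have hfin : Finite U := inferInstance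
      apply mem_normalizer_of_conj
      intro x hx
      have h1 := hkU _ (conj_mem_cj (g := h₀) hx)
      have h2 : k * h₀ * x * (k * h₀)⁻¹ = k * (h₀ * x * h₀⁻¹) * k⁻¹ := by group
      rw [h2]; exact h1
    have hhC : k * h₀ ∈ C := Subgroup.subset_closure ⟨hhN, G.R D₂, hR2U, hcen D₂ hiso2 he1D2,
      Y₂.mul_mem hk.2 hh₀⟩
    have hhe : G.A (k * h₀) e₁ = l • e₁ := by
      rw [G.mul_apply, hh1, map_smul, hk.1.1]
    -- the rest
    have hrest : ∀ x ∈ Subgroup.normalizer (U : Set X), G.A x e₁ = e₁ → x ∈ C := by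
      intro x hx hxe
      refine Subgroup.subset_closure ⟨hx, G.R D₁, hRU, hcen D₁ hiso1 he1D1, ?_⟩
      have h1 : G.B e₁ (G.A x f₁) = 1 := by rw [← h1f1, ← G.pres x e₁ f₁, hxe]
      have h2 : G.B (G.A x f₁) (G.A x f₁) = 0 := by rw [G.pres, hf1]
      obtain ⟨e, w, s, hw, huw, hs, he, hev, heu⟩ := G.exists_reg (D := ∅) (G.mem_perp_empty f₁)
        (G.mem_perp_empty (G.A x f₁)) h11 hf1 h2 h1f1 h1
      have heE : e ∈ G.E e₁ h11 ∅ := ⟨w, s, G.perp_insert.mpr ⟨G.zero_comm.mp huw, hw⟩, hs, he⟩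
      have hD1stab : ∀ y : X, G.A y e₁ = e₁ → y ∈ Subgroup.normalizer ((G.R D₁ : Subgroup X) : Set X) := by
        intro y hy
        apply G.mem_normalizer_R
        intro v hv
        obtain ⟨a, rfl⟩ := (hmem1 v).mp hv
        rw [map_smul, hy]; exact hv
      have h3 : e⁻¹ * x ∈ G.M (insert e₁ (insert f₁ (∅ : Set V))) := by
        rw [G.mem_M_insert, G.mem_M_insert]
        refine ⟨?_, ?_, by rw [M_empty]; exact Subgroup.mem_top _⟩
        · rw [G.mul_apply, hxe]; exact G.inv_eq heu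
        · rw [G.mul_apply]; exact G.inv_eq hev
      have h4 := G.M_le_Y (p := p) _ _ (Nat.lt_succ_self _) (G.ND_insert G.ND_empty (G.mem_perp_empty e₁)
        (G.mem_perp_empty f₁) h11 hf1 h1f1) h3
      have h5 : x = e * (e⁻¹ * x) := by group
      rw [h5]
      apply Subgroup.mul_mem
      · exact Subgroup.subset_closure ⟨hD1stab e heu, Or.inl (hUp e (hEU heE))⟩
      · refine (Subgroup.closure_mono ?_) h4
        rintro y ⟨hy, hyp⟩
        exact ⟨hD1stab y (hy e₁ (by simp)), Or.inl hyp⟩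
    have hfinal : (k * h₀)⁻¹ * g ∈ C := by
      apply hrest
      · exact Subgroup.mul_mem _ (Subgroup.inv_mem _ hhN) hg
      · rw [G.mul_apply, hl]
        exact G.inv_eq hhe
    have h6 : g = (k * h₀) * ((k * h₀)⁻¹ * g) := by group
    rw [h6]
    exact C.mul_mem hhC hfinal

end Cfsg.Agent.Fus.Polar.Geo
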