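import Cfsg.Agent.Fus.PolarSimple

/-!
# S5171: the `p`-fusion system of `PSp_{2m}(K)` is simple
-/

set_option autoImplicit false
set_option linter.unusedSectionVars false

namespace Cfsg.Agent.Fus.Polar

open Cfsg Cfsg.Agent.Fus Matrix Cfsg.Agent.ClassSp

variable {K : Type*} [Field K] [Fintype K] (m : ℕ)

/-- the action on vectors -/
noncomputable def spA : symplecticGroup (Fin m) K →* Module.End K (Fin m ⊕ Fin m → K) where
  toFun g := Matrix.mulVecLin (g : Matrix (Fin m ⊕ Fin m) (Fin m ⊕ Fin m) K)
  map_one' := by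
    ext1 x
    ext
    simp
  map_mul' g h := by
    rw [Submonoid.coe_mul, Matrix.mulVecLin_mul]; rfl

theorem spA_apply (g : symplecticGroup (Fin m) K) (x : Fin m ⊕ Fin m → K) :
    spA m g x = (g : Matrix (Fin m ⊕ Fin m) (Fin m ⊕ Fin m) K) *ᵥ x := rfl

theorem sq_span (c c' : K) (hc : c ≠ 0) :
    c' ∈ AddSubgroup.closure {d : K | ∃ l : K, l ≠ 0 ∧ d = l * l * c} := by
  have h0 : ∀ l : K, l * l * c ∈ AddSubgroup.closure {d : K | ∃ l : K, l ≠ 0 ∧ d = l * l * c} := by
    intro l
    by_cases hl : l = 0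
    · rw [hl, zero_mul, zero_mul]; exact AddSubgroup.zero_mem _
    · exact AddSubgroup.subset_closure ⟨l, hl, rfl⟩
  by_cases h2 : (2 : K) = 0
  · have hchar : ringChar K = 2 := by
      have : CharP K 2 := CharTwo.of_one_ne_zero_of_two_eq_zero one_ne_zero h2
      exact ringChar.eq K 2 ▸ rfl
    obtain ⟨l, hl⟩ := FiniteField.isSquare_of_char_two hchar (c' / c)
    have h3 : c' = l * l * c := by
      rw [← hl, div_mul_cancel₀ _ hc]
    rw [h3]; exact h0 l
  · have h3 : c' = ((c' / c + 1) / 2) * ((c' / c + 1) / 2) * c - ((c' / c - 1) / 2) * ((c' / c - 1) / 2) * c := by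
      field_simp
      ring
    rw [h3]
    exact AddSubgroup.sub_mem _ (h0 _) (h0 _)

/-- The symplectic geometry. -/
noncomputable def spGeo (p : ℕ) : Geo p K (Fin m ⊕ Fin m → K) (symplecticGroup (Fin m) K) where
  A := spA m
  faith g h := ext_vec fun v => by rw [one_mulVec']; exact h v
  σ := RingHom.id K
  σσ _ := rfl
  B := sf
  add_left := sf_add_left
  smul_left := sf_smul_left
  skew x y := by rw [RingHom.id_apply]; exact sf_swap y x
  nondeg x hx := by
    obtain ⟨u, hu⟩ := exists_sf_ne_zero hx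
    exact ⟨u, by rw [sf_swap]; exact neg_ne_zero.mpr hu⟩
  pres g x y := sf_mulVec g x y
  tr w := ⟨0, by rw [sf_self, RingHom.id_apply, sub_self]⟩
  full f hf _ := ⟨ofLin f hf, LinearMap.ext fun v => ofLin_mulVec f hf v⟩
  norms c c' hc _ _ := sq_span c c' hc
  ns z z' _ a := ⟨0, 0, by rw [RingHom.id_apply, sub_self, sf_self]⟩
  d2 _ _ _ _ _ _ _ _ _ _ _ := rfl
  an D hD g hg := by
    apply ext_vec
    intro v
    rw [one_mulVec']
    by_contra hne
    refine hD (spA m g v - v) ?_ (sub_ne_zero.mpr hne) (sf_self _)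
    intro x hx
    rw [sf_sub_left, sub_eq_zero]
    conv_lhs => rw [← hg x hx]
    exact sf_mulVec g v x

theorem sp_simple (p : ℕ) [Fact p.Prime] [CharP K p] (hm : 2 ≤ m) (hex : m = 2 → 3 ≤ Fintype.card K)
    (S : Sylow p (Cfsg.PSp m K)) : (groupFusionSystem (S : Subgroup (Cfsg.PSp m K))).IsSimple p := by
  classical
  set i₁ : Fin m := ⟨0, by omega⟩ with hi₁
  set i₂ : Fin m := ⟨1, by omega⟩ with hi₂
  have h12 : i₁ ≠ i₂ := by intro h; exact absurd (congrArg Fin.val h) (by simp [hi₁, hi₂])
  have h21 := h12.symm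
  let e : Fin m → (Fin m ⊕ Fin m → K) := fun i => Pi.single (Sum.inl i) 1
  let f : Fin m → (Fin m ⊕ Fin m → K) := fun i => Pi.single (Sum.inr i) 1
  have hee : ∀ i j, sf (e i) (e j) = 0 := by
    intro i j
    show sf (Pi.single (Sum.inl i) 1) _ = _
    rw [sf_single_inl_left]; simp [e]
  have hff : ∀ i j, sf (f i) (f j) = 0 := by
    intro i j
    show sf (Pi.single (Sum.inr i) 1) _ = _
    rw [sf_single_inr_left]; simp [f]
  have hef : ∀ i j, sf (e i) (f j) = if i = j then 1 else 0 := by
    intro i j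
    show sf (Pi.single (Sum.inl i) 1) _ = _
    rw [sf_single_inl_left]
    simp [f, Pi.single_apply]
  have hindep : ∀ (i : Fin m) (t : K), i ≠ i₁ → t ≠ 0 → ∀ a : K, t • e i ≠ a • e i₁ := by
    intro i t hi ht a h
    have h1 := congrFun h (Sum.inl i)
    simp [e, hi] at h1
    exact ht h1
  let φ : symplecticGroup (Fin m) K →* Cfsg.PSp m K := QuotientGroup.mk' _
  have hker : ∀ g, g ∈ φ.ker ↔ ∃ a : K, ∀ x, spA m g x = a • x := by
    intro g
    have h1 : φ.ker = Subgroup.center (symplecticGroup (Fin m) K) := QuotientGroup.ker_mk' _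
    rw [h1]
    constructor
    · intro hg
      obtain ⟨a, -, ha⟩ := mem_center_iff.mp hg
      exact ⟨a, ha⟩
    · rintro ⟨a, ha⟩
      rw [Subgroup.mem_center_iff]
      intro h
      apply ext_vec
      intro v
      rw [mul_mulVec, mul_mulVec, ← spA_apply m g, ← spA_apply m g, ha, ha, Matrix.mulVec_smul]
  have hfinX : Finite (symplecticGroup (Fin m) K) := inferInstance
  refine (spGeo m p).simple φ (QuotientGroup.mk'_surjective _) hker (e₁ := e i₁) (f₁ := f i₁) (e₂ := e i₂)
    (f₂ := f i₂) (hee _ _) (hee _ _) (hee _ _) (hff _ _) (hff _ _) (hff _ _) ?_ ?_ ?_ ?_ ?_ S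
  · exact (hef _ _).trans (if_pos rfl)
  · exact (hef _ _).trans (if_pos rfl)
  · exact (hef _ _).trans (if_neg h12)
  · exact (hef _ _).trans (if_neg h21)
  · by_cases h2 : (2 : K) = 0
    · right
      refine ⟨fun _ => rfl, ?_⟩
      by_cases hm2 : m = 2
      · -- another scalar
        obtain ⟨t, ht0, ht1⟩ : ∃ t : K, t ≠ 0 ∧ t + 1 ≠ 0 := by
          by_contra hcon
          push Not at hcon
          have hsub : (Finset.univ : Finset K) ⊆ {0, -1} := by
            intro a _
            by_cases ha : a = 0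
            · simp [ha]
            · have := eq_neg_of_add_eq_zero_left (hcon a ha)
              simp [this]
          have h3 := Finset.card_le_card hsub
          have h4 : ({0, -1} : Finset K).card ≤ 2 := Finset.card_le_two
          rw [Finset.card_univ] at h3
          have := hex hm2
          omega
        refine ⟨e i₂, t • e i₂, hee _ _, ?_, ?_, ?_, hindep i₂ t h21 ht0, ?_⟩
        · show sf (e i₁) (t • e i₂) = 0
          rw [sf_smul_right, hee, mul_zero]
        · show sf (t • e i₂) (e i₂) = 0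
          rw [sf_smul_left, hee, mul_zero]
        · intro a
          have := hindep i₂ 1 h21 one_ne_zero a
          rwa [one_smul] at this
        · intro a
          have h3 : e i₂ + t • e i₂ = (t + 1) • e i₂ := by module
          rw [h3]
          exact hindep i₂ (t + 1) h21 ht1 a
      · set i₃ : Fin m := ⟨2, by omega⟩ with hi₃
        have h31 : i₃ ≠ i₁ := by intro h; exact absurd (congrArg Fin.val h) (by simp [hi₁, hi₃])
        have h32 : i₃ ≠ i₂ := by intro h; exact absurd (congrArg Fin.val h) (by simp [hi₂, hi₃])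
        refine ⟨e i₂, e i₃, hee _ _, hee _ _, hee _ _, ?_, ?_, ?_⟩
        · intro a
          have := hindep i₂ 1 h21 one_ne_zero a
          rwa [one_smul] at this
        · intro a
          have := hindep i₃ 1 h31 one_ne_zero a
          rwa [one_smul] at this
        · intro a h
          have h1 := congrFun h (Sum.inl i₃)
          simp [e, h31, h32] at h1
    · left
      refine ⟨1, ?_⟩
      show (1 : K) + 1 ≠ 0
      rw [one_add_one_eq_two]; exact h2

end Cfsg.Agent.Fus.Polar
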