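import Cfsg.Agent.Fus.PolarGen

/-!
# Polar groups: Eichler subgroups, strongly closed subgroups
-/

set_option autoImplicit false
set_option linter.unusedSectionVars false

namespace Cfsg.Agent.Fus.Polar.Geo

open Cfsg Cfsg.Agent.Fus

variable {p : ℕ} {K V X : Type*} [Field K] [AddCommGroup V] [Module K V] [Group X]
variable (G : Geo p K V X) [Fact p.Prime] [CharP K p]

/-- The group of Eichler elements with centre `u` and parameters orthogonal to `D`. -/
def E (u : V) (hu : G.B u u = 0) (D : Set V) : Subgroup X where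
  carrier := {g | ∃ w s, w ∈ G.perp (insert u D) ∧ s - G.σ s = G.B w w ∧ G.A g = G.eich u w s}
  mul_mem' := by
    rintro a b ⟨w, s, hw, hs, ha⟩ ⟨w', s', hw', hs', hb⟩
    have h1 := G.zero_comm.mp (G.perp_insert.mp hw).1
    have h2 := G.zero_comm.mp (G.perp_insert.mp hw').1
    refine ⟨w + w', s + s' + G.B w' w, G.perp_add hw hw', ?_, ?_⟩
    · rw [map_add, map_add, G.add_left, G.add_right, G.add_right, ← hs, ← hs', G.skew w' w]
      ring
    · rw [map_mul, ha, hb, G.eich_comp hu h1 h2]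
  one_mem' := ⟨0, 0, G.perp_zero, by rw [map_zero, sub_zero, G.zero_left], by rw [G.eich_zero, map_one]⟩
  inv_mem' := by
    rintro a ⟨w, s, hw, hs, ha⟩
    have h1 := G.zero_comm.mp (G.perp_insert.mp hw).1
    refine ⟨-w, -G.σ s, G.perp_neg hw, ?_, ?_⟩
    · rw [map_neg, G.σσ, G.neg_left, G.neg_right, ← hs]; ring
    · have h2 : G.eich u w s * G.eich u (-w) (-G.σ s) = 1 := by
        rw [G.eich_comp hu h1 (by rw [G.neg_right, h1, neg_zero]), add_neg_cancel, G.neg_left]
        have h3 : s + -G.σ s + -G.B w w = 0 := by rw [← hs]; ring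
        rw [h3, G.eich_zero]
      have h4 : G.A a⁻¹ * (G.A a * G.eich u (-w) (-G.σ s)) = G.eich u (-w) (-G.σ s) := by
        rw [← mul_assoc, ← map_mul, inv_mul_cancel, map_one, one_mul]
      rw [← h4, ha, h2, mul_one]

theorem mem_E {u : V} {hu : G.B u u = 0} {D : Set V} {g : X} :
    g ∈ G.E u hu D ↔ ∃ w s, w ∈ G.perp (insert u D) ∧ s - G.σ s = G.B w w ∧ G.A g = G.eich u w s := Iff.rfl

theorem pElement_E {u : V} {hu : G.B u u = 0} {D : Set V} {g : X} (hg : g ∈ G.E u hu D) :
    ∃ k : ℕ, g ^ p ^ k = 1 := by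
  obtain ⟨w, s, hw, hs, h⟩ := hg
  exact G.pElement_eich hu (G.zero_comm.mp (G.perp_insert.mp hw).1) h

theorem isPGroup_E (u : V) (hu : G.B u u = 0) (D : Set V) : IsPGroup p (G.E u hu D) := by
  rintro ⟨g, hg⟩
  obtain ⟨k, hk⟩ := G.pElement_E hg
  exact ⟨k, Subtype.ext hk⟩

theorem eich_fix {u w : V} {s : K} (hu : G.B u u = 0) (huw : G.B u w = 0) : G.eich u w s u = u := by
  rw [G.eich_apply, hu, huw]; simp

theorem E_le_M {u : V} (hu : G.B u u = 0) {D : Set V} (huD : u ∈ G.perp D) : G.E u hu D ≤ G.M (insert u D) := by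
  rintro g ⟨w, s, hw, hs, h⟩
  rw [G.perp_insert] at hw
  rw [G.mem_M_insert]
  exact ⟨by rw [h, G.eich_fix hu (G.zero_comm.mp hw.1)], G.eich_mem_M huD hw.2 h⟩

theorem E_conj {u : V} (hu : G.B u u = 0) {D : Set V} {g : X} (hg : g ∈ G.M (insert u D)) {x : X}
    (hx : x ∈ G.E u hu D) : g * x * g⁻¹ ∈ G.E u hu D := by
  obtain ⟨w, s, hw, hs, h⟩ := hx
  have h1 := G.conj_eich (g := g) h
  rw [(G.mem_M_insert.mp hg).1] at h1
  exact ⟨G.A g w, s, G.perp_act hg hw, by rw [G.pres]; exact hs, h1⟩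

/-- transvection with parameter `1` -/
theorem exists_tv {u : V} (hu : G.B u u = 0) {c : K} (hc : G.σ c = c) : ∃ g, G.A g = G.eich u 0 c :=
  G.exists_eich hu (G.zero_right _) (by rw [hc, sub_self, G.zero_right])

/-- vectors fixed by `E u D` -/
theorem fixed_of_E {D : Set V} (hD : G.ND D) {u u' : V} (hu : u ∈ G.perp D) (hu' : u' ∈ G.perp D)
    (huu : G.B u u = 0) (huu' : G.B u u' = 1) {x : V} (hx : x ∈ G.perp D)
    (h : ∀ g ∈ G.E u huu D, G.A g x = x) : ∃ a : K, x = a • u := by
  have hu0 : u ≠ 0 := by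
    rintro rfl; rw [G.zero_left] at huu'; exact zero_ne_one huu'
  have h1 : G.B x u = 0 := by
    obtain ⟨g, hg⟩ := G.exists_tv huu (map_one G.σ)
    have h2 := h g ⟨0, 1, G.perp_zero, by rw [map_one, sub_self, G.zero_left], hg⟩
    rw [hg, G.eich_apply, G.zero_right, smul_zero, zero_smul, add_zero, add_zero, one_mul, add_eq_left] at h2
    exact (smul_eq_zero.mp h2).resolve_right hu0
  have h2 : ∀ t ∈ G.perp (insert u D), G.B x t = 0 := by
    intro t ht
    obtain ⟨s, hs⟩ := G.tr t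
    obtain ⟨g, hg⟩ := G.exists_eich huu (G.zero_comm.mp (G.perp_insert.mp ht).1) hs
    have h3 := h g ⟨t, s, ht, hs, hg⟩
    rw [hg, G.eich_apply, h1, zero_smul, add_zero, mul_zero, zero_smul, add_zero, add_eq_left] at h3
    exact (smul_eq_zero.mp h3).resolve_right hu0
  refine ⟨G.B x u', ?_⟩
  rw [← sub_eq_zero]
  by_contra hne
  have hyp : x - G.B x u' • u ∈ G.perp D := G.perp_sub hx (G.perp_smul _ hu)
  obtain ⟨t, ht, hbt⟩ := hD _ hyp hne
  apply hbt
  -- decompose `t`
  set β := G.B t u with hβ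
  have hu'u : G.B u' u = -1 := by rw [G.skew u u', huu', map_one]
  have ht' : t + β • u' ∈ G.perp (insert u D) := by
    rw [G.perp_insert]
    refine ⟨?_, G.perp_add ht (G.perp_smul _ hu')⟩
    rw [G.add_left, G.smul_left, hu'u, ← hβ]; ring
  have h5 : G.B u t = -G.σ β := by rw [hβ, G.skew t u]
  have h3 := h2 _ ht'
  rw [G.add_right, G.smul_right] at h3
  rw [G.sub_left, G.smul_left, h5]
  linear_combination h3

theorem char_pow_eq_one {a : K} {k : ℕ} (h : a ^ p ^ k = 1) : a = 1 := by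
  have h4 : (a - 1) ^ p ^ k = 0 := by
    rw [sub_pow_char_pow, one_pow, h, sub_self]
  exact sub_eq_zero.mp (pow_eq_zero_iff (pow_ne_zero _ (Fact.out : p.Prime).ne_zero) |>.mp h4)

/-- a `p`-element fixing a line fixes it pointwise -/
theorem fix_of_scale {g : X} (hg : ∃ k : ℕ, g ^ p ^ k = 1) {u : V} (hu : u ≠ 0) {a : K} (h : G.A g u = a • u) :
    G.A g u = u := by
  have h1 : ∀ k : ℕ, G.A (g ^ k) u = a ^ k • u := by
    intro k
    induction k with
    | zero => rw [pow_zero, G.one_apply, pow_zero, one_smul]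
    | succ k ih => rw [pow_succ, G.mul_apply, h, map_smul, ih, smul_smul, pow_succ]; congr 1; ring
  obtain ⟨k, hk⟩ := hg
  have h2 := h1 (p ^ k)
  rw [hk, G.one_apply] at h2
  have h3 : (1 : K) = a ^ p ^ k := by
    have h4 : (1 - a ^ p ^ k) • u = 0 := by rw [sub_smul, ← h2, one_smul, sub_self]
    exact sub_eq_zero.mp ((smul_eq_zero.mp h4).resolve_right hu)
  rw [h, char_pow_eq_one h3.symm, one_smul]

variable [Finite V] [Finite X]

/-- Sylow subgroups of pointwise stabilisers are generated by Eichler elements. -/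
theorem sylow_le {U T : Subgroup X} (hT : ∀ g ∈ U, (∃ u w s, u ≠ 0 ∧ G.B u u = 0 ∧ G.B u w = 0 ∧
      s - G.σ s = G.B w w ∧ G.A g = G.eich u w s) → g ∈ T) :
    ∀ (n : ℕ) (D : Set V), (G.perp D).ncard < n → G.ND D → ∀ P, SylIn p P (G.M D) → P ≤ U → P ≤ T := by
  intro n
  induction n with
  | zero => intro D h; exact absurd h (Nat.not_lt_zero _)
  | succ n ih =>
    intro D hn hD P hP hPU
    by_cases hiso : ∃ u ∈ G.perp D, u ≠ 0 ∧ G.B u u = 0
    · obtain ⟨u₀, hu₀, hu₀0, hu₀u₀⟩ := hiso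
      obtain ⟨u₀', hu₀', hu₀'u₀', hu₀u₀'⟩ := G.exists_partner hD hu₀ hu₀u₀ hu₀0
      -- Sylow subgroup of the stabiliser of `u₀`
      obtain ⟨P₀, hP₀, hEP₀⟩ := exists_sylIn_ge (G.E_le_M hu₀u₀ hu₀) (G.isPGroup_E u₀ hu₀u₀ D)
      have hle : G.M (insert u₀ D) ≤ G.M D := fun g hg => (G.mem_M_insert.mp hg).2
      have hP₀' : SylIn p P₀ (G.M D) := by
        refine hP₀.of_normalizer hle ?_
        intro g hg hgn hgp
        rw [G.mem_M_insert]
        refine ⟨?_, hg⟩
        obtain ⟨a, ha⟩ := G.fixed_of_E hD hu₀ hu₀' hu₀u₀ hu₀u₀' (x := G.A g u₀) (G.perp_act hg hu₀) (by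
          intro h hh
          have h1 : g⁻¹ * h * g⁻¹⁻¹ ∈ P₀ := (Subgroup.mem_normalizer_iff.mp (Subgroup.inv_mem _ hgn) h).mp (hEP₀ hh)
          rw [inv_inv] at h1
          have h2 := (G.mem_M_insert.mp (hP₀.le h1)).1
          rw [G.mul_apply, G.mul_apply] at h2
          rw [← G.apply_inv g (G.A h (G.A g u₀)), h2])
        exact G.fix_of_scale hgp hu₀0 ha
      -- `P` fixes an isotropic vector
      obtain ⟨l, hl, hlP⟩ := hP₀'.exists_conj hP.le hP.isPGroup
      set u := G.A l⁻¹ u₀ with hu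
      have huD : u ∈ G.perp D := G.perp_act (Subgroup.inv_mem _ hl) hu₀
      have huu : G.B u u = 0 := by rw [hu, G.pres, hu₀u₀]
      have hu0 : u ≠ 0 := by
        intro h
        apply hu₀0
        rw [← G.apply_inv l u₀, ← hu, h, map_zero]
      have hPu : P ≤ G.M (insert u D) := by
        intro x hx
        rw [G.mem_M_insert]
        refine ⟨?_, hP.le hx⟩
        have h1 := (G.mem_M_insert.mp (hP₀.le (hlP x hx))).1
        rw [G.mul_apply, G.mul_apply, ← hu] at h1
        rw [← G.inv_apply l (G.A x u), h1]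
      have hle' : G.M (insert u D) ≤ G.M D := fun g hg => (G.mem_M_insert.mp hg).2
      have hPS : SylIn p P (G.M (insert u D)) := hP.of_le hPu hle'
      have hEP : G.E u huu D ≤ P := hPS.le_of_normal (G.isPGroup_E u huu D) (G.E_le_M huu huD)
        (fun g hg x hx => G.E_conj huu hg hx)
      have hET : G.E u huu D ≤ T := by
        intro e he
        obtain ⟨w, s, hw, hs, h⟩ := he
        exact hT e (hPU (hEP ⟨w, s, hw, hs, h⟩)) ⟨u, w, s, hu0, huu,
          G.zero_comm.mp (G.perp_insert.mp hw).1, hs, h⟩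
      obtain ⟨u', hu', hu'u', huu'⟩ := G.exists_partner hD huD huu hu0
      have hD' := G.ND_insert hD huD hu' huu hu'u' huu'
      have hn' : (G.perp (insert u (insert u' D))).ncard < n := by
        have h1 := Set.ncard_lt_ncard (G.perp_ssubset huD huu') (Set.toFinite _)
        omega
      have hMD' : G.M (insert u (insert u' D)) ≤ G.M (insert u D) := by
        intro g hg
        rw [G.mem_M_insert, G.mem_M_insert] at hg
        rw [G.mem_M_insert]
        exact ⟨hg.1, hg.2.2⟩
      -- factorization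
      have hfac : ∀ x ∈ P, ∃ e ∈ G.E u huu D, e⁻¹ * x ∈ P ⊓ G.M (insert u (insert u' D)) := by
        intro x hx
        have hxu := (G.mem_M_insert.mp (hPu hx)).1
        have hxD := (G.mem_M_insert.mp (hPu hx)).2
        have h1 : G.B u (G.A x u') = 1 := by
          rw [← huu', ← G.pres x u u', hxu]
        have h2 : G.B (G.A x u') (G.A x u') = 0 := by rw [G.pres, hu'u']
        obtain ⟨e, w, s, hw, huw, hs, he, hev, heu⟩ := G.exists_reg (D := D) hu' (G.perp_act hxD hu') huu hu'u' h2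
          huu' h1
        have heE : e ∈ G.E u huu D := ⟨w, s, G.perp_insert.mpr ⟨G.zero_comm.mp huw, hw⟩, hs, he⟩
        refine ⟨e, heE, P.mul_mem (P.inv_mem (hEP heE)) hx, ?_⟩
        show e⁻¹ * x ∈ G.M (insert u (insert u' D))
        rw [G.mem_M_insert, G.mem_M_insert]
        refine ⟨?_, ?_, Subgroup.mul_mem _ (Subgroup.inv_mem _ (hP.le (hEP heE))) hxD⟩
        · rw [G.mul_apply, hxu]; exact G.inv_eq heu
        · rw [G.mul_apply]; exact G.inv_eq hev
      have hP' : SylIn p (P ⊓ G.M (insert u (insert u' D))) (G.M (insert u (insert u' D))) := by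
        obtain ⟨Q, hQ, hPQ⟩ := exists_sylIn_ge (p := p) (K := P ⊓ G.M (insert u (insert u' D)))
          (L := G.M (insert u (insert u' D))) inf_le_right (hP.isPGroup.to_le inf_le_left)
        have h1 : IsPGroup p (G.E u huu D ⊔ Q : Subgroup X) := by
          apply IsPGroup.to_sup_of_normal_left' (G.isPGroup_E u huu D) hQ.isPGroup
          intro x hx
          apply mem_normalizer_of_conj
          intro y hy
          exact G.E_conj huu (hMD' (hQ.le hx)) hy
        have h2 : P ≤ G.E u huu D ⊔ Q := by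
          intro x hx
          obtain ⟨e, he, h3⟩ := hfac x hx
          have h4 : x = e * (e⁻¹ * x) := by group
          rw [h4]
          exact Subgroup.mul_mem _ (Subgroup.mem_sup_left he) (Subgroup.mem_sup_right (hPQ h3))
        have h3 := hPS.eq_of_le h2 (sup_le (G.E_le_M huu huD) (hQ.le.trans hMD')) h1
        have h4 : Q ≤ P := by rw [h3]; exact le_sup_right
        have h5 : P ⊓ G.M (insert u (insert u' D)) = Q := le_antisymm hPQ (le_inf h4 hQ.le)
        rw [h5]; exact hQ
      have hP'T := ih _ hn' hD' _ hP' (inf_le_left.trans hPU)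
      intro x hx
      obtain ⟨e, he, h3⟩ := hfac x hx
      have h4 : x = e * (e⁻¹ * x) := by group
      rw [h4]
      exact T.mul_mem (hET he) (hP'T h3)
    · push Not at hiso
      intro x hx
      have h1 : x = 1 := G.an D (fun w hw hw0 => hiso w hw hw0) x (hP.le hx)
      rw [h1]; exact T.one_mem

end Cfsg.Agent.Fus.Polar.Geo
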