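import Cfsg.Agent.Fus.UniqNorm
import Cfsg.Agent.Fus.CenE
import Cfsg.Agent.Fus.Hyper
import Cfsg.Agent.Fus.Group
import Cfsg.Agent.S5118
set_option autoImplicit false

/-!
# Normal subsystems of the fusion system of a strictly p-constrained group (helper85)
-/

namespace Cfsg.Agent.Fus

open Cfsg Cfsg.FusionSystem

section Grp

variable {G : Type*} [Group G]

/-- elements acting trivially on `Q` modulo `P` -/
def comK (Q P : Subgroup G) (hP : P.Normal) : Subgroup G where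
  carrier := {g | ∀ q ∈ Q, g * q * g⁻¹ * q⁻¹ ∈ P}
  one_mem' := fun q _ => by simp
  mul_mem' := by
    intro g h hg hh q hq
    have h1 := hP.conj_mem _ (hh q hq) g
    have h2 := P.mul_mem h1 (hg q hq)
    have e : g * (h * q * h⁻¹ * q⁻¹) * g⁻¹ * (g * q * g⁻¹ * q⁻¹) = g * h * q * (g * h)⁻¹ * q⁻¹ := by group
    rwa [e] at h2
  inv_mem' := by
    intro g hg q hq
    have h1 := hP.conj_mem _ (P.inv_mem (hg q hq)) g⁻¹
    have e : g⁻¹ * (g * q * g⁻¹ * q⁻¹)⁻¹ * g⁻¹⁻¹ = g⁻¹ * q * g⁻¹⁻¹ * q⁻¹ := by group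
    rwa [e] at h1

theorem mem_comK {Q P : Subgroup G} {hP : P.Normal} {g : G} : g ∈ comK Q P hP ↔ ∀ q ∈ Q, g * q * g⁻¹ * q⁻¹ ∈ P :=
  Iff.rfl

theorem comK_normal {Q P : Subgroup G} {hP : P.Normal} (hQ : Q.Normal) : (comK Q P hP).Normal := by
  constructor
  intro g hg k q hq
  have h1 := hg (k⁻¹ * q * k) (by simpa using hQ.conj_mem q hq k⁻¹)
  have h2 := hP.conj_mem _ h1 k
  have e : k * (g * (k⁻¹ * q * k) * g⁻¹ * (k⁻¹ * q * k)⁻¹) * k⁻¹ = k * g * k⁻¹ * q * (k * g * k⁻¹)⁻¹ * q⁻¹ := by group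
  rwa [e] at h2

theorem pow_comm_aux {Q P : Subgroup G} {g : G} (h1 : ∀ q ∈ Q, g * q * g⁻¹ * q⁻¹ ∈ P)
    (h2 : ∀ x ∈ P, g * x = x * g) (n : ℕ) : ∀ q ∈ Q, g ^ n * q * (g ^ n)⁻¹ = (g * q * g⁻¹ * q⁻¹) ^ n * q := by
  intro q hq
  induction n with
  | zero => simp
  | succ n ih =>
    have h3 : g * (g * q * g⁻¹ * q⁻¹) ^ n = (g * q * g⁻¹ * q⁻¹) ^ n * g := h2 _ (P.pow_mem (h1 q hq) n)
    calc g ^ (n + 1) * q * (g ^ (n + 1))⁻¹ = g * (g ^ n * q * (g ^ n)⁻¹) * g⁻¹ := by rw [pow_succ']; group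
      _ = g * (g * q * g⁻¹ * q⁻¹) ^ n * q * g⁻¹ := by rw [ih]; group
      _ = (g * q * g⁻¹ * q⁻¹) ^ n * (g * q * g⁻¹ * q⁻¹) * q := by rw [h3]; group
      _ = _ := by rw [← pow_succ]

variable [Finite G] {p : ℕ} [Fact p.Prime]

theorem comK_centralizer_le {Q P : Subgroup G} {hP : P.Normal} (hQ : Q.Normal) (hQp : IsPGroup p Q)
    (hQm : ∀ N : Subgroup G, N.Normal → IsPGroup p N → N ≤ Q)
    (hC : Subgroup.centralizer (Q : Set G) ≤ Q) (hPQ : P ≤ Q) :
    comK Q P hP ⊓ Subgroup.centralizer (P : Set G) ≤ Q := by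
  refine hQm _ ?_ ?_
  · have h1 := comK_normal (hP := hP) hQ
    have h2 : (Subgroup.centralizer (P : Set G)).Normal := inferInstance
    exact Subgroup.normal_inf_normal _ _
  · obtain ⟨m, hm⟩ := (IsPGroup.iff_card).mp hQp
    rintro ⟨g, hg1, hg2⟩
    have h3 : g ^ p ^ m ∈ Subgroup.centralizer (Q : Set G) := by
      rw [Subgroup.mem_centralizer_iff]
      intro q hq
      have h4 := pow_comm_aux hg1 (fun x hx => (Subgroup.mem_centralizer_iff.1 hg2 x hx).symm) (p ^ m) q hq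
      have h5 : (g * q * g⁻¹ * q⁻¹) ^ p ^ m = 1 := by
        have := pow_card_eq_one' (x := (⟨_, hPQ (hg1 q hq)⟩ : Q))
        rw [hm] at this
        exact congrArg Subtype.val this
      rw [h5, one_mul, mul_inv_eq_iff_eq_mul] at h4
      exact h4.symm
    obtain ⟨k, hk⟩ := hQp ⟨_, hC h3⟩
    refine ⟨m + k, Subtype.ext ?_⟩
    have := congrArg Subtype.val hk
    show g ^ p ^ (m + k) = 1
    rw [pow_add, pow_mul]
    exact this

theorem comK_sup_le {Q P : Subgroup G} {hP : P.Normal} (hQ : Q.Normal) (hQp : IsPGroup p Q)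
    (hQm : ∀ N : Subgroup G, N.Normal → IsPGroup p N → N ≤ Q)
    (hC : Subgroup.centralizer (Q : Set G) ≤ Q) (hPQ : P ≤ Q) :
    comK Q P hP ⊓ (Q ⊔ Subgroup.centralizer (P : Set G)) ≤ Q := by
  have h2 : (Subgroup.centralizer (P : Set G)).Normal := inferInstance
  refine hQm _ ?_ ?_
  · have h1 := comK_normal (hP := hP) hQ
    have h3 : (Q ⊔ Subgroup.centralizer (P : Set G)).Normal := Subgroup.sup_normal _ _
    exact Subgroup.normal_inf_normal _ _
  · obtain ⟨m, hm⟩ := (IsPGroup.iff_card).mp hQp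
    rintro ⟨g, hg1, hg2⟩
    have hg2' := hg2
    obtain ⟨q, hq, c, hc, rfl⟩ := Subgroup.mem_sup_of_normal_left.1 hg2'
    have h3 : (q * c) ^ p ^ m ∈ Q := by
      refine comK_centralizer_le hQ hQp hQm hC hPQ ⟨Subgroup.pow_mem _ hg1 _, ?_⟩
      have h4 := pow_mul_mem_of_normalizes (A := Subgroup.centralizer (P : Set G)) (a := q)
        (by rw [Subgroup.normalizer_eq_top]; trivial) hc (p ^ m)
      have h5 : q ^ p ^ m = 1 := by
        have := pow_card_eq_one' (x := (⟨_, hq⟩ : Q))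
        rw [hm] at this
        exact congrArg Subtype.val this
      rwa [h5, inv_one, one_mul] at h4
    obtain ⟨k, hk⟩ := hQp ⟨_, h3⟩
    refine ⟨m + k, Subtype.ext ?_⟩
    have := congrArg Subtype.val hk
    show (q * c) ^ p ^ (m + k) = 1
    rw [pow_add, pow_mul]
    exact this

end Grp

/-- The setting: `Q = O_p(G)` contains its centralizer, `E` is normal in `F_S(G)` over `T`, `P = T ∩ Q`. -/
structure SCData {G : Type*} [Group G] [Finite G] {p : ℕ} [Fact p.Prime] (S : Sylow p G) (Q T P : Subgroup G)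
    (E : FusionSystem T) : Prop where
  Qn : Q.Normal
  Qp : IsPGroup p Q
  Qm : ∀ N : Subgroup G, N.Normal → IsPGroup p N → N ≤ Q
  QC : Subgroup.centralizer (Q : Set G) ≤ Q
  QS : Q ≤ S
  hE : E.IsNormalIn (groupFusionSystem (S : Subgroup G)) p
  hP : P = T ⊓ Q

namespace SCData

variable {G : Type*} [Group G] [Finite G] {p : ℕ} [Fact p.Prime] {S : Sylow p G} {Q T P : Subgroup G}
  {E : FusionSystem T}

section

variable (h : SCData S Q T P E)
include h

theorem sc : (groupFusionSystem (S : Subgroup G)).StronglyClosed T := h.hE.1.2.2.2.1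
theorem inv : E.IsInvariantIn (groupFusionSystem (S : Subgroup G)) := h.hE.1.2.2
theorem TS : T ≤ S := h.sc.1
theorem PT : P ≤ T := by rw [h.hP]; exact inf_le_left
theorem PQ : P ≤ Q := by rw [h.hP]; exact inf_le_right
theorem sat : E.IsSaturated p := h.hE.1.1
theorem satF : (groupFusionSystem (S : Subgroup G)).IsSaturated p := h.hE.1.2.1

theorem conj_mem_T {g x : G} (hx : x ∈ T) (hgx : g * x * g⁻¹ ∈ S) : g * x * g⁻¹ ∈ T := by
  refine sc_map_mem h.sc (P := Subgroup.zpowers x) (f := fun y => g * y * g⁻¹) ?_ (Subgroup.mem_zpowers x) hx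
  refine isMap_group.2 ⟨Subgroup.zpowers_le.2 (h.TS hx), ?_, g, fun y _ => rfl⟩
  intro y hy
  obtain ⟨n, rfl⟩ := Subgroup.mem_zpowers_iff.1 hy
  rw [← conj_zpow]
  exact Subgroup.zpow_mem _ hgx n

theorem Pn : P.Normal := by
  constructor
  intro x hx g
  have h1 : g * x * g⁻¹ ∈ Q := h.Qn.conj_mem x (h.PQ hx) g
  rw [h.hP]
  exact ⟨h.conj_mem_T (h.PT hx) (h.QS h1), h1⟩

theorem T_le_comK : T ≤ comK Q P h.Pn := by
  intro t ht q hq
  rw [h.hP]
  have hqS := h.QS hq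
  refine ⟨?_, Q.mul_mem (h.Qn.conj_mem q hq t) (Q.inv_mem hq)⟩
  have e : t * q * t⁻¹ * q⁻¹ = t * (q * t⁻¹ * q⁻¹) := by group
  rw [e]
  exact T.mul_mem ht (sc_conj_mem h.sc hqS (T.inv_mem ht))

theorem mem_P_of {t q : G} (ht : t ∈ T) (hq : q ∈ Q) (htq : ∀ x ∈ P, t * x * t⁻¹ = q * x * q⁻¹) : t ∈ P := by
  rw [h.hP]
  refine ⟨ht, comK_sup_le (hP := h.Pn) h.Qn h.Qp h.Qm h.QC h.PQ ⟨h.T_le_comK ht, ?_⟩⟩
  have e : t = q * (q⁻¹ * t) := by group
  rw [e]
  refine Subgroup.mul_mem _ (Subgroup.mem_sup_left hq) (Subgroup.mem_sup_right ?_)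
  rw [Subgroup.mem_centralizer_iff]
  intro x hx
  have h1 := htq x hx
  calc x * (q⁻¹ * t) = q⁻¹ * (q * x * q⁻¹) * t := by group
    _ = q⁻¹ * (t * x * t⁻¹) * t := by rw [h1]
    _ = _ := by group

theorem centric : E.IsCentric P := by
  refine ⟨h.PT, fun R hR => ?_⟩
  have h1 : R = P := by
    obtain ⟨f, hf, rfl⟩ := isConj_iff.1 hR
    obtain ⟨-, -, g, hg⟩ := isMap_group.1 (inv_isMap h.inv hf)
    exact hf.img_eq fun x hx => by rw [hg x hx]; exact h.Pn.conj_mem x hx g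
  rw [h1]
  intro t ht
  rw [mem_centralizerIn] at ht
  exact h.mem_P_of ht.1 Q.one_mem fun x hx => by rw [← ht.2 x hx]; group

end

/-- the subgroup `K` -/
def K (h : SCData S Q T P E) : Subgroup G where
  carrier := {g | g ∈ comK Q P h.Pn ∧ IsMap E P (fun x => g * x * g⁻¹)}
  one_mem' := ⟨Subgroup.one_mem _, (isMap_id (F := E) h.PT).congr fun x _ => by simp⟩
  mul_mem' := by
    rintro a b ⟨ha1, ha2⟩ ⟨hb1, hb2⟩
    refine ⟨Subgroup.mul_mem _ ha1 hb1, (ha2.comp hb2 fun x hx => h.Pn.conj_mem x hx b).congr fun x _ => ?_⟩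
    group
  inv_mem' := by
    rintro a ⟨ha1, ha2⟩
    refine ⟨Subgroup.inv_mem _ ha1, ?_⟩
    have h1 : img P (fun x => a * x * a⁻¹) = P := ha2.img_eq fun x hx => h.Pn.conj_mem x hx a
    have h2 := ha2.minv_isMap
    rw [h1] at h2
    refine h2.congr fun y hy => ?_
    have h3 : a⁻¹ * y * a⁻¹⁻¹ ∈ P := h.Pn.conj_mem y hy a⁻¹
    have h4 := ha2.minv_apply h3
    have e : a * (a⁻¹ * y * a⁻¹⁻¹) * a⁻¹ = y := by group
    rwa [e] at h4

theorem mem_K (h : SCData S Q T P E) {g : G} :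
    g ∈ h.K ↔ g ∈ comK Q P h.Pn ∧ IsMap E P (fun x => g * x * g⁻¹) := Iff.rfl

section

variable (h : SCData S Q T P E)
include h

theorem PS : P ≤ S := h.PT.trans h.TS

theorem Knormal : h.K.Normal := by
  constructor
  rintro g ⟨hg1, hg2⟩ k
  refine ⟨(comK_normal h.Qn).conj_mem g hg1 k, ?_⟩
  have hk : k ∈ Subgroup.normalizer (P : Set G) := by
    have := h.Pn
    rw [Subgroup.normalizer_eq_top]; trivial
  have hg : g ∈ Subgroup.normalizer (P : Set G) := by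
    have := h.Pn
    rw [Subgroup.normalizer_eq_top]; trivial
  have hkF : conjAut k hk ∈ (groupFusionSystem (S : Subgroup G)).autGroup P := by
    rw [mem_autGroup_iff h.PS]
    exact isMap_group.2 ⟨h.PS, fun x hx => h.PS (ofAut_mem _ hx), k, fun x hx => ofAut_conjAut k hk hx⟩
  have hgE : conjAut g hg ∈ E.autGroup P := by
    rw [mem_autGroup_iff h.PT]
    exact hg2.congr fun x hx => (ofAut_conjAut g hg hx).symm
  have h1 := isMap_ofAut h.PT (inv_normal h.inv h.PT hkF hgE)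
  refine h1.congr fun x hx => ?_
  have h2 : ofAut (conjAut k hk)⁻¹ x = k⁻¹ * x * k := by
    have h3 : k⁻¹ * x * k⁻¹⁻¹ ∈ P := h.Pn.conj_mem x hx k⁻¹
    have h4 := ofAut_inv_apply (conjAut k hk) h3
    rw [ofAut_conjAut k hk h3] at h4
    have e : k * (k⁻¹ * x * k⁻¹⁻¹) * k⁻¹ = x := by group
    rw [e, inv_inv] at h4
    exact h4
  have h5 : k⁻¹ * x * k ∈ P := by simpa using h.Pn.conj_mem x hx k⁻¹
  have h6 : g * (k⁻¹ * x * k) * g⁻¹ ∈ P := h.Pn.conj_mem _ h5 g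
  rw [ofAut_mul _ _ hx, h2, ofAut_mul _ _ h5, ofAut_conjAut g hg h5, ofAut_conjAut k hk h6]
  group

theorem T_le_K : T ≤ h.K := by
  intro t ht
  exact ⟨h.T_le_comK ht, isMap_conj h.PT ht⟩

end

/-- `O^p(K)` -/
def L (h : SCData S Q T P E) : Subgroup G := Subgroup.closure {g | g ∈ h.K ∧ (orderOf g).Coprime p}

theorem L_le (h : SCData S Q T P E) : h.L ≤ h.K := (Subgroup.closure_le _).2 fun _ hx => hx.1

theorem mem_L (h : SCData S Q T P E) {g : G} (hg : g ∈ h.K) (hco : (orderOf g).Coprime p) : g ∈ h.L :=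
  Subgroup.subset_closure ⟨hg, hco⟩

theorem L_eq (h : SCData S Q T P E) : h.L = (Cfsg.pResidual p h.K).map h.K.subtype := by
  apply le_antisymm
  · unfold L
    rw [Subgroup.closure_le]
    rintro x ⟨hx, hco⟩
    exact ⟨⟨x, hx⟩, Subgroup.subset_closure (by show Nat.Coprime _ _; rwa [← Subgroup.orderOf_coe]), rfl⟩
  · unfold Cfsg.pResidual
    rw [MonoidHom.map_closure, Subgroup.closure_le]
    rintro _ ⟨x, hx, rfl⟩
    exact Subgroup.subset_closure ⟨x.2, by rw [Subgroup.coe_subtype, Subgroup.orderOf_coe]; exact hx⟩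

section

variable (h : SCData S Q T P E)
include h

theorem Lnormal : h.L.Normal := by
  constructor
  intro n hn g
  unfold L at hn ⊢
  refine Subgroup.closure_induction (p := fun n _ => g * n * g⁻¹ ∈ h.L) ?_ ?_ ?_ ?_ hn
  · rintro x ⟨hx, hco⟩
    refine h.mem_L (h.Knormal.conj_mem x hx g) ?_
    rwa [show g * x * g⁻¹ = MulAut.conj g x from rfl, MulEquiv.orderOf_eq]
  · simp
  · intro x y _ _ hx hy
    have := Subgroup.mul_mem _ hx hy
    have e : g * x * g⁻¹ * (g * y * g⁻¹) = g * (x * y) * g⁻¹ := by group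
    rwa [e] at this
  · intro x _ hx
    have := Subgroup.inv_mem _ hx
    have e : (g * x * g⁻¹)⁻¹ = g * x⁻¹ * g⁻¹ := by group
    rwa [e] at this

theorem fullyAut : E.IsFullyAutomized p P := by
  have hfT : Finite T := inferInstance
  refine sat_fullyAutomized (S.isPGroup'.to_le h.TS) h.sat ⟨h.PT, fun R hR => ?_⟩
  have h1 : R = P := by
    obtain ⟨f, hf, rfl⟩ := isConj_iff.1 hR
    obtain ⟨-, -, g, hg⟩ := isMap_group.1 (inv_isMap h.inv hf)
    exact hf.img_eq fun x hx => by rw [hg x hx]; exact h.Pn.conj_mem x hx g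
  rw [h1]

theorem mem_normP (g : G) : g ∈ Subgroup.normalizer (P : Set G) := by
  have := h.Pn
  rw [Subgroup.normalizer_eq_top]; trivial

/-- a `p`-subgroup of `Aut_E(P)` normalized by it lies in `Aut_T(P)` -/
theorem exists_T_of_Q {y : G} (hy : y ∈ Q) (hyE : conjAut y (h.mem_normP y) ∈ E.autGroup P) :
    ∃ t ∈ T, ∀ x ∈ P, t * x * t⁻¹ = y * x * y⁻¹ := by
  have hfP : Finite (MulAut P) := finite_mulAut
  have h1 := (fa_sylIn h.fullyAut).le_of_normal (N := autInducedBy Q P ⊓ E.autGroup P) inf_le_right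
    ((isPGroup_autInducedBy h.Qp P).to_le inf_le_left) ?_
  · obtain ⟨t, ht, ht'⟩ := mem_autInducedBy'.1 (h1 ⟨conjAut_mem hy _, hyE⟩)
    refine ⟨t, ht, fun x hx => ?_⟩
    rw [← ht' x hx, ofAut_conjAut _ _ hx]
  · refine conj_le_normalizer_of fun α hα κ hκ => ⟨?_, Subgroup.mul_mem _ (Subgroup.mul_mem _ hα hκ.2) (Subgroup.inv_mem _ hα)⟩
    obtain ⟨q, hq, hqκ⟩ := mem_autInducedBy'.1 hκ.1
    obtain ⟨-, -, g, hg⟩ := isMap_group.1 (inv_isMap h.inv (isMap_ofAut h.PT hα))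
    refine mem_autInducedBy'.2 ⟨g * q * g⁻¹, h.Qn.conj_mem q hq g, fun x hx => ?_⟩
    have hx' := ofAut_mem α⁻¹ hx
    have hx2 : g * ofAut α⁻¹ x * g⁻¹ = x := by rw [← hg _ hx', ofAut_apply_inv α hx]
    rw [ofAut_mul _ _ hx, ofAut_mul _ _ hx', hg _ (ofAut_mem κ hx'), hqκ _ hx']
    conv_rhs => rw [← hx2]
    group

/-- Step 5: automorphisms in `Aut_E(P)` are induced by `L T`. -/
theorem autGroup_le : E.autGroup P ≤ autInducedBy (h.L ⊔ T) P := by
  have hfP : Finite (MulAut P) := finite_mulAut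
  have hSp := S.isPGroup'
  refine sylIn_le_of_pprime (fa_sylIn h.fullyAut) (autInducedBy_mono le_sup_right) fun β hβ hco => ?_
  obtain ⟨κ, hκ, hκβ⟩ := exists_pgood hSp h.hE h.centric hβ hco
  obtain ⟨-, -, g₀, hg₀⟩ := isMap_group.1 hκ.good.isMap
  obtain ⟨k, hk1, hk2⟩ := exists_pprime_pow (p := p) g₀ hκ.co
  -- the element `g`
  obtain ⟨g, hg⟩ : ∃ g, g = g₀ ^ k := ⟨_, rfl⟩
  have hpow : ∀ (n : ℕ), ∀ x ∈ P ⊔ centralizerIn (S : Subgroup G) P, ofAut (κ ^ n) x = g₀ ^ n * x * (g₀ ^ n)⁻¹ := by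
    intro n
    induction n with
    | zero => intro x hx; rw [pow_zero, ofAut_one hx]; simp
    | succ n ih =>
      intro x hx
      rw [pow_succ', ofAut_mul _ _ hx, hg₀ _ (ofAut_mem _ hx), ih x hx, pow_succ']
      group
  have hgκ : ∀ x ∈ P ⊔ centralizerIn (S : Subgroup G) P, ofAut κ x = g * x * g⁻¹ := by
    intro x hx
    rw [hg, ← hpow k x hx]
    have h1 : κ ^ k = κ := by
      conv_rhs => rw [← pow_one κ]
      exact pow_eq_pow_iff_modEq.2 hk1
    rw [h1]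
  rw [← hg] at hk2
  have hgβ : ∀ x ∈ P, ofAut β x = g * x * g⁻¹ := fun x hx => by
    rw [← hκβ x hx, hgκ x (le_sup_left (a := P) hx)]
  rw [mem_autInducedBy']
  refine ⟨g, Subgroup.mem_sup_left (h.mem_L ⟨?_, ?_⟩ hk2), hgβ⟩
  · -- `[Q, g] ≤ P`
    have hgQ : g ∈ Subgroup.normalizer (Q : Set G) := by
      have := h.Qn
      rw [Subgroup.normalizer_eq_top]; trivial
    obtain ⟨m, hm⟩ := (IsPGroup.iff_card).mp h.Qp
    have hkey := coprime_mod (κ := conjAut g hgQ) (A₀ := P) (A₁ := Q ⊓ (P ⊔ centralizerIn (S : Subgroup G) P)) (B := Q)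
      le_rfl inf_le_left (le_inf h.PQ le_sup_left) (fun a _ => h.mem_normP a)
      (fun a ha => by rw [ofAut_conjAut _ _ (h.PQ ha)]; exact h.Pn.conj_mem a ha g)
      (fun a ha => by
        rw [ofAut_conjAut _ _ ha.1, ← hgκ a ha.2]
        have hP' : ∀ x ∈ P, g * x * g⁻¹ ∈ P := fun x hx => h.Pn.conj_mem x hx g
        have hPn := h.Pn
        obtain ⟨x, hx, c, hc, rfl⟩ := Subgroup.mem_sup_of_normal_left.1 ha.2
        have hc2 := hκ.good.triv c hc
        rw [ofAut_map_mul κ (le_sup_left (a := P) hx) (le_sup_right (a := P) hc)]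
        have e : (x * c)⁻¹ * (ofAut κ x * ofAut κ c) = (c⁻¹ * (x⁻¹ * ofAut κ x) * c⁻¹⁻¹) * (c⁻¹ * ofAut κ c) := by group
        rw [e]
        refine P.mul_mem (h.Pn.conj_mem _ (P.mul_mem (P.inv_mem hx) ?_) _) hc2
        rw [hgκ x (le_sup_left (a := P) hx)]
        exact hP' x hx)
      (fun b hb => by
        rw [ofAut_conjAut _ _ hb]
        have hyQ : b⁻¹ * (g * b * g⁻¹) ∈ Q := Q.mul_mem (Q.inv_mem hb) (h.Qn.conj_mem b hb g)
        refine ⟨hyQ, ?_⟩
        -- `y` acts on `P` as an element of `Aut_E(P)`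
        have hbF : conjAut b (h.mem_normP b) ∈ (groupFusionSystem (S : Subgroup G)).autGroup P :=
          conjAut_mem_autGroup h.PS (h.QS hb) _
        have h1 : conjAut (b⁻¹ * (g * b * g⁻¹)) (h.mem_normP _) ∈ E.autGroup P := by
          have h2 := inv_normal h.inv h.PT (Subgroup.inv_mem _ hbF) hβ
          have h3 := Subgroup.mul_mem _ h2 (Subgroup.inv_mem _ hβ)
          have e : (conjAut b (h.mem_normP b))⁻¹ * β * (conjAut b (h.mem_normP b))⁻¹⁻¹ * β⁻¹ =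
              conjAut (b⁻¹ * (g * b * g⁻¹)) (h.mem_normP _) := by
            have eb : (conjAut b (h.mem_normP b))⁻¹ = conjAut b⁻¹ (h.mem_normP b⁻¹) := by
              rw [inv_eq_iff_mul_eq_one]
              refine ofAut_injective fun x hx => ?_
              have hx' : b⁻¹ * x * b⁻¹⁻¹ ∈ P := h.Pn.conj_mem x hx b⁻¹
              rw [ofAut_mul _ _ hx, ofAut_conjAut _ _ hx, ofAut_conjAut _ _ hx', ofAut_one hx]
              group
            have eβ : β = conjAut g (h.mem_normP g) :=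
              ofAut_injective fun x hx => by rw [hgβ x hx, ofAut_conjAut _ _ hx]
            have eβ' : β⁻¹ = conjAut g⁻¹ (h.mem_normP g⁻¹) := by
              rw [inv_eq_iff_mul_eq_one, eβ]
              refine ofAut_injective fun x hx => ?_
              have hx' : g⁻¹ * x * g⁻¹⁻¹ ∈ P := h.Pn.conj_mem x hx g⁻¹
              rw [ofAut_mul _ _ hx, ofAut_conjAut _ _ hx, ofAut_conjAut _ _ hx', ofAut_one hx]
              group
            rw [inv_inv, eb, eβ']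
            conv_lhs => rw [eβ]
            refine ofAut_injective fun x hx => ?_
            have hx1 : g⁻¹ * x * g⁻¹⁻¹ ∈ P := h.Pn.conj_mem x hx g⁻¹
            have hx2 := h.Pn.conj_mem _ hx1 b
            have hx3 := h.Pn.conj_mem _ hx2 g
            rw [ofAut_mul _ _ hx, ofAut_conjAut _ _ hx, ofAut_mul _ _ hx1, ofAut_conjAut _ _ hx1, ofAut_mul _ _ hx2,
              ofAut_conjAut _ _ hx2, ofAut_conjAut _ _ hx3, ofAut_conjAut _ _ hx]
            group
          rwa [e] at h3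
        obtain ⟨t, ht, hty⟩ := h.exists_T_of_Q hyQ h1
        have htP := h.mem_P_of ht hyQ hty
        have e : b⁻¹ * (g * b * g⁻¹) = t * (t⁻¹ * (b⁻¹ * (g * b * g⁻¹))) := by group
        rw [e]
        refine Subgroup.mul_mem _ (Subgroup.mem_sup_left htP) (Subgroup.mem_sup_right (mem_centralizerIn.2
          ⟨Subgroup.mul_mem _ (Subgroup.inv_mem _ (h.PS htP)) (h.QS hyQ), fun x hx => ?_⟩))
        have h4 := hty x hx
        calc x * (t⁻¹ * (b⁻¹ * (g * b * g⁻¹))) = t⁻¹ * (t * x * t⁻¹) * (b⁻¹ * (g * b * g⁻¹)) := by group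
          _ = t⁻¹ * ((b⁻¹ * (g * b * g⁻¹)) * x * (b⁻¹ * (g * b * g⁻¹))⁻¹) * (b⁻¹ * (g * b * g⁻¹)) := by rw [h4]
          _ = _ := by group)
      (n := orderOf g) (N := Nat.card Q) (by
        refine ofAut_injective fun x hx => ?_
        have : ∀ n : ℕ, ∀ x ∈ Q, ofAut (conjAut g hgQ ^ n) x = g ^ n * x * (g ^ n)⁻¹ := by
          intro n
          induction n with
          | zero => intro x hx; rw [pow_zero, ofAut_one hx]; simp
          | succ n ih =>
            intro x hx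
            have hx' : g ^ n * x * (g ^ n)⁻¹ ∈ Q := h.Qn.conj_mem x hx _
            rw [pow_succ', ofAut_mul _ _ hx, ih x hx, ofAut_conjAut _ _ hx', pow_succ']
            group
        rw [this _ x hx, pow_orderOf_eq_one, ofAut_one hx]; simp)
      (fun a ha => by
        have := pow_card_eq_one' (x := (⟨a, ha.1⟩ : Q))
        exact congrArg Subtype.val this)
      (by rw [hm]; exact Nat.Coprime.pow_right m hk2)
    rw [mem_comK]
    intro q hq
    have h1 := hkey q hq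
    rw [ofAut_conjAut _ _ hq] at h1
    have h2 := h.Pn.conj_mem _ h1 q
    have e : q * (q⁻¹ * (g * q * g⁻¹)) * q⁻¹ = g * q * g⁻¹ * q⁻¹ := by group
    rwa [e] at h2
  · exact (isMap_ofAut h.PT hβ).congr hgβ


theorem Z_le : h.K ⊓ Subgroup.centralizer (P : Set G) ≤ Q := fun _ hg =>
  comK_centralizer_le (hP := h.Pn) h.Qn h.Qp h.Qm h.QC h.PQ ⟨hg.1.1, hg.2⟩

/-- Step 6 -/
theorem exists_T_of_S {s : G} (hs : s ∈ S) (hsK : s ∈ h.K) : ∃ t ∈ T, t⁻¹ * s ∈ h.K ⊓ Subgroup.centralizer (P : Set G) := by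
  have hfP : Finite (MulAut P) := finite_mulAut
  have h1 := IsFullyAutomized.le_of_isPGroup h.fullyAut (K := autInducedBy (S : Subgroup G) P ⊓ E.autGroup P) inf_le_right
    ((isPGroup_autInducedBy S.isPGroup' P).to_le inf_le_left)
    (le_inf (autInducedBy_mono h.TS) (autInducedBy_le_autGroup h.PT))
  have h2 : conjAut s (h.mem_normP s) ∈ E.autGroup P := by
    rw [mem_autGroup_iff h.PT]
    exact hsK.2.congr fun x hx => (ofAut_conjAut _ _ hx).symm
  obtain ⟨t, ht, ht'⟩ := mem_autInducedBy'.1 (h1 ⟨conjAut_mem hs _, h2⟩)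
  refine ⟨t, ht, Subgroup.mul_mem _ (Subgroup.inv_mem _ (h.T_le_K ht)) hsK, Subgroup.mem_centralizer_iff.2 ?_⟩
  intro x hx
  have h3 := ht' x hx
  rw [ofAut_conjAut _ _ hx] at h3
  calc x * (t⁻¹ * s) = t⁻¹ * (t * x * t⁻¹) * s := by group
    _ = t⁻¹ * (s * x * s⁻¹) * s := by rw [h3]
    _ = _ := by group

/-- Step 7 -/
theorem focal_mem {x k : G} (hx : x ∈ S) (hxK : x ∈ h.K) (hk : k ∈ h.K) (hkx : k * x * k⁻¹ ∈ S) :
    x⁻¹ * (k * x * k⁻¹) ∈ T := by
  obtain ⟨t, ht, hz⟩ := h.exists_T_of_S hx hxK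
  obtain ⟨z, hzdef⟩ : ∃ z, z = t⁻¹ * x := ⟨_, rfl⟩
  rw [← hzdef] at hz
  have hzQ := h.Z_le hz
  have hxtz : x = t * z := by rw [hzdef]; group
  have hkz : k * z * k⁻¹ ∈ Q := h.Qn.conj_mem z hzQ k
  have hktS : k * t * k⁻¹ ∈ S := by
    have e : k * t * k⁻¹ = (k * x * k⁻¹) * (k * z * k⁻¹)⁻¹ := by rw [hxtz]; group
    rw [e]
    exact Subgroup.mul_mem _ hkx (Subgroup.inv_mem _ (h.QS hkz))
  have hktT := h.conj_mem_T ht hktS
  have hkzP : z⁻¹ * (k * z * k⁻¹) ∈ P := by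
    have h1 := (mem_comK.1 hk.1) z hzQ
    have h2 := h.Pn.conj_mem _ h1 z⁻¹
    have e : z⁻¹ * (k * z * k⁻¹ * z⁻¹) * z⁻¹⁻¹ = z⁻¹ * (k * z * k⁻¹) := by group
    rwa [e] at h2
  have e : x⁻¹ * (k * x * k⁻¹) = (z⁻¹ * (t⁻¹ * (k * t * k⁻¹)) * z⁻¹⁻¹) * (z⁻¹ * (k * z * k⁻¹)) := by
    rw [hxtz]; group
  rw [e]
  exact T.mul_mem (sc_conj_mem h.sc (Subgroup.inv_mem _ (h.QS hzQ)) (T.mul_mem (T.inv_mem ht) hktT)) (h.PT hkzP)

theorem sylK : SylIn p ((S : Subgroup G) ⊓ h.K) h.K := by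
  have := h.Knormal
  have h1 : H85.SylIn p ((S : Subgroup G) ⊓ h.K) h.K :=
    (H85.sylIn_top S).inf_normal (N := h.K) le_top (by rw [Subgroup.normalizer_eq_top])
  obtain ⟨R, hR⟩ := (H85.sylIn_iff h1.le).1 h1
  have h2 := Fus.sylIn_of_sylow R
  rwa [hR, Subgroup.subgroupOf_map_subtype, inf_eq_left.2 h1.le] at h2

theorem S_inf_L_le : (S : Subgroup G) ⊓ h.L ≤ T := by
  have h1 := hyper_fsos (hTH := inf_le_right) h.sylK
  have h2 := hyper_le_focal (F := fusionSystemOfSubgroup h.K ((S : Subgroup G) ⊓ h.K) inf_le_right) (p := p)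
  rw [h1, ← h.L_eq] at h2
  intro x hx
  refine focal_le (R := T) ?_ (h2 ⟨⟨hx.1, h.L_le hx.2⟩, hx.2⟩)
  intro R f hf y hy
  obtain ⟨hR, hfS, k, hk, hkf⟩ := isMap_fsos.1 hf
  rw [hkf y hy]
  exact h.focal_mem (hR hy).1 (hR hy).2 hk (by rw [← hkf y hy]; exact (hfS y hy).1)

theorem S_inf_H : (S : Subgroup G) ⊓ (h.L ⊔ T) = T := by
  apply le_antisymm
  · rintro s ⟨hs, hsH⟩
    have := h.Lnormal
    obtain ⟨l, hl, t, ht, rfl⟩ := Subgroup.mem_sup_of_normal_left.1 hsH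
    have h1 : l ∈ S := by
      have := Subgroup.mul_mem _ hs (Subgroup.inv_mem _ (h.TS ht))
      rwa [mul_inv_cancel_right] at this
    exact T.mul_mem (h.S_inf_L_le ⟨h1, hl⟩) ht
  · exact le_inf h.TS le_sup_right

theorem Hnormal : (h.L ⊔ T).Normal := by
  have hLn := h.Lnormal
  have hKn := h.Knormal
  have h1 : H85.SylIn p ((S : Subgroup G) ⊓ h.K) h.K :=
    (H85.sylIn_top S).inf_normal (N := h.K) le_top (by rw [Subgroup.normalizer_eq_top])
  have hKle : h.K ≤ h.L ⊔ ((S : Subgroup G) ⊓ h.K) :=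
    sylIn_le_of_pprime h1 le_sup_right fun b hb hco => Subgroup.mem_sup_left (h.mem_L hb hco)
  -- `T` goes into `H` under `G`
  have key : ∀ g : G, ∀ t ∈ T, g * t * g⁻¹ ∈ h.L ⊔ T := by
    intro g t ht
    obtain ⟨k, hk, hkg⟩ := h1.exists_cj_le (C := H85.cj g ((S : Subgroup G) ⊓ h.K)) (by
      intro x hx
      rw [H85.mem_cj] at hx
      have := hKn.conj_mem _ hx.2 g
      have e : g * (g⁻¹ * x * g) * g⁻¹ = x := by group
      rwa [e] at this) (H85.isPGroup_cj (S.isPGroup'.to_le inf_le_left))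
    rw [H85.cj_cj] at hkg
    have h2 : (k * g) * t * (k * g)⁻¹ ∈ T :=
      h.conj_mem_T ht (hkg (H85.conj_mem_cj ⟨h.TS ht, h.T_le_K ht⟩)).1
    obtain ⟨l, hl, s, hs, hls⟩ := Subgroup.mem_sup_of_normal_left.1 (hKle (Subgroup.inv_mem _ hk))
    have h3 := sc_conj_mem h.sc hs.1 h2
    have e : g * t * g⁻¹ = l * (s * ((k * g) * t * (k * g)⁻¹) * s⁻¹) * l⁻¹ := by
      have : k = (l * s)⁻¹ := by rw [hls, inv_inv]
      rw [this]; group
    rw [e]
    exact Subgroup.mul_mem _ (Subgroup.mul_mem _ (Subgroup.mem_sup_left hl) (Subgroup.mem_sup_right h3))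
      (Subgroup.inv_mem _ (Subgroup.mem_sup_left hl))
  constructor
  intro x hx g
  obtain ⟨l, hl, t, ht, rfl⟩ := Subgroup.mem_sup_of_normal_left.1 hx
  have e : g * (l * t) * g⁻¹ = (g * l * g⁻¹) * (g * t * g⁻¹) := by group
  rw [e]
  exact Subgroup.mul_mem _ (Subgroup.mem_sup_left (hLn.conj_mem l hl g)) (key g t ht)

/-- the extension property of `P` in `F_S(G)` -/
theorem hext (R : Subgroup G) (f : G → G) (_hR : R ≤ T) (hf : IsMap (groupFusionSystem (S : Subgroup G)) R f) :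
    ∃ g, IsMap (groupFusionSystem (S : Subgroup G)) (R ⊔ P) g ∧ (∀ x ∈ R, g x = f x) ∧ ∀ x ∈ P, g x ∈ P := by
  obtain ⟨hRS, hfS, g, hg⟩ := isMap_group.1 hf
  have hPn := h.Pn
  refine ⟨fun x => g * x * g⁻¹, isMap_group.2 ⟨sup_le hRS h.PS, ?_, g, fun x _ => rfl⟩, fun x hx => (hg x hx).symm,
    fun x hx => hPn.conj_mem x hx g⟩
  intro x hx
  obtain ⟨r, hr, q, hq, rfl⟩ := Subgroup.mem_sup_of_normal_right.1 hx
  have e : g * (r * q) * g⁻¹ = (g * r * g⁻¹) * (g * q * g⁻¹) := by group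
  rw [e, ← hg r hr]
  exact Subgroup.mul_mem _ (hfS r hr) (h.PS (hPn.conj_mem q hq g))

end

end SCData

theorem isNormalIn_of_normal {G : Type*} [Group G] [Finite G] {p : ℕ} [Fact p.Prime] (S : Sylow p G)
    {H T : Subgroup G} (hH : H.Normal) (hT : (S : Subgroup G) ⊓ H = T) (hTH : T ≤ H) :
    (fusionSystemOfSubgroup H T hTH).IsNormalIn (groupFusionSystem (S : Subgroup G)) p := by
  subst hT
  exact Cfsg.Agent.S5118.result p S H

namespace SCData

variable {G : Type*} [Group G] [Finite G] {p : ℕ} [Fact p.Prime] {S : Sylow p G} {Q T P : Subgroup G}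
  {E : FusionSystem T}

theorem fs_eq (h : SCData S Q T P E) : E = fusionSystemOfSubgroup (h.L ⊔ T) T le_sup_right := by
  have hN := isNormalIn_of_normal S h.Hnormal h.S_inf_H le_sup_right
  have h' : SCData S Q T P (fusionSystemOfSubgroup (h.L ⊔ T) T le_sup_right) :=
    ⟨h.Qn, h.Qp, h.Qm, h.QC, h.QS, hN, h.hP⟩
  have hTn : T ≤ Subgroup.normalizer (P : Set G) := fun t _ => h.mem_normP t
  apply le_antisymm_fs
  · refine le_of_autGroup_le S.isPGroup' h.sat hN.1.1 h.inv hN.1.2.2 hTn h.hext h.centric fun β hβ => ?_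
    obtain ⟨g, hg, hgβ⟩ := mem_autInducedBy'.1 (h.autGroup_le hβ)
    rw [mem_autGroup_iff h.PT]
    exact isMap_fsos.2 ⟨h.PT, fun x hx => h.PT (ofAut_mem _ hx), g, hg, hgβ⟩
  · refine le_of_autGroup_le S.isPGroup' hN.1.1 h.sat hN.1.2.2 h.inv hTn h.hext h'.centric fun β hβ => ?_
    rw [mem_autGroup_iff h.PT] at hβ ⊢
    obtain ⟨-, -, g, hg, hgβ⟩ := isMap_fsos.1 hβ
    exact ((sup_le h.L_le h.T_le_K : h.L ⊔ T ≤ h.K) hg).2.congr fun x hx => (hgβ x hx).symm

theorem unique (h : SCData S Q T P E) {H' : Subgroup G} (hTH' : T ≤ H') (hn : H'.Normal)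
    (hR : ∃ R : Sylow p H', (R : Subgroup H') = T.subgroupOf H')
    (hE : ∀ R : Subgroup G, E.Hom R = (fusionSystemOfSubgroup H' T hTH').Hom R) : H' = h.L ⊔ T := by
  have hsyl : H85.SylIn p T H' := (H85.sylIn_iff hTH').2 hR
  have h1 : Q ⊓ H' ≤ T := by
    refine hsyl.le_of_normal inf_le_right (h.Qp.to_le inf_le_left) ?_
    have hQn := h.Qn
    have : (Q ⊓ H').Normal := Subgroup.normal_inf_normal _ _
    rw [Subgroup.normalizer_eq_top]; exact le_top
  have h2 : H' ≤ h.K := by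
    intro x hx
    refine ⟨fun q hq => ?_, ?_⟩
    · rw [h.hP]
      have h3 : x * q * x⁻¹ * q⁻¹ ∈ Q := Q.mul_mem (h.Qn.conj_mem q hq x) (Q.inv_mem hq)
      refine ⟨h1 ⟨h3, ?_⟩, h3⟩
      have e : x * q * x⁻¹ * q⁻¹ = x * (q * x⁻¹ * q⁻¹) := by group
      rw [e]
      exact H'.mul_mem hx (hn.conj_mem _ (H'.inv_mem hx) q)
    · rw [(hom_eq_iff (E := E) (F := fusionSystemOfSubgroup H' T hTH')).1 (hE P)]
      exact isMap_fsos.2 ⟨h.PT, fun y hy => h.PT (h.Pn.conj_mem y hy x), x, hx, fun y _ => rfl⟩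
  have h3 : h.L ≤ H' := by
    unfold L
    rw [Subgroup.closure_le]
    rintro g ⟨hg, hco⟩
    have h4 := hg.2
    rw [(hom_eq_iff (E := E) (F := fusionSystemOfSubgroup H' T hTH')).1 (hE P)] at h4
    obtain ⟨-, -, x, hx, hxg⟩ := isMap_fsos.1 h4
    have hz : x⁻¹ * g ∈ Q := by
      refine h.Z_le ⟨Subgroup.mul_mem _ (Subgroup.inv_mem _ (h2 hx)) hg, Subgroup.mem_centralizer_iff.2 ?_⟩
      intro y hy
      have h5 := hxg y hy
      calc y * (x⁻¹ * g) = x⁻¹ * (x * y * x⁻¹) * g := by group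
        _ = x⁻¹ * (g * y * g⁻¹) * g := by rw [h5]
        _ = _ := by group
    obtain ⟨z, hzdef⟩ : ∃ z, z = x⁻¹ * g := ⟨_, rfl⟩
    rw [← hzdef] at hz
    have hgz : g = z * (z⁻¹ * x * z⁻¹⁻¹) := by rw [hzdef]; group
    have hw : z⁻¹ * x * z⁻¹⁻¹ ∈ H' := hn.conj_mem x hx z⁻¹
    have h6 := pow_mul_mem_of_normalizes (A := H') (a := z) (by rw [Subgroup.normalizer_eq_top]; trivial) hw (Nat.card Q)
    have h7 : z ^ Nat.card Q = 1 := congrArg Subtype.val (pow_card_eq_one' (x := (⟨z, hz⟩ : Q)))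
    rw [h7, inv_one, one_mul, ← hgz] at h6
    obtain ⟨m, hm⟩ := (IsPGroup.iff_card).mp h.Qp
    refine mem_of_pow_coprime (n := Nat.card Q) (N := orderOf g) ?_ h6 (by rw [pow_orderOf_eq_one]; exact H'.one_mem)
    rw [hm]
    exact Nat.Coprime.pow_left m hco.symm
  apply le_antisymm
  · exact sylIn_le_of_pprime hsyl le_sup_right fun b hb hco => Subgroup.mem_sup_left (h.mem_L (h2 hb) hco)
  · exact sup_le h3 hTH'

end SCData

end Cfsg.Agent.Fus
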