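import Cfsg.Agent.Fus.PPow1
import Cfsg.Agent.Fus.Simple
import Cfsg.Agent.Fus.NormalChar
import Cfsg.Agent.Fus.Centric
import Cfsg.Agent.Fus.Good
set_option autoImplicit false

/-!
# Invariant subsystems with a common centric normal subgroup (helper85)
-/

namespace Cfsg.Agent.Fus

open Cfsg Cfsg.FusionSystem

theorem mul_pow_mod {G : Type*} [Group G] {N : Subgroup G} {a b : G} (ha : a ∈ Subgroup.normalizer (N : Set G))
    (hb : b ∈ Subgroup.normalizer (N : Set G)) (hab : (b * a)⁻¹ * (a * b) ∈ N) (n : ℕ) :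
    (a ^ n * b ^ n)⁻¹ * (a * b) ^ n ∈ N := by
  set M := Subgroup.normalizer (N : Set G)
  have hn : (N.subgroupOf M).Normal := Subgroup.normal_in_normalizer
  have h1 : Commute (QuotientGroup.mk (s := N.subgroupOf M) ⟨a, ha⟩) (QuotientGroup.mk (s := N.subgroupOf M) ⟨b, hb⟩) := by
    show QuotientGroup.mk _ * QuotientGroup.mk _ = QuotientGroup.mk _ * QuotientGroup.mk _
    rw [← QuotientGroup.mk_mul, ← QuotientGroup.mk_mul, eq_comm, QuotientGroup.eq]
    exact hab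
  have h2 := h1.mul_pow n
  rw [← QuotientGroup.mk_mul, ← QuotientGroup.mk_pow, ← QuotientGroup.mk_pow, ← QuotientGroup.mk_pow,
    ← QuotientGroup.mk_mul, eq_comm, QuotientGroup.eq] at h2
  exact h2

variable {Ω : Type*} [Group Ω] {S T : Subgroup Ω} {F : FusionSystem S} {p : ℕ}

/-- Invariant saturated subsystems over `T` with the same automorphism group on a subgroup `P` which is centric
in them and normal in `F`. -/
theorem le_of_autGroup_le [Finite S] [Fact p.Prime] (hS : IsPGroup p S) {E₁ E₂ : FusionSystem T}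
    (hs₁ : E₁.IsSaturated p) (hs₂ : E₂.IsSaturated p) (h₁ : E₁.IsInvariantIn F)
    (h₂ : E₂.IsInvariantIn F) {P : Subgroup Ω} (hPn : T ≤ Subgroup.normalizer (P : Set Ω))
    (hext : ∀ (R : Subgroup Ω) (f : Ω → Ω), R ≤ T → IsMap F R f → ∃ g, IsMap F (R ⊔ P) g ∧ (∀ x ∈ R, g x = f x) ∧
      ∀ x ∈ P, g x ∈ P) (hc : E₁.IsCentric P) (hA : E₁.autGroup P ≤ E₂.autGroup P) : E₁ ≤ E₂ := by
  have hTS : T ≤ S := h₁.2.1.1
  have hPT : P ≤ T := hc.1
  have hfT : Finite T := finite_of_le hTS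
  have hfP : Finite P := finite_of_le (hPT.trans hTS)
  have hTp : IsPGroup p T := hS.to_le hTS
  have hfix : ∀ f, IsMap F P f → img P f = P := by
    intro f hf
    obtain ⟨g, hg, hgf, hgP⟩ := hext P f hPT hf
    exact hf.img_eq fun x hx => by rw [← hgf x hx]; exact hgP x hx
  have hfc : E₂.IsFullyCentralized P := by
    refine ⟨hPT, fun Q hQ => ?_⟩
    obtain ⟨f, hf, rfl⟩ := isConj_iff.1 hQ
    rw [hfix f (inv_isMap h₂ hf)]
  have hrec : E₂.IsReceptive P := sat_receptive hTp hs₂ hfc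
  have hcT : ∀ t ∈ T, (∀ x ∈ P, x * t = t * x) → t ∈ P := fun t ht h => centric_centralizer_le hc (mem_centralizerIn.2 ⟨ht, h⟩)
  refine alperin_coprime hTp hs₁ fun R hRn hRc hRr α hα hco => ?_
  have hRT : R ≤ T := hRc.1
  have hRS : R ≤ S := hRT.trans hTS
  have hfR : Finite R := finite_of_le hRS
  have hfA : Finite (MulAut R) := finite_mulAut
  -- `P ≤ R`
  have hPR : P ≤ R := by
    refine le_of_chain hTp hRc hPn hPT fun x hx hxR => ?_
    refine radical_le hRr (K := autInducedBy (P ⊓ Subgroup.normalizer (R : Set Ω)) R) ?_ ?_ ?_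
      (conjAut_mem (K := P ⊓ Subgroup.normalizer (R : Set Ω)) ⟨hx, hxR⟩ hxR)
    · exact (autInducedBy_mono (inf_le_left.trans hPT)).trans (autInducedBy_le_autGroup hRT)
    · intro β hβ κ hκ
      obtain ⟨n, hn, hnκ⟩ := mem_autInducedBy'.mp hκ
      obtain ⟨g, hg, hgβ, hgP⟩ := hext R _ hRT (inv_isMap h₁ (isMap_ofAut hRT hβ))
      rw [mem_autInducedBy']
      have key : ∀ y ∈ R, ofAut (β * κ * β⁻¹) y = g n * y * (g n)⁻¹ := by
        intro y hy
        rw [mul_assoc, ofAut_mul _ _ hy, ofAut_mul _ _ hy]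
        have hy' : ofAut β⁻¹ y ∈ R := ofAut_mem _ hy
        rw [hnκ _ hy', ← hgβ _ (by rw [← hnκ _ hy']; exact ofAut_mem _ hy'),
          hg.map_conj (le_sup_right (a := R) hn.1) (le_sup_left (a := R) hy'), hgβ _ hy', ofAut_apply_inv _ hy]
      exact ⟨g n, ⟨hgP n hn.1, mem_normalizer_of_ofAut key⟩, key⟩
    · exact isPGroup_autInducedBy (S := P ⊓ Subgroup.normalizer (R : Set Ω)) (p := p)
        (hTp.to_le (inf_le_left.trans hPT)) R
  have hαm : IsMap E₁ R (ofAut α) := isMap_ofAut hRT hα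
  have hαF := inv_isMap h₁ hαm
  have hαA : α ∈ F.autGroup R := (mem_autGroup_iff hRS).2 hαF
  -- elements of `Aut_F(R)` preserve `P`
  have hpres : ∀ β ∈ F.autGroup R, ∀ x ∈ P, ofAut β x ∈ P := by
    intro β hβ x hx
    have h := hfix _ ((isMap_ofAut hRS hβ).mono hPR)
    rw [← h]
    exact subset_img hx
  -- restriction to `P`
  have hαP1 : IsMap E₁ P (ofAut α) := hαm.mono hPR
  have hαPi : img P (ofAut α) = P := hfix _ (hαF.mono hPR)
  have hαP2 : IsMap E₂ P (ofAut α) := by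
    have h := isMap_ofAut hPT (hA (hαP1.aut_mem hαPi))
    exact h.congr fun x hx => hαP1.ofAut_aut hαPi hx
  -- extend in `E₂`
  obtain ⟨a, ha, haα⟩ := recep_exists_extend_of_le hrec hαP2 hαPi hPR (fun n hn =>
    ⟨hRT hn, hPn (hRT hn), ofAut α n, hRT (ofAut_mem α hn), fun x hx => by
      rw [ofAut_map_mul α (R.mul_mem hn (hPR hx)) (R.inv_mem hn), ofAut_map_mul α hn (hPR hx),
        hαm.map_inv hn]⟩)
  have haF := inv_isMap h₂ ha
  have hdiff : ∀ r ∈ R, (a r)⁻¹ * ofAut α r ∈ P := by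
    intro r hr
    refine hcT _ (T.mul_mem (T.inv_mem (ha.mem hr)) (hαm.mem hr)) fun y hy => ?_
    rw [← hαPi, (hαF.mono hPR).mem_img] at hy
    obtain ⟨x, hx, rfl⟩ := hy
    have hn := (Subgroup.mem_normalizer_iff.1 (hPn (hRT hr)) x).1 hx
    have e1 : a (r * x * r⁻¹) = a r * ofAut α x * (a r)⁻¹ := by
      rw [ha.map_conj hr (hPR hx), haα x hx]
    have e2 : ofAut α (r * x * r⁻¹) = ofAut α r * ofAut α x * (ofAut α r)⁻¹ := hαm.map_conj hr (hPR hx)
    rw [haα _ hn, e2] at e1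
    calc ofAut α x * ((a r)⁻¹ * ofAut α r) = (a r)⁻¹ * (a r * ofAut α x * (a r)⁻¹) * ofAut α r := by group
      _ = (a r)⁻¹ * (ofAut α r * ofAut α x * (ofAut α r)⁻¹) * ofAut α r := by rw [e1]
      _ = _ := by group
  have haR : ∀ r ∈ R, a r ∈ R := by
    intro r hr
    have e : a r = ofAut α r * ((a r)⁻¹ * ofAut α r)⁻¹ := by group
    rw [e]
    exact R.mul_mem (ofAut_mem α hr) (R.inv_mem (hPR (hdiff r hr)))
  have haimg : img R a = R := ha.img_eq haR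
  obtain ⟨b, hb, hba⟩ := ha.exists_aut haimg
  have hbF : b ∈ F.autGroup R := (mem_autGroup_iff hRS).2 (inv_isMap h₂ (isMap_ofAut hRT hb))
  have hbα : ∀ x ∈ P, ofAut b x = ofAut α x := fun x hx => by rw [hba x (hPR hx), haα x hx]
  obtain ⟨γ, hγ⟩ : ∃ γ, γ = α⁻¹ * b := ⟨_, rfl⟩
  have hγF : γ ∈ F.autGroup R := by
    rw [hγ]; exact Subgroup.mul_mem _ (Subgroup.inv_mem _ hαA) hbF
  have hγP : ∀ x ∈ P, ofAut γ x = x := fun x hx => by
    rw [hγ, ofAut_mul _ _ (hPR hx), hbα x hx, ofAut_inv_apply α (hPR hx)]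
  have hγR : ∀ r ∈ R, r⁻¹ * ofAut γ r ∈ P := by
    intro r hr
    have h1 := hdiff r hr
    rw [← hba r hr] at h1
    have h2 := hpres _ (Subgroup.inv_mem _ hαA) _ (P.inv_mem h1)
    have hbr := ofAut_mem b hr
    have hαr := ofAut_mem α hr
    rw [mul_inv_rev, inv_inv, ofAut_map_mul _ (R.inv_mem hαr) hbr,
      (isMap_ofAut hRS (Subgroup.inv_mem _ hαA)).map_inv hαr, ofAut_inv_apply α hr] at h2
    rw [hγ, ofAut_mul _ _ hr]
    exact h2
  obtain ⟨k, hk⟩ := pow_eq_one_of_stab hS hRS hPR hγP hγR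
  -- the subgroup `N`
  let N : Subgroup (MulAut R) :=
    { carrier := {κ | κ ∈ E₁.autGroup R ∧ ∀ x ∈ P, ofAut κ x = x}
      one_mem' := ⟨Subgroup.one_mem _, fun x hx => ofAut_one (hPR hx)⟩
      mul_mem' := by
        rintro κ ν ⟨h1, h2⟩ ⟨h3, h4⟩
        exact ⟨Subgroup.mul_mem _ h1 h3, fun x hx => by rw [ofAut_mul _ _ (hPR hx), h4 x hx, h2 x hx]⟩
      inv_mem' := by
        rintro κ ⟨h1, h2⟩
        refine ⟨Subgroup.inv_mem _ h1, fun x hx => ?_⟩
        conv_lhs => rw [← h2 x hx]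
        exact ofAut_inv_apply κ (hPR hx) }
  have hNn : ∀ β ∈ F.autGroup R, ∀ κ ∈ N, β * κ * β⁻¹ ∈ N := by
    rintro β hβ κ ⟨h1, h2⟩
    refine ⟨inv_normal h₁ hRT hβ h1, fun x hx => ?_⟩
    have h3 := hpres _ (Subgroup.inv_mem _ hβ) x hx
    rw [ofAut_mul _ _ (hPR hx), ofAut_mul _ _ (hPR h3), h2 _ h3, ofAut_apply_inv β (hPR hx)]
  have hNn' : ∀ β ∈ F.autGroup R, β ∈ Subgroup.normalizer (N : Set (MulAut R)) := by
    intro β hβ
    rw [Subgroup.mem_normalizer_iff]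
    refine fun κ => ⟨hNn β hβ κ, fun h => ?_⟩
    have := hNn β⁻¹ (Subgroup.inv_mem _ hβ) _ h
    have e : β⁻¹ * (β * κ * β⁻¹) * β⁻¹⁻¹ = κ := by group
    rwa [e] at this
  have hN2 : N ≤ E₂.autGroup R := by
    rintro κ ⟨h1, h2⟩
    obtain ⟨z, hz, hzc, hzR⟩ := centric_unique hTp hs₁ (isMap_id' (F := E₁) hRT) (isMap_ofAut hRT h1) hc hPR
      (fun x hx => (h2 x hx).symm)
    rw [mem_autGroup_iff hRT]
    exact (isMap_conj hRT (hPT hz)).congr fun x hx => (hzR x hx).symm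
  have hcomm : (γ * α)⁻¹ * (α * γ) ∈ N := by
    refine ⟨?_, fun x hx => ?_⟩
    · have h3 : γ⁻¹ * α * γ⁻¹⁻¹ ∈ E₁.autGroup R := inv_normal h₁ hRT (Subgroup.inv_mem _ hγF) hα
      have e : (γ * α)⁻¹ * (α * γ) = α⁻¹ * (γ⁻¹ * α * γ⁻¹⁻¹) := by group
      rw [e]
      exact Subgroup.mul_mem _ (Subgroup.inv_mem _ hα) h3
    · have h4 := hpres _ hαA x hx
      have h5 : ofAut (γ * α) x = ofAut α x := by rw [ofAut_mul _ _ (hPR hx), hγP _ h4]
      rw [ofAut_mul _ _ (hPR hx), ofAut_mul α γ (hPR hx), hγP x hx, ← h5, ofAut_inv_apply _ (hPR hx)]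
  have h6 := mul_pow_mod (hNn' _ hαA) (hNn' _ hγF) hcomm (p ^ k)
  have e1 : α * γ = b := by rw [hγ]; group
  rw [hk, mul_one, e1] at h6
  have h7 : α ^ p ^ k ∈ E₂.autGroup R := by
    have e2 : α ^ p ^ k = b ^ p ^ k * ((α ^ p ^ k)⁻¹ * b ^ p ^ k)⁻¹ := by group
    rw [e2]
    exact Subgroup.mul_mem _ (Subgroup.pow_mem _ hb _) (Subgroup.inv_mem _ (hN2 h6))
  have h8 : α ∈ E₂.autGroup R := by
    refine mem_of_pow_coprime (n := p ^ k) (N := orderOf α) (Nat.Coprime.pow_left k hco.symm) h7 ?_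
    rw [pow_orderOf_eq_one]; exact Subgroup.one_mem _
  exact isMap_ofAut hRT h8

end Cfsg.Agent.Fus
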